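import Mathlib
import Cfsg.Agent.Lib.Char.Galois
import Cfsg.Agent.Lib.Char.GaloisC

/-!
# Knörr's lattice inequality for abelian stabilizers

`C` a finite abelian group, `z i` roots of unity, `μ i` linear characters of `C`.
The functions `latF z μ s u c = ∑ i ∈ s, z i ^ u * μ i c` are the restrictions to `⟨v⟩ × C` of
characters; the form with weights `|U : C_U(c)|` has minimum at least one on them.
-/

set_option autoImplicit false
set_option linter.style.haveILetI false
set_option linter.unusedSectionVars false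

namespace Cfsg.Agent.Lib.Coprime.KnorrLattice

open scoped ComplexConjugate

section Chars

variable {H : Type*} [Group H] [Finite H]

theorem norm_hom (χ : H →* ℂˣ) (y : H) : ‖((χ y : ℂˣ) : ℂ)‖ = 1 := by
  have h1 : ((χ y : ℂˣ) : ℂ) ^ Nat.card H = 1 := by
    rw [← Units.val_pow_eq_pow_val, ← map_pow, pow_card_eq_one']
    simp
  exact Complex.norm_eq_one_of_pow_eq_one h1 Nat.card_pos.ne'

theorem conj_hom (χ : H →* ℂˣ) (y : H) : conj ((χ y : ℂˣ) : ℂ) = ((χ y⁻¹ : ℂˣ) : ℂ) := by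
  rw [map_inv, Units.val_inv_eq_inv_val, Complex.inv_eq_conj (norm_hom χ y)]

/-- Orthogonality of characters. -/
theorem sum_hom_eq_zero [Fintype H] (ψ : H →* ℂˣ) (hψ : ψ ≠ 1) :
    ∑ y : H, ((ψ y : ℂˣ) : ℂ) = 0 := by
  obtain ⟨y0, hy0⟩ : ∃ y0, ψ y0 ≠ 1 := by
    by_contra hcon
    push Not at hcon
    exact hψ (MonoidHom.ext hcon)
  have h1 : ((ψ y0 : ℂˣ) : ℂ) * ∑ y : H, ((ψ y : ℂˣ) : ℂ) = ∑ y : H, ((ψ y : ℂˣ) : ℂ) := by
    rw [Finset.mul_sum]
    refine Fintype.sum_equiv (Equiv.mulLeft y0) _ _ fun y => ?_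
    simp
  have h2 : ((ψ y0 : ℂˣ) : ℂ) - 1 ≠ 0 := by
    rw [sub_ne_zero]
    intro h
    exact hy0 (Units.ext h)
  have h3 : (((ψ y0 : ℂˣ) : ℂ) - 1) * ∑ y : H, ((ψ y : ℂˣ) : ℂ) = 0 := by
    rw [sub_mul, h1, one_mul, sub_self]
  exact (mul_eq_zero.mp h3).resolve_left h2

end Chars

section Parseval

variable {H : Type*} [CommGroup H] [Fintype H]

theorem orth_hom (χ χ' : H →* ℂˣ) :
    ∑ y : H, ((χ y : ℂˣ) : ℂ) * conj ((χ' y : ℂˣ) : ℂ) =
      if χ = χ' then (Fintype.card H : ℂ) else 0 := by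
  have h0 : ∀ y, ((χ y : ℂˣ) : ℂ) * conj ((χ' y : ℂˣ) : ℂ) = (((χ * χ'⁻¹) y : ℂˣ) : ℂ) := by
    intro y
    rw [conj_hom, MonoidHom.mul_apply, MonoidHom.inv_apply, map_inv, Units.val_mul]
  simp_rw [h0]
  split_ifs with h
  · subst h
    simp
  · refine sum_hom_eq_zero _ ?_
    intro h2
    exact h (mul_inv_eq_one.mp h2)

/-- Parseval on the finite abelian group `H`. -/
theorem parseval {κ : Type*} [DecidableEq κ] (S : Finset κ) (χ : κ → H →* ℂˣ)
    (hχ : Set.InjOn χ S) (a : κ → ℂ) :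
    ∑ y : H, ‖∑ k ∈ S, ((χ k y : ℂˣ) : ℂ) * a k‖ ^ 2 =
      (Fintype.card H : ℝ) * ∑ k ∈ S, ‖a k‖ ^ 2 := by
  have h1 : ((∑ y : H, ‖∑ k ∈ S, ((χ k y : ℂˣ) : ℂ) * a k‖ ^ 2 : ℝ) : ℂ) =
      (((Fintype.card H : ℝ) * ∑ k ∈ S, ‖a k‖ ^ 2 : ℝ) : ℂ) := by
    push_cast
    have h2 : ∀ y : H, ((‖∑ k ∈ S, ((χ k y : ℂˣ) : ℂ) * a k‖ : ℂ)) ^ 2 =
        ∑ k ∈ S, ∑ k' ∈ S, (((χ k y : ℂˣ) : ℂ) * conj ((χ k' y : ℂˣ) : ℂ)) * (a k * conj (a k')) := by
      intro y
      rw [← Complex.mul_conj', map_sum, Finset.sum_mul_sum]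
      refine Finset.sum_congr rfl fun k _ => Finset.sum_congr rfl fun k' _ => ?_
      rw [map_mul]
      ring
    simp_rw [h2]
    rw [Finset.sum_comm]
    have h3 : ∀ k ∈ S, ∑ y : H, ∑ k' ∈ S,
        (((χ k y : ℂˣ) : ℂ) * conj ((χ k' y : ℂˣ) : ℂ)) * (a k * conj (a k')) =
        (Fintype.card H : ℂ) * ((‖a k‖ : ℂ) ^ 2) := by
      intro k hk
      rw [Finset.sum_comm]
      have h4 : ∀ k' ∈ S, ∑ y : H,
          (((χ k y : ℂˣ) : ℂ) * conj ((χ k' y : ℂˣ) : ℂ)) * (a k * conj (a k')) =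
          if k' = k then (Fintype.card H : ℂ) * (a k * conj (a k)) else 0 := by
        intro k' hk'
        rw [← Finset.sum_mul, orth_hom]
        by_cases hkk : k' = k
        · subst hkk
          simp
        · have : χ k ≠ χ k' := fun h => hkk (hχ hk' hk h.symm)
          simp [this, hkk]
      rw [Finset.sum_congr rfl h4, Finset.sum_ite_eq' S k, if_pos hk, Complex.mul_conj']
    rw [Finset.sum_congr rfl h3, Finset.mul_sum]
  exact_mod_cast h1

end Parseval

section Lattice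

variable {C : Type*} [CommGroup C] [Fintype C]
variable {I : Type*} (N : ℕ) [NeZero N] (z : I → ℂ)

/-- The values of a "lattice vector". -/
noncomputable def latF (μ : I → C →* ℂˣ) (s : Finset I) (u : (ZMod N)ˣ) (c : C) : ℂ :=
  ∑ i ∈ s, z i ^ (u : ZMod N).val * ((μ i c : ℂˣ) : ℂ)

/-- The form with weights `w` has minimum at least one on vectors trivial on `E`. -/
def IsGood (E : Subgroup C) (w : C → ℝ) : Prop :=
  ∀ (s : Finset I) (μ : I → C →* ℂˣ), (∀ i ∈ s, ∀ e ∈ E, μ i e = 1) →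
    (∃ u c, latF N z μ s u c ≠ 0) →
    ((Fintype.card (ZMod N)ˣ : ℝ)) * (Nat.card C : ℝ) ^ 2 ≤
      (Nat.card E : ℝ) * ∑ u : (ZMod N)ˣ, ∑ c : C, w c * ‖latF N z μ s u c‖ ^ 2

variable {N z}

/-- Nonvanishing of a sum of roots of unity passes to its Galois conjugates. -/
theorem sum_pow_ne_zero {ι : Type*} [Fintype ι] {z : ι → ℂ} (hz : ∀ i, z i ^ N = 1)
    {u₀ : (ZMod N)ˣ} (h0 : ∑ i, z i ^ (u₀ : ZMod N).val ≠ 0) (u : (ZMod N)ˣ) :
    ∑ i, z i ^ (u : ZMod N).val ≠ 0 := by
  set v : (ZMod N)ˣ := u * u₀⁻¹ with hv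
  have hk : ((v : ZMod N).val).Coprime N := ZMod.val_coe_unit_coprime v
  obtain ⟨τ, hτ⟩ := Cfsg.Agent.Lib.Char.Galois.exists_ringHom_pow N (NeZero.pos N) _ hk
  intro hcon
  apply h0
  apply (map_eq_zero τ).mp
  rw [map_sum]
  rw [← hcon]
  refine Finset.sum_congr rfl fun i _ => ?_
  have h1 : (z i ^ (u₀ : ZMod N).val) ^ N = 1 := by
    rw [← pow_mul, mul_comm, pow_mul, hz i, one_pow]
  rw [hτ _ h1, ← pow_mul]
  -- compare exponents modulo N
  have h2 : (((u₀ : ZMod N).val * (v : ZMod N).val : ℕ) : ZMod N) = ((u : ZMod N).val : ZMod N) := by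
    push_cast
    simp only [ZMod.natCast_val, ZMod.cast_id', id]
    rw [hv, Units.val_mul]
    have h5 : u₀ * (u * u₀⁻¹) = u := by rw [mul_left_comm, mul_inv_cancel, mul_one]
    rw [← Units.val_mul, ← Units.val_mul, h5]
  have h3 := (ZMod.natCast_eq_natCast_iff _ _ N).mp h2
  exact pow_eq_pow_of_modEq h3 (hz i)

/-- A sum of roots of unity with a nonzero Galois conjugate has mean square at least one. -/
theorem card_le_sum_norm_sq {ι : Type*} [Fintype ι] {z : ι → ℂ} (hz : ∀ i, z i ^ N = 1)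
    {u₀ : (ZMod N)ˣ} (h0 : ∑ i, z i ^ (u₀ : ZMod N).val ≠ 0) :
    (Fintype.card (ZMod N)ˣ : ℝ) ≤ ∑ u : (ZMod N)ˣ, ‖∑ i, z i ^ (u : ZMod N).val‖ ^ 2 := by
  obtain ⟨m, hm⟩ := Cfsg.Agent.Lib.Char.Galois.prod_int N z hz
  apply Cfsg.Agent.Lib.Char.GaloisC.card_le_sum_of_one_le_prod
  · intro u
    positivity
  · have h1 : (m : ℂ) ≠ 0 := by
      rw [← hm]
      exact Finset.prod_ne_zero_iff.mpr fun u _ => sum_pow_ne_zero hz h0 u
    have h2 : m ≠ 0 := by exact_mod_cast h1
    have h3 : (1 : ℝ) ≤ ‖(m : ℂ)‖ := by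
      rw [Complex.norm_intCast]
      exact_mod_cast Int.one_le_abs h2
    rw [Finset.prod_pow, ← norm_prod, hm]
    exact one_le_pow₀ h3

/-- The base of the induction: vectors trivial on `C`. -/
theorem isGood_top {w : C → ℝ} (hw : ∀ c, 1 ≤ w c) (hz : ∀ i, z i ^ N = 1) :
    IsGood N z (⊤ : Subgroup C) w := by
  intro s μ hμ hne
  have hval : ∀ u c, latF N z μ s u c = ∑ i : s, z i ^ (u : ZMod N).val := by
    intro u c
    unfold latF
    rw [← Finset.sum_coe_sort]
    refine Finset.sum_congr rfl fun i _ => ?_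
    rw [hμ i i.2 c (Subgroup.mem_top c)]
    simp
  obtain ⟨u₀, c₀, h0⟩ := hne
  rw [hval] at h0
  have h1 := card_le_sum_norm_sq (z := fun i : s => z i) (fun i => hz i) h0
  have hcard : (Nat.card (⊤ : Subgroup C) : ℝ) = Nat.card C := by
    rw [Nat.card_congr Subgroup.topEquiv.toEquiv]
  rw [hcard]
  have hCpos : (0 : ℝ) ≤ Nat.card C := by positivity
  have h2 : ∀ u : (ZMod N)ˣ, (Nat.card C : ℝ) * ‖∑ i : s, z i ^ (u : ZMod N).val‖ ^ 2 ≤
      ∑ c : C, w c * ‖latF N z μ s u c‖ ^ 2 := by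
    intro u
    have h3 : (Nat.card C : ℝ) = ∑ _c : C, (1 : ℝ) := by
      simp [Nat.card_eq_fintype_card]
    rw [h3, Finset.sum_mul]
    refine Finset.sum_le_sum fun c _ => ?_
    rw [hval, one_mul]
    exact le_mul_of_one_le_left (by positivity) (hw c)
  calc ((Fintype.card (ZMod N)ˣ : ℝ)) * (Nat.card C : ℝ) ^ 2
      = (Nat.card C : ℝ) * ((Nat.card C : ℝ) * (Fintype.card (ZMod N)ˣ : ℝ)) := by ring
    _ ≤ (Nat.card C : ℝ) * ((Nat.card C : ℝ) *
        ∑ u : (ZMod N)ˣ, ‖∑ i : s, z i ^ (u : ZMod N).val‖ ^ 2) := by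
        gcongr
    _ = (Nat.card C : ℝ) * ∑ u : (ZMod N)ˣ,
        (Nat.card C : ℝ) * ‖∑ i : s, z i ^ (u : ZMod N).val‖ ^ 2 := by
        rw [Finset.mul_sum]
    _ ≤ _ := by
        gcongr with u _
        exact h2 u

/-- The pointwise inequality: passing from a subgroup `L` of translations. -/
theorem pointwise {L K E : Subgroup C} (l : ℕ) (hl : Nat.card L = l * Nat.card E)
    (hLK : L ⊓ K ≤ E) {w w' : C → ℝ} (hw'0 : ∀ c, 0 ≤ w' c)
    (hw'inv : ∀ c, ∀ y ∈ L, w' (c * y) = w' c) (hwK : ∀ c ∈ K, w' c ≤ w c)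
    (hwK' : ∀ c, c ∉ K → ((l : ℝ) + 1) * w' c ≤ w c)
    {κ : Type*} [DecidableEq κ] (S : Finset κ) (χ : κ → L →* ℂˣ) (hχ : Set.InjOn χ S)
    (a : κ → C → ℂ)
    (ha : ∀ k ∈ S, ∀ c, ∀ y : L, a k (c * y) = ((χ k y : ℂˣ) : ℂ) * a k c) :
    ((l : ℝ) + 1 - S.card) * ∑ c, w' c * ∑ k ∈ S, ‖a k c‖ ^ 2 ≤
      ∑ c, w c * ‖∑ k ∈ S, a k c‖ ^ 2 := by
  classical
  letI : Fintype L := Fintype.ofFinite L
  set f : C → ℂ := fun c => ∑ k ∈ S, a k c with hf
  set A : C → ℝ := fun c => ∑ k ∈ S, ‖a k c‖ ^ 2 with hA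
  have hA0 : ∀ c, 0 ≤ A c := fun c => Finset.sum_nonneg fun k _ => by positivity
  have hfy : ∀ c, ∀ y : L, f (c * y) = ∑ k ∈ S, ((χ k y : ℂˣ) : ℂ) * a k c := by
    intro c y
    exact Finset.sum_congr rfl fun k hk => ha k hk c y
  have hAy : ∀ c, ∀ y : L, A (c * y) = A c := by
    intro c y
    refine Finset.sum_congr rfl fun k hk => ?_
    rw [ha k hk c y, norm_mul, norm_hom, one_mul]
  have hpars : ∀ c, ∑ y : L, ‖f (c * (y : C))‖ ^ 2 = (Nat.card L : ℝ) * A c := by
    intro c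
    simp_rw [hfy]
    rw [parseval S χ hχ, Nat.card_eq_fintype_card]
  have hcauchy : ∀ c, ‖f c‖ ^ 2 ≤ (S.card : ℝ) * A c := by
    intro c
    have h1 : ‖f c‖ ≤ ∑ k ∈ S, ‖a k c‖ := norm_sum_le _ _
    have h2 : (∑ k ∈ S, ‖a k c‖) ^ 2 ≤ (S.card : ℝ) * ∑ k ∈ S, ‖a k c‖ ^ 2 :=
      sq_sum_le_card_mul_sum_sq
    calc ‖f c‖ ^ 2 ≤ (∑ k ∈ S, ‖a k c‖) ^ 2 := by gcongr
      _ ≤ _ := h2
  -- the comparison function
  set g : C → ℝ := fun c => ((l : ℝ) + 1) * ‖f c‖ ^ 2 - (l : ℝ) * (if c ∈ K then ‖f c‖ ^ 2 else 0)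
    with hg
  have hpt : ∀ c, w' c * g c ≤ w c * ‖f c‖ ^ 2 := by
    intro c
    by_cases hc : c ∈ K
    · have : g c = ‖f c‖ ^ 2 := by
        simp only [hg, if_pos hc]
        ring
      rw [this]
      exact mul_le_mul_of_nonneg_right (hwK c hc) (by positivity)
    · have : g c = ((l : ℝ) + 1) * ‖f c‖ ^ 2 := by
        simp only [hg, if_neg hc]
        ring
      rw [this, ← mul_assoc, mul_comm (w' c)]
      exact mul_le_mul_of_nonneg_right (hwK' c hc) (by positivity)
  -- number of translates in K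
  have hcount : ∀ c : C, ((Finset.univ.filter (fun y : L => c * (y : C) ∈ K)).card : ℝ) ≤ Nat.card E := by
    intro c
    by_cases hne : (Finset.univ.filter (fun y : L => c * (y : C) ∈ K)).Nonempty
    · obtain ⟨y0, hy0⟩ := hne
      have hy0' : c * (y0 : C) ∈ K := (Finset.mem_filter.mp hy0).2
      have hinj : Set.InjOn (fun y : L => y0⁻¹ * y)
          ((Finset.univ.filter (fun y : L => c * (y : C) ∈ K) : Finset L) : Set L) := by
        intro a _ b _ h
        exact mul_left_cancel h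
      have hmaps : ∀ y ∈ Finset.univ.filter (fun y : L => c * (y : C) ∈ K), ((y0⁻¹ * y : L) : C) ∈ E := by
        intro y hy
        have hy' : c * (y : C) ∈ K := (Finset.mem_filter.mp hy).2
        apply hLK
        refine ⟨(y0⁻¹ * y).2, ?_⟩
        have : ((y0⁻¹ * y : L) : C) = (c * y0)⁻¹ * (c * y) := by
          push_cast
          group
        rw [this]
        exact K.mul_mem (K.inv_mem hy0') hy'
      have hle : (Finset.univ.filter (fun y : L => c * (y : C) ∈ K)).card ≤ Nat.card E := by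
        letI : Fintype E := Fintype.ofFinite E
        rw [Nat.card_eq_fintype_card]
        refine Finset.card_le_card_of_injOn
          (s := Finset.univ.filter (fun y : L => c * (y : C) ∈ K)) (t := (Finset.univ : Finset E))
          (fun y => if h : ((y0⁻¹ * y : L) : C) ∈ E then ⟨_, h⟩ else 1) (fun _ _ => Finset.mem_coe.mpr (Finset.mem_univ _)) ?_
        intro a ha b hb hab
        have ha' := hmaps a (Finset.mem_coe.mp ha)
        have hb' := hmaps b (Finset.mem_coe.mp hb)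
        simp only [dif_pos ha', dif_pos hb'] at hab
        have h3 := congrArg Subtype.val hab
        exact hinj ha hb (Subtype.ext h3)
      exact_mod_cast hle
    · rw [Finset.not_nonempty_iff_eq_empty.mp hne]
      simp
  have hgsum : ∀ c : C, (Nat.card L : ℝ) * (((l : ℝ) + 1 - S.card) * A c) ≤ ∑ y : L, g (c * (y : C)) := by
    intro c
    have h1 : ∑ y : L, g (c * (y : C)) = ((l : ℝ) + 1) * ((Nat.card L : ℝ) * A c) -
        (l : ℝ) * ∑ y : L, (if c * (y : C) ∈ K then ‖f (c * (y : C))‖ ^ 2 else 0) := by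
      simp only [hg]
      rw [Finset.sum_sub_distrib, ← Finset.mul_sum, ← Finset.mul_sum, hpars]
    have h2 : ∑ y : L, (if c * (y : C) ∈ K then ‖f (c * (y : C))‖ ^ 2 else 0) ≤
        (Nat.card E : ℝ) * ((S.card : ℝ) * A c) := by
      rw [← Finset.sum_filter]
      calc ∑ y ∈ Finset.univ.filter (fun y : L => c * (y : C) ∈ K), ‖f (c * (y : C))‖ ^ 2
          ≤ ∑ _y ∈ Finset.univ.filter (fun y : L => c * (y : C) ∈ K), (S.card : ℝ) * A c := by
            refine Finset.sum_le_sum fun y _ => ?_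
            rw [← hAy c y]
            exact hcauchy _
        _ = ((Finset.univ.filter (fun y : L => c * (y : C) ∈ K)).card : ℝ) * ((S.card : ℝ) * A c) := by
            rw [Finset.sum_const, nsmul_eq_mul]
        _ ≤ _ := by
            refine mul_le_mul_of_nonneg_right (hcount c) ?_
            exact mul_nonneg (by positivity) (hA0 c)
    rw [h1]
    have hlc : (Nat.card L : ℝ) = l * Nat.card E := by exact_mod_cast hl
    have h3 : (l : ℝ) * ∑ y : L, (if c * (y : C) ∈ K then ‖f (c * (y : C))‖ ^ 2 else 0) ≤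
        (l : ℝ) * ((Nat.card E : ℝ) * ((S.card : ℝ) * A c)) :=
      mul_le_mul_of_nonneg_left h2 (by positivity)
    have h4 : (l : ℝ) * ((Nat.card E : ℝ) * ((S.card : ℝ) * A c)) =
        (Nat.card L : ℝ) * ((S.card : ℝ) * A c) := by
      rw [hlc]; ring
    rw [h4] at h3
    nlinarith
  -- averaging over `L`
  have havg : ∀ F : C → ℝ, (Nat.card L : ℝ) * ∑ c, F c = ∑ c, ∑ y : L, F (c * (y : C)) := by
    intro F
    rw [Finset.sum_comm]
    have : ∀ y : L, ∑ c, F (c * (y : C)) = ∑ c, F c := fun y =>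
      Fintype.sum_equiv (Equiv.mulRight (y : C)) _ _ (fun _ => rfl)
    simp_rw [this]
    rw [Finset.sum_const, Finset.card_univ, nsmul_eq_mul, Nat.card_eq_fintype_card]
  have hLpos : (0 : ℝ) < Nat.card L := by exact_mod_cast Nat.card_pos
  have hfinal : (Nat.card L : ℝ) * (((l : ℝ) + 1 - S.card) * ∑ c, w' c * A c) ≤
      (Nat.card L : ℝ) * ∑ c, w' c * g c := by
    rw [havg (fun c => w' c * g c), Finset.mul_sum, Finset.mul_sum]
    refine Finset.sum_le_sum fun c _ => ?_
    have h1 : ∑ y : L, w' (c * (y : C)) * g (c * (y : C)) = w' c * ∑ y : L, g (c * (y : C)) := by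
      rw [Finset.mul_sum]
      exact Finset.sum_congr rfl fun y _ => by rw [hw'inv c y y.2]
    rw [h1]
    have h2 := mul_le_mul_of_nonneg_left (hgsum c) (hw'0 c)
    calc (Nat.card L : ℝ) * (((l : ℝ) + 1 - S.card) * (w' c * A c))
        = w' c * ((Nat.card L : ℝ) * (((l : ℝ) + 1 - S.card) * A c)) := by ring
      _ ≤ _ := h2
  calc ((l : ℝ) + 1 - S.card) * ∑ c, w' c * ∑ k ∈ S, ‖a k c‖ ^ 2
      ≤ ∑ c, w' c * g c := le_of_mul_le_mul_left hfinal hLpos
    _ ≤ _ := Finset.sum_le_sum fun c _ => hpt c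

/-- The inductive step. -/
theorem isGood_step {E L K : Subgroup C} (hEL : E ≤ L) (hLK : L ⊓ K ≤ E) (l : ℕ)
    (hl : Nat.card L = l * Nat.card E) {w w' : C → ℝ} (hw'0 : ∀ c, 0 ≤ w' c)
    (hw'inv : ∀ c, ∀ y ∈ L, w' (c * y) = w' c) (hwK : ∀ c ∈ K, w' c ≤ w c)
    (hwK' : ∀ c, c ∉ K → ((l : ℝ) + 1) * w' c ≤ w c) (hgood : IsGood N z L w') :
    IsGood N z E w := by
  classical
  letI : Fintype L := Fintype.ofFinite L
  intro s μ hμ hne
  let r : I → L →* ℂˣ := fun i => (μ i).comp L.subtype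
  have hr : ∀ i, ∀ y : L, r i y = μ i y := fun i y => rfl
  let X0 : Finset (L →* ℂˣ) := s.image r
  let sχ : (L →* ℂˣ) → Finset I := fun χ => s.filter (fun i => r i = χ)
  let fχ : (L →* ℂˣ) → (ZMod N)ˣ → C → ℂ := fun χ u c => latF N z μ (sχ χ) u c
  have hsum : ∀ u c, latF N z μ s u c = ∑ χ ∈ X0, fχ χ u c := by
    intro u c
    exact (Finset.sum_fiberwise_of_maps_to (fun i hi => Finset.mem_image_of_mem r hi) _).symm
  let S : Finset (L →* ℂˣ) := X0.filter (fun χ => ∃ u c, fχ χ u c ≠ 0)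
  have hsum' : ∀ u c, latF N z μ s u c = ∑ χ ∈ S, fχ χ u c := by
    intro u c
    rw [hsum, Finset.sum_filter_of_ne]
    intro χ _ h
    exact ⟨u, c, h⟩
  have hSX : ∀ χ ∈ S, χ ∈ X0 := fun χ hχ => (Finset.mem_filter.mp hχ).1
  have hSne : S.Nonempty := by
    obtain ⟨u, c, h⟩ := hne
    rw [hsum'] at h
    by_contra hcon
    rw [Finset.not_nonempty_iff_eq_empty] at hcon
    rw [hcon] at h
    simp at h
  -- the equivariance
  have hequiv : ∀ χ, ∀ u c, ∀ y : L, fχ χ u (c * y) = ((χ y : ℂˣ) : ℂ) * fχ χ u c := by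
    intro χ u c y
    show latF N z μ (sχ χ) u (c * y) = _ * latF N z μ (sχ χ) u c
    unfold latF
    rw [Finset.mul_sum]
    refine Finset.sum_congr rfl fun i hi => ?_
    have hi' : r i = χ := (Finset.mem_filter.mp hi).2
    rw [map_mul, Units.val_mul, ← hi', hr]
    ring
  -- the twisted vectors
  have hχgood : ∀ χ ∈ S, ((Fintype.card (ZMod N)ˣ : ℝ)) * (Nat.card C : ℝ) ^ 2 ≤
      (Nat.card L : ℝ) * ∑ u : (ZMod N)ˣ, ∑ c : C, w' c * ‖fχ χ u c‖ ^ 2 := by
    intro χ hχ
    obtain ⟨u₀, c₀, h0⟩ := (Finset.mem_filter.mp hχ).2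
    have hne' : (sχ χ).Nonempty := by
      by_contra hcon
      rw [Finset.not_nonempty_iff_eq_empty] at hcon
      apply h0
      show latF N z μ (sχ χ) u₀ c₀ = 0
      unfold latF
      rw [hcon]
      simp
    obtain ⟨i₀, hi₀⟩ := hne'
    have hi₀' : r i₀ = χ := (Finset.mem_filter.mp hi₀).2
    let ν : I → C →* ℂˣ := fun i => μ i * (μ i₀)⁻¹
    have htw : ∀ u c, latF N z ν (sχ χ) u c = fχ χ u c * (((μ i₀ c)⁻¹ : ℂˣ) : ℂ) := by
      intro u c
      show _ = latF N z μ (sχ χ) u c * _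
      unfold latF
      rw [Finset.sum_mul]
      refine Finset.sum_congr rfl fun i _ => ?_
      simp only [ν, MonoidHom.mul_apply, MonoidHom.inv_apply, Units.val_mul]
      ring
    have hnorm : ∀ u c, ‖latF N z ν (sχ χ) u c‖ = ‖fχ χ u c‖ := by
      intro u c
      rw [htw, norm_mul]
      have : ‖(((μ i₀ c)⁻¹ : ℂˣ) : ℂ)‖ = 1 := by
        rw [← map_inv]
        exact norm_hom _ _
      rw [this, mul_one]
    have h1 := hgood (sχ χ) ν (by
      intro i hi e he
      have hi' : r i = χ := (Finset.mem_filter.mp hi).2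
      show μ i e * (μ i₀ e)⁻¹ = 1
      have h2 : μ i e = χ ⟨e, he⟩ := by rw [← hi', hr]
      have h3 : μ i₀ e = χ ⟨e, he⟩ := by rw [← hi₀', hr]
      rw [h2, h3, mul_inv_cancel]) ⟨u₀, c₀, by
        rw [← norm_ne_zero_iff, hnorm]
        exact norm_ne_zero_iff.mpr h0⟩
    simp_rw [hnorm] at h1
    exact h1
  -- size of `S`
  have hSE : ∀ χ ∈ S, ∀ y : L, (y : C) ∈ E → χ y = 1 := by
    intro χ hχ y hy
    obtain ⟨i, hi, rfl⟩ := Finset.mem_image.mp (hSX χ hχ)
    rw [hr]
    exact hμ i hi y hy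
  have hLpos : 0 < Nat.card L := Nat.card_pos
  have hEpos : 0 < Nat.card E := Nat.card_pos
  have hlpos : 0 < l := by
    rw [hl] at hLpos
    exact Nat.pos_of_mul_pos_right hLpos |> fun h => by
      rcases Nat.eq_zero_or_pos l with h0 | h0
      · subst h0; simp at hLpos
      · exact h0
  have hScard : S.card ≤ l := by
    have hp := parseval (H := L) S (fun χ => χ) (Set.injOn_id _) (fun _ => (1 : ℂ))
    simp only [norm_one, one_pow, Finset.sum_const, nsmul_eq_mul, mul_one] at hp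
    have h1 : ((Finset.univ.filter (fun y : L => (y : C) ∈ E)).card : ℝ) * (S.card : ℝ) ^ 2 ≤
        ∑ y : L, ‖∑ k ∈ S, ((k y : ℂˣ) : ℂ)‖ ^ 2 := by
      calc ((Finset.univ.filter (fun y : L => (y : C) ∈ E)).card : ℝ) * (S.card : ℝ) ^ 2
          = ∑ y ∈ Finset.univ.filter (fun y : L => (y : C) ∈ E), (S.card : ℝ) ^ 2 := by
            rw [Finset.sum_const, nsmul_eq_mul]
        _ = ∑ y ∈ Finset.univ.filter (fun y : L => (y : C) ∈ E),
            ‖∑ k ∈ S, ((k y : ℂˣ) : ℂ)‖ ^ 2 := by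
            refine Finset.sum_congr rfl fun y hy => ?_
            have hy' : (y : C) ∈ E := (Finset.mem_filter.mp hy).2
            have h2 : ∑ k ∈ S, ((k y : ℂˣ) : ℂ) = (S.card : ℂ) := by
              rw [Finset.sum_congr rfl (fun k hk =>
                (by rw [hSE k hk y hy'] : ((k y : ℂˣ) : ℂ) = ((1 : ℂˣ) : ℂ)))]
              simp
            rw [h2, Complex.norm_natCast]
        _ ≤ _ := Finset.sum_le_sum_of_subset_of_nonneg (Finset.filter_subset _ _)
            (fun _ _ _ => by positivity)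
    rw [hp] at h1
    have hcardE : (Finset.univ.filter (fun y : L => (y : C) ∈ E)).card = Nat.card E := by
      letI : Fintype E := Fintype.ofFinite E
      rw [Nat.card_eq_fintype_card]
      refine Finset.card_bij (fun y hy => (⟨y.1, (Finset.mem_filter.mp hy).2⟩ : E))
        (fun _ _ => Finset.mem_univ _) ?_ ?_
      · intro a _ b _ h
        exact Subtype.ext (congrArg (fun x : E => (x : C)) h)
      · intro e _
        exact ⟨⟨e.1, hEL e.2⟩, Finset.mem_filter.mpr ⟨Finset.mem_univ _, e.2⟩, rfl⟩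
    rw [hcardE] at h1
    have hlc : (Fintype.card L : ℝ) = l * Nat.card E := by
      rw [← Nat.card_eq_fintype_card]
      exact_mod_cast hl
    rw [hlc] at h1
    have hEr : (0 : ℝ) < Nat.card E := by exact_mod_cast hEpos
    have hSr : (0 : ℝ) < S.card := by exact_mod_cast hSne.card_pos
    have h3 : (S.card : ℝ) ≤ l := by
      have h4 : (Nat.card E : ℝ) * S.card * (S.card : ℝ) ≤ (Nat.card E : ℝ) * S.card * l := by
        nlinarith
      exact le_of_mul_le_mul_left h4 (mul_pos hEr hSr)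
    exact_mod_cast h3
  -- pointwise
  have hpt : ∀ u : (ZMod N)ˣ, ((l : ℝ) + 1 - S.card) *
      ∑ c, w' c * ∑ χ ∈ S, ‖fχ χ u c‖ ^ 2 ≤ ∑ c, w c * ‖latF N z μ s u c‖ ^ 2 := by
    intro u
    have h1 := pointwise (L := L) (K := K) (E := E) l hl hLK hw'0 hw'inv hwK hwK' S (fun χ => χ)
      (Set.injOn_id _) (fun χ c => fχ χ u c) (fun χ _ c y => hequiv χ u c y)
    simp_rw [← hsum' u] at h1
    exact h1
  -- final computation
  set T : ℝ := ((Fintype.card (ZMod N)ˣ : ℝ)) * (Nat.card C : ℝ) ^ 2 with hT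
  set Q : ℝ := ∑ u : (ZMod N)ˣ, ∑ c : C, w c * ‖latF N z μ s u c‖ ^ 2 with hQ
  set P : ℝ := ∑ u : (ZMod N)ˣ, ∑ c : C, w' c * ∑ χ ∈ S, ‖fχ χ u c‖ ^ 2 with hP
  have hT0 : 0 ≤ T := by positivity
  have hsP : (S.card : ℝ) * T ≤ (Nat.card L : ℝ) * P := by
    have h1 : ∑ χ ∈ S, T ≤ ∑ χ ∈ S, (Nat.card L : ℝ) *
        ∑ u : (ZMod N)ˣ, ∑ c : C, w' c * ‖fχ χ u c‖ ^ 2 :=
      Finset.sum_le_sum hχgood
    rw [Finset.sum_const, nsmul_eq_mul, ← Finset.mul_sum] at h1
    have h2 : ∑ χ ∈ S, ∑ u : (ZMod N)ˣ, ∑ c : C, w' c * ‖fχ χ u c‖ ^ 2 = P := by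
      rw [hP, Finset.sum_comm]
      refine Finset.sum_congr rfl fun u _ => ?_
      rw [Finset.sum_comm]
      refine Finset.sum_congr rfl fun c _ => ?_
      rw [Finset.mul_sum]
    rwa [h2] at h1
  have hPQ : ((l : ℝ) + 1 - S.card) * P ≤ Q := by
    rw [hP, Finset.mul_sum]
    exact Finset.sum_le_sum fun u _ => hpt u
  have hlc : (Nat.card L : ℝ) = l * Nat.card E := by exact_mod_cast hl
  have hsl : (S.card : ℝ) ≤ l := by exact_mod_cast hScard
  have hs1 : (1 : ℝ) ≤ S.card := by exact_mod_cast hSne.card_pos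
  have hl1 : (0 : ℝ) < l := by exact_mod_cast hlpos
  have hkey : (l : ℝ) ≤ ((l : ℝ) + 1 - S.card) * S.card := by nlinarith
  have h5 : (l : ℝ) * T ≤ (l : ℝ) * ((Nat.card E : ℝ) * Q) := by
    have h6 : ((l : ℝ) + 1 - S.card) * ((S.card : ℝ) * T) ≤
        ((l : ℝ) + 1 - S.card) * ((Nat.card L : ℝ) * P) :=
      mul_le_mul_of_nonneg_left hsP (by linarith)
    have h7 : (Nat.card L : ℝ) * (((l : ℝ) + 1 - S.card) * P) ≤ (Nat.card L : ℝ) * Q :=
      mul_le_mul_of_nonneg_left hPQ (by positivity)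
    rw [hlc] at h6 h7
    have h8 : (l : ℝ) * T ≤ (((l : ℝ) + 1 - S.card) * S.card) * T :=
      mul_le_mul_of_nonneg_right hkey hT0
    nlinarith
  exact le_of_mul_le_mul_left h5 hl1

end Lattice

section Module

universe v

variable {C : Type*} [CommGroup C] [Fintype C]
variable {I : Type*} {N : ℕ} [NeZero N] {z : I → ℂ}

/-- Fixed points of `c`. -/
def fixS {U : Type v} [CommGroup U] (ρ : C →* MulAut U) (c : C) : Subgroup U where
  carrier := {u | ρ c u = u}
  mul_mem' := by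
    intro a b ha hb
    change ρ c a = a at ha; change ρ c b = b at hb; change ρ c (a * b) = a * b
    rw [map_mul, ha, hb]
  one_mem' := by simp
  inv_mem' := by
    intro a ha
    change ρ c a = a at ha; change ρ c a⁻¹ = a⁻¹
    rw [map_inv, ha]

@[simp] theorem mem_fixS {U : Type v} [CommGroup U] (ρ : C →* MulAut U) (c : C) (u : U) :
    u ∈ fixS ρ c ↔ ρ c u = u := Iff.rfl

/-- The weight `|U : C_U(c)|`. -/
noncomputable def wt {U : Type v} [CommGroup U] (ρ : C →* MulAut U) (c : C) : ℝ :=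
  (Nat.card U : ℝ) / Nat.card (fixS ρ c)

theorem one_le_wt {U : Type v} [CommGroup U] [Finite U] (ρ : C →* MulAut U) (c : C) :
    1 ≤ wt ρ c := by
  unfold wt
  rw [one_le_div (by exact_mod_cast Nat.card_pos)]
  exact_mod_cast Subgroup.card_le_card_group _

/-- The action on a quotient. -/
noncomputable def quotAut {U : Type v} [CommGroup U] (ρ : C →* MulAut U) (U₁ : Subgroup U)
    (hinv : ∀ c, ∀ u ∈ U₁, ρ c u ∈ U₁) : C →* MulAut (U ⧸ U₁) :=
  MonoidHom.mk' (fun c =>
    { toFun := QuotientGroup.map U₁ U₁ (ρ c).toMonoidHom (fun u hu => hinv c u hu)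
      invFun := QuotientGroup.map U₁ U₁ (ρ c⁻¹).toMonoidHom (fun u hu => hinv c⁻¹ u hu)
      left_inv := by
        intro x
        induction x using QuotientGroup.induction_on with | _ u => ?_
        show (((ρ c⁻¹) ((ρ c) u) : U) : U ⧸ U₁) = (u : U ⧸ U₁)
        rw [← MulAut.mul_apply, ← map_mul, inv_mul_cancel, map_one, MulAut.one_apply]
      right_inv := by
        intro x
        induction x using QuotientGroup.induction_on with | _ u => ?_
        show (((ρ c) ((ρ c⁻¹) u) : U) : U ⧸ U₁) = (u : U ⧸ U₁)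
        rw [← MulAut.mul_apply, ← map_mul, mul_inv_cancel, map_one, MulAut.one_apply]
      map_mul' := by
        intro x y
        exact map_mul _ x y })
    (by
      intro a b
      ext x
      induction x using QuotientGroup.induction_on with | _ u => ?_
      show (((ρ (a * b)) u : U) : U ⧸ U₁) = (((ρ a) ((ρ b) u) : U) : U ⧸ U₁)
      rw [map_mul, MulAut.mul_apply])

theorem quotAut_mk {U : Type v} [CommGroup U] (ρ : C →* MulAut U) (U₁ : Subgroup U)
    (hinv : ∀ c, ∀ u ∈ U₁, ρ c u ∈ U₁) (c : C) (u : U) :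
    quotAut ρ U₁ hinv c (u : U ⧸ U₁) = ((ρ c u : U) : U ⧸ U₁) := rfl

/-- Counting fixed points through the quotient. -/
theorem card_fixS_le {U : Type v} [CommGroup U] [Finite U] (ρ : C →* MulAut U) (U₁ : Subgroup U)
    (hinv : ∀ c, ∀ u ∈ U₁, ρ c u ∈ U₁) (c : C) :
    Nat.card (fixS ρ c) ≤
      Nat.card ↥(U₁ ⊓ fixS ρ c) * Nat.card (fixS (quotAut ρ U₁ hinv) c) := by
  let f : fixS ρ c →* U ⧸ U₁ := (QuotientGroup.mk' U₁).comp (fixS ρ c).subtype
  have hker : Nat.card f.ker = Nat.card ↥(U₁ ⊓ fixS ρ c) := by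
    refine Nat.card_congr
      { toFun := fun x => ⟨x.1.1, ?_, x.1.2⟩
        invFun := fun x => ⟨⟨x.1, x.2.2⟩, ?_⟩
        left_inv := fun x => rfl
        right_inv := fun x => rfl }
    · have h1 : f x.1 = 1 := x.2
      exact (QuotientGroup.eq_one_iff _).mp h1
    · show f ⟨x.1, x.2.2⟩ = 1
      exact (QuotientGroup.eq_one_iff _).mpr x.2.1
  have hrange : Nat.card f.range ≤ Nat.card (fixS (quotAut ρ U₁ hinv) c) := by
    refine Nat.card_le_card_of_injective (fun x : f.range => (⟨x.1, ?_⟩ : fixS (quotAut ρ U₁ hinv) c)) ?_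
    · obtain ⟨y, hy⟩ := x.2
      rw [mem_fixS, ← hy]
      show quotAut ρ U₁ hinv c (y.1 : U ⧸ U₁) = (y.1 : U ⧸ U₁)
      rw [quotAut_mk, (show ρ c y.1 = y.1 from y.2)]
    · intro a b h
      exact Subtype.ext (congrArg (fun x : fixS (quotAut ρ U₁ hinv) c => x.1) h)
  have hmul : Nat.card f.ker * Nat.card f.range = Nat.card (fixS ρ c) := by
    rw [← Subgroup.index_ker f]
    exact Subgroup.card_mul_index _
  rw [← hmul, hker]
  exact Nat.mul_le_mul_left _ hrange

/-- **Knörr's lattice inequality**: for `C` abelian acting coprimely on a finite abelian group `U`,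
the form with weights `|U : C_U(c)|` has minimum at least one on the vectors trivial on the kernel. -/
theorem isGood_of_module (hz : ∀ i, z i ^ N = 1) :
    ∀ (n : ℕ) (U : Type v) [CommGroup U] [Finite U] (ρ : C →* MulAut U),
      Nat.card U = n → (Nat.card C).Coprime (Nat.card U) → IsGood N z ρ.ker (wt ρ) := by
  intro n
  induction n using Nat.strong_induction_on with
  | _ n ih =>
    intro U _ _ ρ hn hcop
    by_cases hU : Subsingleton U
    · have hker : ρ.ker = ⊤ := by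
        rw [eq_top_iff]
        intro c _
        rw [MonoidHom.mem_ker]
        ext u
        exact Subsingleton.elim _ _
      rw [hker]
      exact isGood_top (one_le_wt ρ) hz
    rw [not_subsingleton_iff_nontrivial] at hU
    classical
    -- a minimal invariant subgroup
    let P : Set (Subgroup U) := {H | H ≠ ⊥ ∧ ∀ c, ∀ u ∈ H, ρ c u ∈ H}
    have hP : P.Nonempty := ⟨⊤, top_ne_bot, fun _ _ _ => Subgroup.mem_top _⟩
    obtain ⟨U₁, hU₁, hmin⟩ := (wellFounded_lt (α := Subgroup U)).has_min P hP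
    have hU₁ne : U₁ ≠ ⊥ := hU₁.1
    have hinv : ∀ c, ∀ u ∈ U₁, ρ c u ∈ U₁ := hU₁.2
    set ρ' := quotAut ρ U₁ hinv with hρ'
    let K : Subgroup C :=
      { carrier := {c | ∀ u ∈ U₁, ρ c u = u}
        mul_mem' := by
          intro a b ha hb u hu
          rw [map_mul, MulAut.mul_apply, hb u hu, ha u hu]
        one_mem' := by
          intro u _
          simp
        inv_mem' := by
          intro a ha u hu
          have h1 := ha u hu
          calc ρ a⁻¹ u = ρ a⁻¹ (ρ a u) := by rw [h1]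
            _ = u := by rw [← MulAut.mul_apply, ← map_mul, inv_mul_cancel, map_one,
                MulAut.one_apply] }
    have hKmem : ∀ c, c ∈ K ↔ ∀ u ∈ U₁, ρ c u = u := fun c => Iff.rfl
    set L : Subgroup C := ρ'.ker with hL
    set E : Subgroup C := ρ.ker with hE
    have hLmem : ∀ y ∈ L, ∀ u, ρ y u * u⁻¹ ∈ U₁ := by
      intro y hy u
      have h1 : ρ' y = 1 := hy
      have h2 : ρ' y (u : U ⧸ U₁) = (u : U ⧸ U₁) := by rw [h1]; rfl
      rw [hρ', quotAut_mk] at h2
      have h3 := QuotientGroup.eq.mp h2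
      have h4 : (ρ y u)⁻¹ * u ∈ U₁ := h3
      have h5 := U₁.inv_mem h4
      have h6 : ((ρ y u)⁻¹ * u)⁻¹ = ρ y u * u⁻¹ := by
        rw [mul_inv_rev, inv_inv, mul_comm]
      rwa [h6] at h5
    have hEL : E ≤ L := by
      intro c hc
      have h1 : ρ c = 1 := hc
      show ρ' c = 1
      ext x
      induction x using QuotientGroup.induction_on with | _ u => ?_
      rw [hρ', quotAut_mk, h1]
      rfl
    have hLK : L ⊓ K ≤ E := by
      intro y hy
      show ρ y = 1
      ext u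
      set a := ρ y u * u⁻¹ with ha
      have haU : a ∈ U₁ := hLmem y hy.1 u
      have hya : ρ y a = a := hy.2 a haU
      have hyu : ρ y u = a * u := by rw [ha]; group
      have hpow : ∀ k : ℕ, ρ (y ^ k) u = a ^ k * u := by
        intro k
        have hpa : ∀ j : ℕ, ρ y (a ^ j) = a ^ j := by
          intro j
          rw [map_pow, hya]
        induction k with
        | zero => simp
        | succ k ihk =>
          rw [pow_succ', map_mul, MulAut.mul_apply, ihk, map_mul, hpa, hyu, pow_succ]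
          group
      have h1 := hpow (orderOf y)
      rw [pow_orderOf_eq_one, map_one, MulAut.one_apply] at h1
      have h2 : a ^ orderOf y = 1 := by
        have := mul_eq_right.mp h1.symm
        exact this
      have h3 : orderOf a ∣ orderOf y := orderOf_dvd_of_pow_eq_one h2
      have h4 : orderOf a ∣ Nat.card C := h3.trans (orderOf_dvd_natCard y)
      have h5 : orderOf a ∣ Nat.card U := orderOf_dvd_natCard a
      have h6 := Nat.dvd_gcd h4 h5
      rw [hcop.gcd_eq_one, Nat.dvd_one, orderOf_eq_one_iff] at h6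
      rw [MulAut.one_apply, hyu, h6, one_mul]
    -- the index
    obtain ⟨l, hl⟩ : Nat.card E ∣ Nat.card L := Subgroup.card_dvd_of_le hEL
    have hl' : Nat.card L = l * Nat.card E := by rw [hl, mul_comm]
    -- the fixed points on `U₁`
    have hfixbot : ∀ c, c ∉ K → U₁ ⊓ fixS ρ c = ⊥ := by
      intro c hc
      by_contra hne
      have hinvH : ∀ d, ∀ u ∈ U₁ ⊓ fixS ρ c, ρ d u ∈ U₁ ⊓ fixS ρ c := by
        intro d u hu
        refine ⟨hinv d u hu.1, ?_⟩
        have hu2 : ρ c u = u := hu.2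
        show ρ c (ρ d u) = ρ d u
        rw [← MulAut.mul_apply, ← map_mul, mul_comm, map_mul, MulAut.mul_apply, hu2]
      have hnotlt := hmin _ ⟨hne, hinvH⟩
      have hle : U₁ ⊓ fixS ρ c ≤ U₁ := inf_le_left
      have heq : U₁ ⊓ fixS ρ c = U₁ := by
        by_contra hcon
        exact hnotlt (lt_of_le_of_ne hle hcon)
      apply hc
      intro u hu
      have : u ∈ U₁ ⊓ fixS ρ c := by rw [heq]; exact hu
      exact this.2
    -- the size of `U₁`
    have hU₁card : l + 1 ≤ Nat.card U₁ := by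
      obtain ⟨⟨u, huU⟩, hu1⟩ := Subgroup.ne_bot_iff_exists_ne_one.mp hU₁ne
      have hu1' : u ≠ 1 := fun h => hu1 (Subtype.ext h)
      letI : Fintype L := Fintype.ofFinite L
      letI : Fintype E := Fintype.ofFinite E
      letI : Fintype U₁ := Fintype.ofFinite U₁
      let φ : L → U₁ := fun y => ⟨ρ y u, hinv y u huU⟩
      have hfib : ∀ a ∈ (Finset.univ : Finset L).image φ,
          ((Finset.univ : Finset L).filter (fun x => φ x = a)).card ≤ Nat.card E := by
        intro a ha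
        obtain ⟨y₀, -, rfl⟩ := Finset.mem_image.mp ha
        have hd : ∀ y ∈ (Finset.univ : Finset L).filter (fun x => φ x = φ y₀),
            ((y₀⁻¹ * y : L) : C) ∈ E := by
          intro y hy
          have h1 : φ y = φ y₀ := (Finset.mem_filter.mp hy).2
          have h2 : ρ y.1 u = ρ y₀.1 u := congrArg Subtype.val h1
          have h3 : ρ ((y₀⁻¹ * y : L) : C) u = u := by
            push_cast
            rw [map_mul, MulAut.mul_apply, h2, ← MulAut.mul_apply, ← map_mul, inv_mul_cancel,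
              map_one, MulAut.one_apply]
          apply hLK
          refine ⟨(y₀⁻¹ * y).2, ?_⟩
          by_contra hK
          have h4 : u ∈ U₁ ⊓ fixS ρ ((y₀⁻¹ * y : L) : C) := ⟨huU, h3⟩
          rw [hfixbot _ hK] at h4
          exact hu1' h4
        rw [Nat.card_eq_fintype_card]
        refine Finset.card_le_card_of_injOn (t := (Finset.univ : Finset E))
          (fun y => if h : ((y₀⁻¹ * y : L) : C) ∈ E then ⟨_, h⟩ else 1)
          (fun _ _ => Finset.mem_coe.mpr (Finset.mem_univ _)) ?_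
        intro a ha b hb hab
        have ha' := hd a (Finset.mem_coe.mp ha)
        have hb' := hd b (Finset.mem_coe.mp hb)
        simp only [dif_pos ha', dif_pos hb'] at hab
        have h3 := congrArg Subtype.val hab
        exact mul_left_cancel (Subtype.ext h3 : y₀⁻¹ * a = y₀⁻¹ * b)
      have h1 := Finset.card_le_mul_card_image (Finset.univ : Finset L) (Nat.card E) hfib
      rw [Finset.card_univ, ← Nat.card_eq_fintype_card, hl'] at h1
      have hEpos : 0 < Nat.card E := Nat.card_pos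
      have h2 : l ≤ ((Finset.univ : Finset L).image φ).card := by
        rw [mul_comm] at h1
        exact Nat.le_of_mul_le_mul_left h1 hEpos
      have h3 : ((Finset.univ : Finset L).image φ).card + 1 ≤ Nat.card U₁ := by
        have hsub : (Finset.univ : Finset L).image φ ⊆ (Finset.univ : Finset U₁).erase 1 := by
          intro x hx
          obtain ⟨y, -, rfl⟩ := Finset.mem_image.mp hx
          refine Finset.mem_erase.mpr ⟨?_, Finset.mem_univ _⟩
          intro h
          have h5 : ρ y.1 u = 1 := congrArg Subtype.val h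
          exact hu1' ((map_eq_one_iff (ρ y.1) (ρ y.1).injective).mp h5)
        have h4 := Finset.card_le_card hsub
        rw [Finset.card_erase_of_mem (Finset.mem_univ _), Finset.card_univ] at h4
        rw [Nat.card_eq_fintype_card]
        have h5 : 0 < Fintype.card U₁ := Fintype.card_pos
        omega
      omega
    -- comparison of weights
    have hUcard : (Nat.card U : ℝ) = Nat.card U₁ * Nat.card (U ⧸ U₁) := by
      have := Subgroup.card_eq_card_quotient_mul_card_subgroup U₁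
      rw [this]
      push_cast
      ring
    have hwtgen : ∀ c, (Nat.card U₁ : ℝ) / Nat.card ↥(U₁ ⊓ fixS ρ c) * wt ρ' c ≤ wt ρ c := by
      intro c
      have h0 := card_fixS_le ρ U₁ hinv c
      have hF : (Nat.card (fixS ρ c) : ℝ) ≤
          Nat.card ↥(U₁ ⊓ fixS ρ c) * Nat.card (fixS ρ' c) := by exact_mod_cast h0
      have hpos1 : (0 : ℝ) < Nat.card (fixS ρ c) := by exact_mod_cast Nat.card_pos
      have hpos2 : (0 : ℝ) < Nat.card ↥(U₁ ⊓ fixS ρ c) := by exact_mod_cast Nat.card_pos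
      have hpos3 : (0 : ℝ) < Nat.card (fixS ρ' c) := by exact_mod_cast Nat.card_pos
      unfold wt
      rw [hUcard, div_mul_div_comm, div_le_div_iff₀ (mul_pos hpos2 hpos3) hpos1]
      have hA : (0 : ℝ) ≤ (Nat.card U₁ : ℝ) * Nat.card (U ⧸ U₁) := by positivity
      nlinarith [mul_le_mul_of_nonneg_left hF hA]
    have hw'1 : ∀ c, 1 ≤ wt ρ' c := one_le_wt ρ'
    have hwK : ∀ c ∈ K, wt ρ' c ≤ wt ρ c := by
      intro c hc
      have h1 := hwtgen c
      have h2 : U₁ ⊓ fixS ρ c = U₁ := inf_eq_left.mpr (fun u hu => hc u hu)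
      rw [h2] at h1
      have h3 : (Nat.card U₁ : ℝ) ≠ 0 := by exact_mod_cast Nat.card_pos.ne'
      rwa [div_self h3, one_mul] at h1
    have hwK' : ∀ c, c ∉ K → ((l : ℝ) + 1) * wt ρ' c ≤ wt ρ c := by
      intro c hc
      have h1 := hwtgen c
      rw [hfixbot c hc, Subgroup.card_bot, Nat.cast_one, div_one] at h1
      have h2 : ((l : ℝ) + 1) ≤ Nat.card U₁ := by exact_mod_cast hU₁card
      have h3 := mul_le_mul_of_nonneg_right h2 (zero_le_one.trans (hw'1 c))
      exact h3.trans h1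
    have hw'inv : ∀ c, ∀ y ∈ L, wt ρ' (c * y) = wt ρ' c := by
      intro c y hy
      have h1 : ρ' y = 1 := hy
      have h2 : fixS ρ' (c * y) = fixS ρ' c := by
        ext x
        rw [mem_fixS, mem_fixS, map_mul, h1, mul_one]
      unfold wt
      rw [h2]
    have hlt : Nat.card (U ⧸ U₁) < n := by
      have h1 := Subgroup.card_eq_card_quotient_mul_card_subgroup U₁
      have h2 : 1 < Nat.card U₁ := by
        exact Subgroup.one_lt_card_iff_ne_bot U₁ |>.mpr hU₁ne
      have h3 : 0 < Nat.card (U ⧸ U₁) := Nat.card_pos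
      rw [hn] at h1
      rw [h1]
      nlinarith
    have hcop' : (Nat.card C).Coprime (Nat.card (U ⧸ U₁)) :=
      Nat.Coprime.coprime_dvd_right (Subgroup.card_quotient_dvd_card U₁) hcop
    have hgood := ih _ hlt (U ⧸ U₁) ρ' rfl hcop'
    exact isGood_step hEL hLK l hl' (fun c => zero_le_one.trans (hw'1 c)) hw'inv hwK hwK' hgood

end Module

end Cfsg.Agent.Lib.Coprime.KnorrLattice
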