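import Mathlib
import Cfsg.Agent.Lib.Coprime.KGV
import Cfsg.Agent.Lib.Coprime.KnorrLattice
import Cfsg.Agent.Lib.Char.LinearChars

/-!
# The abelian stabilizer criterion for the `k(GV)` problem
-/

set_option autoImplicit false
set_option linter.style.haveILetI false
set_option linter.unusedSectionVars false

namespace Cfsg.Agent.Lib.Coprime.KGVAb

open Cfsg Cfsg.Agent.Lib.Coprime.KGV Cfsg.Agent.Lib.Coprime.KnorrLattice

/-- A character of a finite abelian group is a sum of linear characters. -/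
theorem exists_sum_homs {Γ : Type*} [CommGroup Γ] [Finite Γ] {χ : Γ → ℂ} (hχ : IsCharacter Γ χ) :
    ∃ (I : Type) (_ : Fintype I) (ξ : I → Γ →* ℂˣ), ∀ g, χ g = ∑ i, ((ξ i g : ℂˣ) : ℂ) := by
  refine Cfsg.Agent.Lib.Char.Basic.isCharacter_induction_on_irr
    (P := fun χ => ∃ (I : Type) (_ : Fintype I) (ξ : I → Γ →* ℂˣ), ∀ g, χ g = ∑ i, ((ξ i g : ℂˣ) : ℂ))
    ?_ ?_ ?_ hχ
  · exact ⟨Empty, inferInstance, fun e => e.elim, fun g => by simp⟩
  · intro χ hχ
    have h1 : χ 1 = 1 := by
      obtain ⟨n, ρ, hρ, rfl⟩ := hχ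
      haveI := hρ
      have hcomm : ∀ x y : Γ, ρ x ∘ₗ ρ y = ρ y ∘ₗ ρ x := by
        intro x y
        rw [← Module.End.mul_eq_comp, ← Module.End.mul_eq_comp, ← map_mul, ← map_mul, mul_comm]
      have hf := Cfsg.Agent.Lib.Char.AbelianQuot.finrank_eq_one_of_commuting ρ hcomm
      simp [Representation.character] at hf ⊢
      simp [hf]
    obtain ⟨φ, rfl⟩ := Cfsg.Agent.Lib.Char.LinearChars.exists_hom_of_isCharacter_one
      (Cfsg.Agent.Lib.Char.Basic.isCharacter_of_isIrrCharacter hχ) h1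
    exact ⟨Unit, inferInstance, fun _ => φ, fun g => by simp⟩
  · rintro χ ψ - - ⟨I, hI, ξ, hξ⟩ ⟨J, hJ, η, hη⟩
    refine ⟨I ⊕ J, inferInstance, Sum.elim ξ η, fun g => ?_⟩
    rw [Fintype.sum_sum_type]
    simp [hξ, hη]

/-- Commuting with a product of commuting elements of coprime orders. -/
theorem commute_parts {X : Type*} [Group X] {a b x : X} (hab : Commute a b)
    (hcop : (orderOf a).Coprime (orderOf b)) (hx : Commute x (a * b)) : Commute x a := by
  obtain ⟨s, hs1, hs2⟩ := Nat.chineseRemainder hcop 1 0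
  have h1 : a ^ s = a := by
    have := pow_eq_pow_of_modEq (x := a) (n := orderOf a) hs1 (pow_orderOf_eq_one a)
    simpa using this
  have h2 : b ^ s = 1 := by
    have := pow_eq_pow_of_modEq (x := b) (n := orderOf b) hs2 (pow_orderOf_eq_one b)
    simpa using this
  have h3 : (a * b) ^ s = a := by
    rw [hab.mul_pow, h1, h2, mul_one]
  have h4 := hx.pow_right s
  rwa [h3] at h4

/-- **Knörr's abelian stabilizer criterion.** -/
theorem kgv_abelian_stabilizer {X : Type*} [Group X] [Finite X] {p : ℕ} [hp : Fact p.Prime]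
    (V : Subgroup X) [hVn : V.Normal] (hVp : IsPGroup p V) (hidx : ¬ p ∣ V.index)
    (hVab : ∀ a ∈ V, ∀ b ∈ V, a * b = b * a) (G : Subgroup X) (hGV : Subgroup.IsComplement' V G)
    (hfaith : ∀ g ∈ G, (∀ w ∈ V, g * w = w * g) → g = 1) {v : X} (hv : v ∈ V)
    (hab : ∀ a ∈ G ⊓ Subgroup.centralizer ({v} : Set X),
      ∀ b ∈ G ⊓ Subgroup.centralizer ({v} : Set X), a * b = b * a) :
    Nat.card (ConjClasses X) ≤ Nat.card V := by
  classical
  letI := Fintype.ofFinite X
  set C₀ : Subgroup X := G ⊓ Subgroup.centralizer ({v} : Set X) with hC₀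
  letI instC : CommGroup C₀ := { (inferInstance : Group C₀) with
    mul_comm := fun a b => Subtype.ext (hab a.1 a.2 b.1 b.2) }
  letI instU : CommGroup V := { (inferInstance : Group V) with
    mul_comm := fun a b => Subtype.ext (hVab a.1 a.2 b.1 b.2) }
  letI : Fintype C₀ := Fintype.ofFinite C₀
  let ρ : C₀ →* MulAut V := (MulAut.conjNormal (H := V)).comp C₀.subtype
  have hρ : ∀ (c : C₀) (w : V), ((ρ c w : V) : X) = c.1 * w.1 * c.1⁻¹ := fun c w => rfl
  have hker : ρ.ker = ⊥ := by
    rw [eq_bot_iff]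
    intro c hc
    have h1 : ρ c = 1 := hc
    have h2 : c.1 = 1 := by
      apply hfaith c.1 c.2.1
      intro w hw
      have h3 : ((ρ c ⟨w, hw⟩ : V) : X) = w := by rw [h1]; rfl
      rw [hρ] at h3
      calc c.1 * w = (c.1 * w * c.1⁻¹) * c.1 := by group
        _ = w * c.1 := by
          have : c.1 * w * c.1⁻¹ = w := h3
          rw [this]
    exact Subgroup.mem_bot.mpr (Subtype.ext h2)
  have hcop : (Nat.card C₀).Coprime (Nat.card V) := by
    obtain ⟨k, hk⟩ := IsPGroup.iff_card.mp hVp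
    rw [hk]
    apply Nat.Coprime.pow_right
    rw [Nat.coprime_comm, Nat.Prime.coprime_iff_not_dvd hp.out]
    intro hdvd
    apply hidx
    have h1 : Nat.card C₀ ∣ Nat.card G := Subgroup.card_dvd_of_le inf_le_left
    have h2 : V.index = Nat.card G := hGV.symm.card_left.symm
    rw [h2]
    exact hdvd.trans h1
  set N := Nat.card X with hN
  haveI hNz : NeZero N := ⟨Nat.card_pos.ne'⟩
  letI : Fintype (IrrCharacter X) := Fintype.ofFinite _
  -- the commutation relations
  have hcv : ∀ c : C₀, Commute v c.1 := by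
    intro c
    exact Subgroup.mem_centralizer_iff.mp c.2.2 v (Set.mem_singleton v)
  have hcommC : ∀ c d : C₀, Commute c.1 d.1 := fun c d => hab c.1 c.2 d.1 d.2
  have hcommV : ∀ a ∈ V, ∀ b ∈ V, Commute a b := hVab
  -- the centralizer count
  have hcent : ∀ (k : ℕ), k.Coprime N → ∀ c : C₀,
      Nat.card (Subgroup.centralizer ({v ^ k * c.1} : Set X)) =
        Nat.card (fixS ρ c) * Nat.card C₀ := by
    intro k hk c
    have hwc : ∀ w : fixS ρ c, Commute w.1.1 c.1 := by
      intro w
      have h1 : ρ c w.1 = w.1 := w.2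
      have h2 : c.1 * w.1.1 * c.1⁻¹ = w.1.1 := by
        rw [← hρ, h1]
      show w.1.1 * c.1 = c.1 * w.1.1
      calc w.1.1 * c.1 = (c.1 * w.1.1 * c.1⁻¹) * c.1 := by rw [h2]
        _ = c.1 * w.1.1 := by group
    let f : fixS ρ c × C₀ → Subgroup.centralizer ({v ^ k * c.1} : Set X) := fun q =>
      ⟨q.1.1.1 * q.2.1, by
        refine Subgroup.mem_centralizer_iff.mpr ?_
        intro z hz
        rw [Set.mem_singleton_iff.mp hz]
        have hwv : Commute q.1.1.1 v := hcommV _ q.1.1.2 _ hv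
        have hgv : Commute q.2.1 v := (hcv q.2).symm
        have h1 : Commute (q.1.1.1 * q.2.1) (v ^ k * c.1) :=
          Commute.mul_right (Commute.mul_left (hwv.pow_right k) (hgv.pow_right k))
            (Commute.mul_left (hwc q.1) (hcommC q.2 c))
        exact h1.symm.eq⟩
    have hf : Function.Bijective f := by
      constructor
      · rintro ⟨a, b⟩ ⟨a', b'⟩ h
        have h1 : a.1.1 * b.1 = a'.1.1 * b'.1 := congrArg Subtype.val h
        have h2 := hGV.1 (a₁ := (⟨a.1.1, a.1.2⟩, ⟨b.1, b.2.1⟩))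
          (a₂ := (⟨a'.1.1, a'.1.2⟩, ⟨b'.1, b'.2.1⟩)) h1
        have h3 : a = a' := Subtype.ext (Subtype.ext (congrArg (fun q => (q.1 : X)) h2))
        have h4 : b = b' := Subtype.ext (congrArg (fun q => (q.2 : X)) h2)
        rw [h3, h4]
      · rintro ⟨x, hx⟩
        obtain ⟨⟨w, g⟩, hwg⟩ := hGV.2 x
        have hwg' : w.1 * g.1 = x := hwg
        have hxc : Commute x (v ^ k * c.1) := by
          exact (Subgroup.mem_centralizer_iff.mp hx _ (Set.mem_singleton _)).symm
        have hvkc : Commute (v ^ k) c.1 := (hcv c).pow_left k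
        have hovk : orderOf (v ^ k) ∣ Nat.card V :=
          Subgroup.orderOf_dvd_natCard V (V.pow_mem hv k)
        have hoc : orderOf c.1 ∣ Nat.card C₀ := Subgroup.orderOf_dvd_natCard C₀ c.2
        have hcopo : (orderOf (v ^ k)).Coprime (orderOf c.1) :=
          Nat.Coprime.coprime_dvd_left hovk (Nat.Coprime.coprime_dvd_right hoc hcop.symm)
        have hxa : Commute x (v ^ k) := commute_parts hvkc hcopo hxc
        have hxb : Commute x c.1 := by
          refine commute_parts hvkc.symm hcopo.symm ?_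
          rwa [← hvkc.eq]
        have hxv : Commute x v := by
          have h1 : x ∈ Subgroup.centralizer ({v ^ k} : Set X) :=
            Subgroup.mem_centralizer_iff.mpr (fun z hz => by
              rw [Set.mem_singleton_iff.mp hz]
              exact hxa.symm.eq)
          rw [centralizer_pow_eq hk] at h1
          exact (Subgroup.mem_centralizer_iff.mp h1 v (Set.mem_singleton v)).symm
        have hgv : Commute g.1 v := by
          have h1 : g.1 = w.1⁻¹ * x := by rw [← hwg']; group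
          rw [h1]
          exact Commute.mul_left ((hcommV _ w.2 _ hv).inv_left) hxv
        have hgC : g.1 ∈ C₀ := ⟨g.2, Subgroup.mem_centralizer_iff.mpr (fun z hz => by
          rw [Set.mem_singleton_iff.mp hz]
          exact hgv.symm.eq)⟩
        have hwcomm : Commute w.1 c.1 := by
          have h1 : w.1 = x * g.1⁻¹ := by rw [← hwg']; group
          rw [h1]
          exact Commute.mul_left hxb ((hcommC ⟨g.1, hgC⟩ c).inv_left)
        have hwfix : w ∈ fixS ρ c := by
          show ρ c w = w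
          apply Subtype.ext
          rw [hρ]
          calc c.1 * w.1 * c.1⁻¹ = w.1 * c.1 * c.1⁻¹ := by rw [hwcomm.eq]
            _ = w.1 := by group
        exact ⟨(⟨w, hwfix⟩, ⟨g.1, hgC⟩), Subtype.ext hwg'⟩
    rw [← Nat.card_prod]
    exact (Nat.card_congr (Equiv.ofBijective f hf)).symm
  -- the inequality for a single character
  have hτ : ∀ τ : IrrCharacter X, (Fintype.card (ZMod N)ˣ : ℝ) * (Nat.card C₀ : ℝ) ^ 2 ≤
      ∑ u : (ZMod N)ˣ, ∑ c : C₀, wt ρ c * ‖τ.1 (v ^ (u : ZMod N).val * c.1)‖ ^ 2 := by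
    intro τ
    have hcommΓ : ∀ (m : Subgroup.zpowers v) (n : C₀),
        Commute ((Subgroup.zpowers v).subtype m) (C₀.subtype n) := by
      rintro ⟨m, hm⟩ n
      obtain ⟨j, rfl⟩ := Subgroup.mem_zpowers_iff.mp hm
      exact (hcv n).zpow_left j
    let φ : (Subgroup.zpowers v) × C₀ →* X :=
      MonoidHom.noncommCoprod (Subgroup.zpowers v).subtype C₀.subtype hcommΓ
    have hφ : ∀ (m : Subgroup.zpowers v) (n : C₀), φ (m, n) = m.1 * n.1 := fun m n => rfl
    letI instZ : CommGroup (Subgroup.zpowers v) :=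
      { (inferInstance : Group (Subgroup.zpowers v)) with
        mul_comm := by
          rintro ⟨a, ha⟩ ⟨b, hb⟩
          obtain ⟨i, rfl⟩ := Subgroup.mem_zpowers_iff.mp ha
          obtain ⟨j, rfl⟩ := Subgroup.mem_zpowers_iff.mp hb
          apply Subtype.ext
          exact ((Commute.refl v).zpow_zpow i j).eq }
    obtain ⟨I, hI, ξ, hξ⟩ := exists_sum_homs (Γ := (Subgroup.zpowers v) × C₀)
      (χ := fun h => τ.1 (φ h)) (by
        exact Cfsg.Agent.Lib.Char.Basic.isCharacter_comp_hom
          (Cfsg.Agent.Lib.Char.Basic.isCharacter_of_isIrrCharacter τ.2) φ)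
    let v₀ : Subgroup.zpowers v := ⟨v, Subgroup.mem_zpowers v⟩
    let z : I → ℂ := fun i => ((ξ i (v₀, 1) : ℂˣ) : ℂ)
    let μ : I → C₀ →* ℂˣ := fun i => (ξ i).comp (MonoidHom.inr _ _)
    have hz : ∀ i, z i ^ N = 1 := by
      intro i
      show ((ξ i (v₀, 1) : ℂˣ) : ℂ) ^ N = 1
      rw [← Units.val_pow_eq_pow_val, ← map_pow]
      have : (v₀, (1 : C₀)) ^ N = 1 := by
        ext
        · show v ^ N = 1
          rw [hN]
          exact pow_card_eq_one'
        · simp
      rw [this, map_one, Units.val_one]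
    have hval : ∀ (k : ℕ) (c : C₀),
        τ.1 (v ^ k * c.1) = ∑ i, z i ^ k * ((μ i c : ℂˣ) : ℂ) := by
      intro k c
      have h1 : v ^ k * c.1 = φ (v₀ ^ k, c) := rfl
      rw [h1]
      have h2 := hξ (v₀ ^ k, c)
      refine h2.trans (Finset.sum_congr rfl fun i _ => ?_)
      have h3 : ((v₀ ^ k, c) : (Subgroup.zpowers v) × C₀) = (v₀, 1) ^ k * (1, c) := by
        ext <;> simp
      rw [h3, map_mul, map_pow, Units.val_mul, Units.val_pow_eq_pow_val]
      rfl
    have hgood := isGood_of_module hz (Nat.card V) V ρ rfl hcop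
    have hlat : ∀ u c, latF N z μ Finset.univ u c =
        τ.1 (v ^ (u : ZMod N).val * c.1) := by
      intro u c
      rw [hval]
      rfl
    have h1 := hgood Finset.univ μ (by
      intro i _ e he
      rw [hker, Subgroup.mem_bot] at he
      rw [he, map_one]) ⟨1, 1, by
        rw [hlat]
        show τ.1 (v ^ _ * 1) ≠ 0
        rw [mul_one]
        exact character_ne_zero hp.out V hVab hVp hidx τ.2 (V.pow_mem hv _)⟩
    rw [hker, Subgroup.card_bot, Nat.cast_one, one_mul] at h1
    simp_rw [hlat] at h1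
    exact h1
  -- summing up
  set T : ℝ := (Fintype.card (ZMod N)ˣ : ℝ) * (Nat.card C₀ : ℝ) ^ 2 with hT
  have hTpos : 0 < T := by
    have h1 : (0 : ℝ) < Fintype.card (ZMod N)ˣ := by exact_mod_cast Fintype.card_pos
    have h2 : (0 : ℝ) < Nat.card C₀ := by exact_mod_cast Nat.card_pos
    positivity
  have hVcard : (0 : ℝ) < Nat.card V := by exact_mod_cast Nat.card_pos
  have hterm : ∀ (u : (ZMod N)ˣ) (c : C₀),
      ∑ τ : IrrCharacter X, wt ρ c * ‖τ.1 (v ^ (u : ZMod N).val * c.1)‖ ^ 2 =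
        (Nat.card V : ℝ) * Nat.card C₀ := by
    intro u c
    rw [← Finset.mul_sum, sum_norm_sq, hcent _ (ZMod.val_coe_unit_coprime u)]
    have h1 : (0 : ℝ) < Nat.card (fixS ρ c) := by exact_mod_cast Nat.card_pos
    unfold wt
    push_cast
    field_simp
  have htotal : (Fintype.card (IrrCharacter X) : ℝ) * T ≤ T * Nat.card V := by
    calc (Fintype.card (IrrCharacter X) : ℝ) * T = ∑ _τ : IrrCharacter X, T := by
          rw [Finset.sum_const, Finset.card_univ, nsmul_eq_mul]
      _ ≤ ∑ τ : IrrCharacter X, ∑ u : (ZMod N)ˣ, ∑ c : C₀,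
            wt ρ c * ‖τ.1 (v ^ (u : ZMod N).val * c.1)‖ ^ 2 :=
          Finset.sum_le_sum fun τ _ => hτ τ
      _ = ∑ u : (ZMod N)ˣ, ∑ c : C₀, ∑ τ : IrrCharacter X,
            wt ρ c * ‖τ.1 (v ^ (u : ZMod N).val * c.1)‖ ^ 2 := by
          rw [Finset.sum_comm]
          refine Finset.sum_congr rfl fun u _ => ?_
          rw [Finset.sum_comm]
      _ = T * Nat.card V := by
          simp_rw [hterm]
          rw [Finset.sum_const, Finset.sum_const, Finset.card_univ, Finset.card_univ, nsmul_eq_mul,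
            nsmul_eq_mul, hT, ← Nat.card_eq_fintype_card (α := C₀)]
          ring
  have h3 : (Fintype.card (IrrCharacter X) : ℝ) ≤ Nat.card V := by
    rw [mul_comm T] at htotal
    exact le_of_mul_le_mul_right htotal hTpos
  rw [← Cfsg.Agent.Lib.Char.CompleteCor.card_irr_eq_card_conjClasses, Nat.card_eq_fintype_card]
  exact_mod_cast h3

end Cfsg.Agent.Lib.Coprime.KGVAb
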