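import Mathlib

/-!
# A minimum estimate for quadratic forms on the dual of a finite abelian group

Knörr's abelian stabilizer criterion for the `k(GV)` problem rests on an estimate for the positive
definite form `A ↦ ∑ₓ Θ x * ‖A x‖²` attached to a weight `Θ` on a finite abelian group, on the
functions `A` whose Fourier coefficients are each zero or of norm at least one.
-/

set_option autoImplicit false

namespace Cfsg.Agent.Lib.Coprime.KnorrForm

open scoped ComplexConjugate

variable {ι : Type*} [Fintype ι]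

/-- Squared norm of a vector. -/
noncomputable def nsq (a : ι → ℂ) : ℝ := ∑ i, ‖a i‖ ^ 2

theorem nsq_nonneg (a : ι → ℂ) : 0 ≤ nsq a := Finset.sum_nonneg fun _ _ => by positivity

theorem nsq_eq_zero {a : ι → ℂ} : nsq a = 0 ↔ a = 0 := by
  constructor
  · intro h
    have h1 := (Finset.sum_eq_zero_iff_of_nonneg (fun _ _ => by positivity)).mp h
    funext i
    have := h1 i (Finset.mem_univ i)
    simpa using this
  · rintro rfl
    simp [nsq]

theorem nsq_zero : nsq (0 : ι → ℂ) = 0 := nsq_eq_zero.mpr rfl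

variable {α : Type*} [AddCommGroup α] [Fintype α]

/-- Fourier coefficient of a vector valued function. -/
noncomputable def coef (A : α → ι → ℂ) (ψ : AddChar α ℂ) : ι → ℂ :=
  fun i => (Fintype.card α : ℂ)⁻¹ * ∑ x, conj (ψ x) * A x i

/-- The weight `Θ` is good: the form attached to `Θ` takes values at least `B * |α|²` on nonzero
functions whose coefficients are zero or have squared norm at least `B`. -/
def Good (ι : Type*) [Fintype ι] (Θ : α → ℝ) : Prop :=
  ∀ B : ℝ, 0 < B → ∀ A : α → ι → ℂ, (∀ ψ, coef A ψ = 0 ∨ B ≤ nsq (coef A ψ)) → A ≠ 0 →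
    B * (Fintype.card α : ℝ) ^ 2 ≤ ∑ x, Θ x * nsq (A x)

theorem Good.mono {Θ Θ' : α → ℝ} (h : Good ι Θ) (hle : ∀ x, Θ x ≤ Θ' x) : Good ι Θ' := by
  intro B hB A hc hA
  refine (h B hB A hc hA).trans ?_
  exact Finset.sum_le_sum fun x _ => mul_le_mul_of_nonneg_right (hle x) (nsq_nonneg _)

/-- Base case: the trivial group. -/
theorem good_of_subsingleton [Subsingleton α] {Θ : α → ℝ} (h : ∀ x, 1 ≤ Θ x) : Good ι Θ := by
  intro B hB A hc hA
  have hcard : Fintype.card α = 1 := Fintype.card_eq_one_iff.mpr ⟨0, fun y => Subsingleton.elim _ _⟩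
  have hs : ∑ x, Θ x * nsq (A x) = Θ 0 * nsq (A 0) := by
    rw [Fintype.sum_eq_single (0 : α)]
    intro x hx
    exact absurd (Subsingleton.elim x 0) hx
  have hA0 : A 0 ≠ 0 := by
    intro h0
    apply hA
    funext x
    rw [Subsingleton.elim x 0, h0]
    rfl
  have hco : coef A (0 : AddChar α ℂ) = A 0 := by
    funext i
    simp only [coef, hcard, AddChar.zero_apply, map_one, one_mul]
    rw [Fintype.sum_eq_single (0 : α)]
    · simp
    · intro x hx
      exact absurd (Subsingleton.elim x 0) hx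
  have h1 : B ≤ nsq (A 0) := by
    rcases hc 0 with h2 | h2
    · rw [hco] at h2
      exact absurd h2 hA0
    · rwa [hco] at h2
  rw [hs, hcard]
  have := h 0
  have h3 := nsq_nonneg (A 0)
  push_cast
  nlinarith

/-- Restriction along an injective homomorphism. -/
theorem Good.comp {β : Type*} [AddCommGroup β] [Fintype β] {Θ : β → ℝ} (h : Good ι Θ) (j : α →+ β)
    (hj : Function.Injective j) : Good ι (Θ ∘ j) := by
  classical
  intro B hB A hc hA
  set a : ℝ := (Fintype.card α : ℝ) with ha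
  set b : ℝ := (Fintype.card β : ℝ) with hb
  have ha0 : 0 < a := by
    rw [ha]
    exact_mod_cast Fintype.card_pos
  have hb0 : 0 < b := by
    rw [hb]
    exact_mod_cast Fintype.card_pos
  set r : ℝ := b / a with hr
  have hr0 : 0 < r := div_pos hb0 ha0
  -- extension by zero
  let Ah : β → ι → ℂ := Function.extend j (fun x i => (r : ℂ) * A x i) 0
  have hAj : ∀ x i, Ah (j x) i = (r : ℂ) * A x i := by
    intro x i
    have := hj.extend_apply (fun x i => (r : ℂ) * A x i) (0 : β → ι → ℂ) x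
    exact congrFun this i
  have hAn : ∀ y, y ∉ Set.range j → Ah y = 0 := by
    intro y hy
    have := Function.extend_apply' (fun x i => (r : ℂ) * A x i) (0 : β → ι → ℂ) y
      (fun ⟨x, hx⟩ => hy ⟨x, hx⟩)
    exact this
  have hsum : ∀ g : β → ι → ℂ, ∀ i, ∑ y, g y i * Ah y i = ∑ x, g (j x) i * ((r : ℂ) * A x i) := by
    intro g i
    symm
    apply Fintype.sum_of_injective j hj
    · intro y hy
      rw [hAn y hy]
      simp
    · intro x
      rw [hAj]
  have hcoef : ∀ ψ : AddChar β ℂ, coef Ah ψ = coef A (ψ.compAddMonoidHom j) := by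
    intro ψ
    funext i
    simp only [coef]
    have := hsum (fun y _ => conj (ψ y)) i
    rw [this]
    simp only [AddChar.compAddMonoidHom_apply]
    have hne : ((Fintype.card α : ℂ)) ≠ 0 := by exact_mod_cast Fintype.card_ne_zero
    have hne' : ((Fintype.card β : ℂ)) ≠ 0 := by exact_mod_cast Fintype.card_ne_zero
    have hrc : (r : ℂ) = (Fintype.card β : ℂ) / (Fintype.card α : ℂ) := by
      rw [hr, ha, hb]
      push_cast
      rfl
    have e : ∀ x, conj (ψ (j x)) * ((r : ℂ) * A x i) = (r : ℂ) * (conj (ψ (j x)) * A x i) := by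
      intro x
      ring
    rw [Finset.sum_congr rfl (fun x _ => e x), ← Finset.mul_sum, hrc]
    field_simp
  have hAh : Ah ≠ 0 := by
    intro h0
    apply hA
    funext x i
    have h1 := hAj x i
    rw [h0] at h1
    have h2 : (r : ℂ) ≠ 0 := by exact_mod_cast hr0.ne'
    have h3 : (r : ℂ) * A x i = 0 := h1.symm
    simpa [h2] using h3
  have hmain := h B hB Ah (fun ψ => by rw [hcoef]; exact hc _) hAh
  have hnsq : ∀ x, nsq (Ah (j x)) = r ^ 2 * nsq (A x) := by
    intro x
    simp only [nsq]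
    rw [Finset.mul_sum]
    refine Finset.sum_congr rfl fun i _ => ?_
    rw [hAj, norm_mul, mul_pow, Complex.norm_real, Real.norm_of_nonneg hr0.le]
  have hsum2 : ∑ y, Θ y * nsq (Ah y) = r ^ 2 * ∑ x, (Θ ∘ j) x * nsq (A x) := by
    rw [Finset.mul_sum]
    symm
    apply Fintype.sum_of_injective j hj
    · intro y hy
      rw [hAn y hy, nsq_zero, mul_zero]
    · intro x
      rw [hnsq, Function.comp]
      ring
  rw [hsum2] at hmain
  have hb2 : b = r * a := by
    rw [hr]
    field_simp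
  have hfin : r ^ 2 * (B * a ^ 2) ≤ r ^ 2 * ∑ x, (Θ ∘ j) x * nsq (A x) := by
    calc r ^ 2 * (B * a ^ 2) = B * b ^ 2 := by rw [hb2]; ring
      _ ≤ _ := hmain
  exact le_of_mul_le_mul_left hfin (by positivity)


section Fourier

variable {γ : Type*} [AddCommGroup γ] [Fintype γ]

/-- Scalar Fourier coefficient. -/
noncomputable def fc (f : γ → ℂ) (ρ : AddChar γ ℂ) : ℂ :=
  (Fintype.card γ : ℂ)⁻¹ * ∑ t, conj (ρ t) * f t

theorem sum_char_mul_conj [DecidableEq γ] (t t' : γ) :
    ∑ ρ : AddChar γ ℂ, ρ t * conj (ρ t') = if t = t' then (Fintype.card γ : ℂ) else 0 := by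
  have h := AddChar.sum_apply_eq_ite (α := γ) (t - t')
  have e : ∀ ρ : AddChar γ ℂ, ρ (t - t') = ρ t * conj (ρ t') := by
    intro ρ
    rw [sub_eq_add_neg, AddChar.map_add_eq_mul, AddChar.map_neg_eq_conj]
  simp only [e] at h
  rw [h]
  simp [sub_eq_zero]

theorem fourier_inversion (f : γ → ℂ) (t : γ) : f t = ∑ ρ : AddChar γ ℂ, ρ t * fc f ρ := by
  classical
  have hne : (Fintype.card γ : ℂ) ≠ 0 := by exact_mod_cast Fintype.card_ne_zero
  simp only [fc]
  have e : ∀ ρ : AddChar γ ℂ, ρ t * ((Fintype.card γ : ℂ)⁻¹ * ∑ t', conj (ρ t') * f t') =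
      (Fintype.card γ : ℂ)⁻¹ * ∑ t', (ρ t * conj (ρ t')) * f t' := by
    intro ρ
    rw [mul_left_comm, Finset.mul_sum]
    congr 1
    refine Finset.sum_congr rfl fun t' _ => ?_
    ring
  rw [Finset.sum_congr rfl fun ρ _ => e ρ, ← Finset.mul_sum, Finset.sum_comm]
  simp only [← Finset.sum_mul, sum_char_mul_conj]
  rw [Finset.sum_eq_single t]
  · simp [hne]
  · intro b _ hb
    simp [Ne.symm hb]
  · simp

theorem parseval (f : γ → ℂ) :
    ∑ t, ‖f t‖ ^ 2 = (Fintype.card γ : ℝ) * ∑ ρ : AddChar γ ℂ, ‖fc f ρ‖ ^ 2 := by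
  have hne : (Fintype.card γ : ℂ) ≠ 0 := by exact_mod_cast Fintype.card_ne_zero
  have h : ((∑ t, ‖f t‖ ^ 2 : ℝ) : ℂ) =
      (((Fintype.card γ : ℝ) * ∑ ρ : AddChar γ ℂ, ‖fc f ρ‖ ^ 2 : ℝ) : ℂ) := by
    push_cast
    have e1 : ∀ t, ((‖f t‖ : ℂ)) ^ 2 = f t * conj (f t) := by
      intro t
      rw [Complex.mul_conj, Complex.normSq_eq_norm_sq]
      push_cast
      rfl
    have e2 : ∀ ρ : AddChar γ ℂ, ((‖fc f ρ‖ : ℂ)) ^ 2 = fc f ρ * conj (fc f ρ) := by
      intro ρ
      rw [Complex.mul_conj, Complex.normSq_eq_norm_sq]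
      push_cast
      rfl
    simp only [e1, e2]
    have e3 : ∀ t, f t * conj (f t) = f t * ∑ ρ : AddChar γ ℂ, conj (ρ t) * conj (fc f ρ) := by
      intro t
      conv_lhs => rw [fourier_inversion f t]
      rw [map_sum]
      simp only [map_mul]
      conv_lhs => rw [← fourier_inversion f t]
    simp only [e3, Finset.mul_sum]
    rw [Finset.sum_comm]
    refine Finset.sum_congr rfl fun ρ _ => ?_
    have e4 : (Fintype.card γ : ℂ) * fc f ρ = ∑ t, conj (ρ t) * f t := by
      simp only [fc]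
      field_simp
    calc ∑ t, f t * (conj (ρ t) * conj (fc f ρ))
        = (∑ t, conj (ρ t) * f t) * conj (fc f ρ) := by
          rw [Finset.sum_mul]
          refine Finset.sum_congr rfl fun t _ => ?_
          ring
      _ = _ := by rw [← e4]; ring
  exact_mod_cast h

end Fourier

/-- Product of two characters. -/
noncomputable def charProd {γ β : Type*} [AddCommGroup γ] [AddCommGroup β]
    (ρ : AddChar γ ℂ) (ψ : AddChar β ℂ) : AddChar (γ × β) ℂ :=
  (ρ.compAddMonoidHom (AddMonoidHom.fst γ β)) * (ψ.compAddMonoidHom (AddMonoidHom.snd γ β))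

@[simp] theorem charProd_apply {γ β : Type*} [AddCommGroup γ] [AddCommGroup β]
    (ρ : AddChar γ ℂ) (ψ : AddChar β ℂ) (t : γ) (y : β) : charProd ρ ψ (t, y) = ρ t * ψ y := rfl

/-- The product step. -/
theorem Good.prod {γ β : Type*} [AddCommGroup γ] [Fintype γ] [AddCommGroup β] [Fintype β]
    {Θ : β → ℝ} (h : Good ι Θ) (hΘ : ∀ y, 0 ≤ Θ y) {m : ℝ} (hm : (Fintype.card γ : ℝ) + 1 ≤ m)
    [DecidableEq γ] :
    Good ι (fun x : γ × β => (if x.1 = 0 then 1 else m) * Θ x.2) := by
  classical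
  intro B hB A hc hA
  set n : ℝ := (Fintype.card γ : ℝ) with hn
  have hn0 : 0 < n := by
    rw [hn]
    exact_mod_cast Fintype.card_pos
  set b : ℝ := (Fintype.card β : ℝ) with hb
  -- rows
  let R : AddChar γ ℂ → β → ι → ℂ := fun ρ y i => fc (fun t => A (t, y) i) ρ
  let Z : Finset (AddChar γ ℂ) := Finset.univ.filter (fun ρ => R ρ ≠ 0)
  have hRz : ∀ ρ, ρ ∉ Z → ∀ y i, R ρ y i = 0 := by
    intro ρ hρ y i
    have : R ρ = 0 := by
      by_contra h0
      exact hρ (Finset.mem_filter.mpr ⟨Finset.mem_univ _, h0⟩)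
    rw [this]
    rfl
  have hinv : ∀ t y i, A (t, y) i = ∑ ρ ∈ Z, ρ t * R ρ y i := by
    intro t y i
    rw [fourier_inversion (fun t => A (t, y) i) t]
    symm
    apply Finset.sum_subset (Finset.subset_univ Z)
    intro ρ _ hρ
    show ρ t * R ρ y i = 0
    rw [hRz ρ hρ y i, mul_zero]
  -- the coefficients of a row
  have hcoef : ∀ ρ ψ, coef (R ρ) ψ = coef A (charProd ρ ψ) := by
    intro ρ ψ
    funext i
    simp only [coef, R, fc, Fintype.card_prod, Fintype.sum_prod_type, charProd_apply, map_mul]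
    conv_rhs => rw [Finset.sum_comm]
    rw [Finset.mul_sum, Finset.mul_sum]
    refine Finset.sum_congr rfl fun y _ => ?_
    rw [Finset.mul_sum, Finset.mul_sum, Finset.mul_sum, Finset.mul_sum]
    refine Finset.sum_congr rfl fun t _ => ?_
    push_cast
    ring
  have hZne : 0 < Z.card := by
    rw [Finset.card_pos]
    by_contra hZ
    rw [Finset.not_nonempty_iff_eq_empty] at hZ
    apply hA
    funext ⟨t, y⟩ i
    rw [hinv t y i, hZ]
    simp
  set k : ℝ := (Z.card : ℝ) with hk
  have hk1 : 1 ≤ k := by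
    rw [hk]
    exact_mod_cast hZne
  have hkn : k ≤ n := by
    rw [hk, hn, ← AddChar.card_eq (α := γ)]
    exact_mod_cast Finset.card_le_univ Z
  have hm1 : 1 ≤ m := by linarith
  -- row estimate
  have hrow : ∀ ρ ∈ Z, B * b ^ 2 ≤ ∑ y, Θ y * nsq (R ρ y) := by
    intro ρ hρ
    refine h B hB (R ρ) (fun ψ => ?_) (Finset.mem_filter.mp hρ).2
    rw [hcoef]
    exact hc _
  let T : β → ℝ := fun y => ∑ ρ ∈ Z, nsq (R ρ y)
  -- the main estimate for each `y`
  have hper : ∀ y, (m * n - (m - 1) * k) * T y ≤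
      ∑ t, (if t = 0 then 1 else m) * nsq (A (t, y)) := by
    intro y
    have h1 : ∑ t, nsq (A (t, y)) = n * T y := by
      simp only [nsq, T]
      rw [Finset.sum_comm, Finset.sum_comm (s := Z), Finset.mul_sum]
      refine Finset.sum_congr rfl fun i _ => ?_
      rw [parseval (fun t => A (t, y) i)]
      congr 1
      symm
      apply Finset.sum_subset (Finset.subset_univ Z)
      intro ρ _ hρ
      rw [hRz ρ hρ y i]
      simp
    have h2 : nsq (A (0, y)) ≤ k * T y := by
      simp only [nsq, T]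
      rw [Finset.sum_comm, Finset.mul_sum]
      refine Finset.sum_le_sum fun i _ => ?_
      have h3 : A (0, y) i = ∑ ρ ∈ Z, R ρ y i := by
        rw [hinv]
        simp
      rw [h3]
      calc ‖∑ ρ ∈ Z, R ρ y i‖ ^ 2 ≤ (∑ ρ ∈ Z, ‖R ρ y i‖) ^ 2 := by
            gcongr
            exact norm_sum_le _ _
        _ ≤ _ := sq_sum_le_card_mul_sum_sq
    have h4 : ∑ t, (if t = 0 then 1 else m) * nsq (A (t, y)) =
        m * ∑ t, nsq (A (t, y)) - (m - 1) * nsq (A (0, y)) := by
      rw [Finset.mul_sum]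
      have : ∀ t, (if t = (0 : γ) then 1 else m) * nsq (A (t, y)) =
          m * nsq (A (t, y)) - (if t = 0 then (m - 1) * nsq (A (0, y)) else 0) := by
        intro t
        split_ifs with ht
        · subst ht
          ring
        · ring
      rw [Finset.sum_congr rfl fun t _ => this t, Finset.sum_sub_distrib]
      simp
    rw [h4, h1]
    have h5 : (m - 1) * nsq (A (0, y)) ≤ (m - 1) * (k * T y) :=
      mul_le_mul_of_nonneg_left h2 (by linarith)
    nlinarith
  have hcoeff : 0 ≤ m * n - (m - 1) * k := by nlinarith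
  -- assemble
  have hsum : ∑ x : γ × β, (if x.1 = 0 then 1 else m) * Θ x.2 * nsq (A x) =
      ∑ y, Θ y * ∑ t, (if t = 0 then 1 else m) * nsq (A (t, y)) := by
    rw [Fintype.sum_prod_type, Finset.sum_comm]
    refine Finset.sum_congr rfl fun y _ => ?_
    rw [Finset.mul_sum]
    refine Finset.sum_congr rfl fun t _ => ?_
    ring
  rw [hsum]
  have hT : k * (B * b ^ 2) ≤ ∑ y, Θ y * T y := by
    simp only [T, Finset.mul_sum]
    rw [Finset.sum_comm]
    calc k * (B * b ^ 2) = ∑ ρ ∈ Z, B * b ^ 2 := by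
          rw [Finset.sum_const, nsmul_eq_mul]
      _ ≤ _ := Finset.sum_le_sum fun ρ hρ => by
          have := hrow ρ hρ
          simpa [Finset.mul_sum] using this
  have hlow : (m * n - (m - 1) * k) * ∑ y, Θ y * T y ≤
      ∑ y, Θ y * ∑ t, (if t = 0 then 1 else m) * nsq (A (t, y)) := by
    rw [Finset.mul_sum]
    refine Finset.sum_le_sum fun y _ => ?_
    have := mul_le_mul_of_nonneg_left (hper y) (hΘ y)
    linarith
  refine le_trans ?_ hlow
  have harith : n ^ 2 ≤ (m * n - (m - 1) * k) * k := by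
    have h1 : (n * (n + 1 - k)) ≤ m * n - (m - 1) * k := by nlinarith
    have h2 : n ^ 2 ≤ n * (n + 1 - k) * k := by
      have : n * (n + 1 - k) * k - n ^ 2 = n * ((k - 1) * (n - k)) := by ring
      have h3 : 0 ≤ n * ((k - 1) * (n - k)) :=
        mul_nonneg hn0.le (mul_nonneg (by linarith) (by linarith))
      linarith
    have h3 : n * (n + 1 - k) * k ≤ (m * n - (m - 1) * k) * k :=
      mul_le_mul_of_nonneg_right h1 (by linarith)
    linarith
  have hBb : 0 ≤ B * b ^ 2 := by positivity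
  have hcard : (Fintype.card (γ × β) : ℝ) = n * b := by
    rw [Fintype.card_prod]
    push_cast
    rfl
  rw [hcard]
  calc B * (n * b) ^ 2 = n ^ 2 * (B * b ^ 2) := by ring
    _ ≤ ((m * n - (m - 1) * k) * k) * (B * b ^ 2) := mul_le_mul_of_nonneg_right harith hBb
    _ = (m * n - (m - 1) * k) * (k * (B * b ^ 2)) := by ring
    _ ≤ _ := mul_le_mul_of_nonneg_left hT hcoeff

end Cfsg.Agent.Lib.Coprime.KnorrForm
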