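import Mathlib
import Cfsg.Agent.Lib.Coprime.KnorrForm
import Cfsg.Agent.Lib.Coprime.Coset
import Cfsg.Agent.Lib.Coprime.Factor

/-!
# The index weight of a coprime abelian action is good
-/

set_option autoImplicit false
set_option linter.style.haveILetI false

namespace Cfsg.Agent.Lib.Coprime.KnorrWeight

open Cfsg.Agent.Lib.Coprime.KnorrForm

variable {X : Type*} [Group X] {C : Type*} [CommGroup C] (φ : C →* X)

/-- Invariance under the image of `φ`. -/
def IsInv (U : Subgroup X) : Prop := ∀ c : C, ∀ u ∈ U, φ c * u * (φ c)⁻¹ ∈ U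

/-- The kernel of the action on `U`. -/
def kerOn (U : Subgroup X) : Subgroup C where
  carrier := {c | ∀ u ∈ U, φ c * u * (φ c)⁻¹ = u}
  one_mem' := by
    intro u _
    simp
  mul_mem' := by
    intro a b ha hb u hu
    have h1 := hb u hu
    have h2 := ha u hu
    calc φ (a * b) * u * (φ (a * b))⁻¹ = φ a * (φ b * u * (φ b)⁻¹) * (φ a)⁻¹ := by
          rw [map_mul]; group
      _ = u := by rw [h1, h2]
  inv_mem' := by
    intro a ha u hu
    have h1 := ha u hu
    rw [map_inv, inv_inv]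
    calc (φ a)⁻¹ * u * φ a = (φ a)⁻¹ * (φ a * u * (φ a)⁻¹) * φ a := by rw [h1]
      _ = u := by group

theorem mem_kerOn {U : Subgroup X} {c : C} : c ∈ kerOn φ U ↔ ∀ u ∈ U, φ c * u * (φ c)⁻¹ = u :=
  Iff.rfl

/-- The weight of `c`: the index of its fixed points in `U`. -/
noncomputable def wt (U : Subgroup X) (c : C) : ℕ :=
  (Subgroup.centralizer ({φ c} : Set X)).relIndex U

theorem wt_pos [Finite X] (U : Subgroup X) (c : C) : 0 < wt φ U c := by
  unfold wt Subgroup.relIndex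
  exact Nat.pos_of_ne_zero Subgroup.index_ne_zero_of_finite

theorem centralizer_inf_congr {U : Subgroup X} {c k : C} (hk : k ∈ kerOn φ U) :
    Subgroup.centralizer ({φ (c * k)} : Set X) ⊓ U = Subgroup.centralizer ({φ c} : Set X) ⊓ U := by
  ext u
  simp only [Subgroup.mem_inf, Subgroup.mem_centralizer_singleton_iff, map_mul]
  constructor
  · rintro ⟨h, hu⟩
    refine ⟨?_, hu⟩
    have h1 := hk u hu
    have h2 : φ k * u = u * φ k := by
      calc φ k * u = (φ k * u * (φ k)⁻¹) * φ k := by group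
        _ = u * φ k := by rw [h1]
    have h3 : u * φ c * φ k = φ c * u * φ k := by
      calc u * φ c * φ k = u * (φ c * φ k) := by group
        _ = φ c * φ k * u := h
        _ = φ c * (φ k * u) := by group
        _ = φ c * (u * φ k) := by rw [h2]
        _ = φ c * u * φ k := by group
    exact mul_right_cancel h3
  · rintro ⟨h, hu⟩
    refine ⟨?_, hu⟩
    have h1 := hk u hu
    have h2 : φ k * u = u * φ k := by
      calc φ k * u = (φ k * u * (φ k)⁻¹) * φ k := by group
        _ = u * φ k := by rw [h1]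
    calc u * (φ c * φ k) = u * φ c * φ k := by group
      _ = φ c * u * φ k := by rw [h]
      _ = φ c * (u * φ k) := by group
      _ = φ c * (φ k * u) := by rw [h2]
      _ = φ c * φ k * u := by group

theorem wt_mul_ker {U : Subgroup X} {c k : C} (hk : k ∈ kerOn φ U) :
    wt φ U (c * k) = wt φ U c := by
  unfold wt
  rw [← Subgroup.inf_relIndex_right, centralizer_inf_congr φ hk, Subgroup.inf_relIndex_right]

/-- The weight on the quotient. -/
noncomputable def wq (U : Subgroup X) (x : Additive (C ⧸ kerOn φ U)) : ℝ :=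
  (wt φ U (Quotient.out (Additive.toMul x)) : ℝ)

theorem wq_mk {U : Subgroup X} (c : C) :
    wq φ U (Additive.ofMul (QuotientGroup.mk c)) = wt φ U c := by
  unfold wq
  have h : (QuotientGroup.mk (Quotient.out (QuotientGroup.mk c : C ⧸ kerOn φ U)) : C ⧸ kerOn φ U) =
      QuotientGroup.mk c := QuotientGroup.out_eq' _
  have h1 := QuotientGroup.eq.mp h
  have h2 := wt_mul_ker φ (c := Quotient.out (QuotientGroup.mk c : C ⧸ kerOn φ U)) h1
  simp only [mul_inv_cancel_left] at h2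
  rw [h2]
  rfl

theorem wq_nonneg (U : Subgroup X) (x : Additive (C ⧸ kerOn φ U)) : 0 ≤ wq φ U x := by
  unfold wq
  positivity

section Step

variable {φ}
variable {U U₀ V : Subgroup X}

/-- The kernel on the factor `U / U₀`. -/
def kerFac (φ : C →* X) {U U₀ : Subgroup X} (hU : IsInv φ U) : Subgroup C where
  carrier := {c | ∀ u ∈ U, φ c * u * (φ c)⁻¹ * u⁻¹ ∈ U₀}
  one_mem' := by
    intro u _
    simp
  mul_mem' := by
    intro a b ha hb u hu
    have h1 := ha _ (hU b u hu)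
    have h2 := hb u hu
    have h3 := U₀.mul_mem h1 h2
    have e : φ a * (φ b * u * (φ b)⁻¹) * (φ a)⁻¹ * (φ b * u * (φ b)⁻¹)⁻¹ *
        (φ b * u * (φ b)⁻¹ * u⁻¹) = φ (a * b) * u * (φ (a * b))⁻¹ * u⁻¹ := by
      rw [map_mul]; group
    rwa [e] at h3
  inv_mem' := by
    intro a ha u hu
    have h1 := ha _ (hU a⁻¹ u hu)
    have h3 := U₀.inv_mem h1
    have e : (φ a * (φ a⁻¹ * u * (φ a⁻¹)⁻¹) * (φ a)⁻¹ * (φ a⁻¹ * u * (φ a⁻¹)⁻¹)⁻¹)⁻¹ =
        φ a⁻¹ * u * (φ a⁻¹)⁻¹ * u⁻¹ := by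
      rw [map_inv]; group
    rwa [e] at h3

theorem mem_kerFac {hU : IsInv φ U} {c : C} :
    c ∈ kerFac (U₀ := U₀) φ hU ↔ ∀ u ∈ U, φ c * u * (φ c)⁻¹ * u⁻¹ ∈ U₀ := Iff.rfl

theorem kerOn_le_kerFac (hU : IsInv φ U) : kerOn φ U ≤ kerFac (U₀ := U₀) φ hU := by
  intro c hc u hu
  rw [hc u hu, mul_inv_cancel]
  exact U₀.one_mem

theorem kerOn_mono (h : U₀ ≤ U) : kerOn φ U ≤ kerOn φ U₀ := fun _ hc u hu => hc u (h hu)

/-- An element of coprime order cannot act nontrivially on `U` and trivially on `[U, c]`. -/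
theorem comm_trivial (hV : Nat.Coprime (Nat.card V) (Nat.card C)) [Finite C] {c : C} {u : X}
    {w : X} (hw : w = φ c * u * (φ c)⁻¹ * u⁻¹) (hwV : w ∈ V) (hc : φ c * w = w * φ c) : w = 1 := by
  set g := φ c with hg
  have h1 : g * u * g⁻¹ = w * u := by rw [hw]; group
  have h2 : ∀ k : ℕ, g ^ k * u * (g ^ k)⁻¹ = w ^ k * u := by
    intro k
    induction k with
    | zero => simp
    | succ k ih =>
      have hcomm : Commute g w := hc
      have hcomm' : Commute g (w ^ k) := hcomm.pow_right k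
      calc g ^ (k + 1) * u * (g ^ (k + 1))⁻¹
          = g * (g ^ k * u * (g ^ k)⁻¹) * g⁻¹ := by
            rw [pow_succ']; group
        _ = g * (w ^ k * u) * g⁻¹ := by rw [ih]
        _ = w ^ k * (g * u * g⁻¹) := by
            rw [← mul_assoc g, hcomm'.eq]; group
        _ = w ^ k * (w * u) := by rw [h1]
        _ = w ^ (k + 1) * u := by
            rw [pow_succ]; group
  have h3 : w ^ orderOf g = 1 := by
    have := h2 (orderOf g)
    rw [pow_orderOf_eq_one] at this
    simp only [one_mul, inv_one, mul_one] at this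
    have h4 : w ^ orderOf g * u = 1 * u := by rw [← this, one_mul]
    exact mul_right_cancel h4
  have h5 : orderOf w ∣ Nat.card V := Subgroup.orderOf_dvd_natCard V hwV
  have h6 : orderOf w ∣ Nat.card C :=
    (orderOf_dvd_of_pow_eq_one h3).trans ((orderOf_map_dvd φ c).trans (orderOf_dvd_natCard c))
  exact orderOf_eq_one_iff.mp (Nat.eq_one_of_dvd_coprimes hV h5 h6)

theorem kerFac_inf_le (hV : Nat.Coprime (Nat.card V) (Nat.card C)) [Finite C] (hUV : U ≤ V)
    (hU : IsInv φ U) (hU₀ : U₀ ≤ U) {c : C} (h1 : c ∈ kerFac (U₀ := U₀) φ hU)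
    (h0 : c ∈ kerOn φ U₀) : c ∈ kerOn φ U := by
  intro u hu
  have hw := h1 u hu
  have h2 := h0 _ hw
  have h3 : φ c * (φ c * u * (φ c)⁻¹ * u⁻¹) = (φ c * u * (φ c)⁻¹ * u⁻¹) * φ c := by
    calc _ = (φ c * (φ c * u * (φ c)⁻¹ * u⁻¹) * (φ c)⁻¹) * φ c := by group
      _ = _ := by rw [h2]
  have h4 := comm_trivial hV rfl (hUV (hU₀ hw)) h3
  calc φ c * u * (φ c)⁻¹ = (φ c * u * (φ c)⁻¹ * u⁻¹) * u := by group
    _ = u := by rw [h4, one_mul]

/-- Elements of `φ(C)` normalize invariant subgroups. -/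
theorem mem_normalizer_of_isInv (hU : IsInv φ U) (c : C) :
    φ c ∈ Subgroup.normalizer (U : Set X) := by
  rw [Subgroup.mem_normalizer_iff]
  intro h
  constructor
  · exact hU c h
  · intro hh
    have := hU c⁻¹ _ hh
    have e : φ c⁻¹ * (φ c * h * (φ c)⁻¹) * (φ c⁻¹)⁻¹ = h := by
      rw [map_inv]; group
    rwa [e] at this

theorem isInv_inf_centralizer (hU : IsInv φ U) (c : C) :
    IsInv φ (U ⊓ Subgroup.centralizer ({φ c} : Set X)) := by
  rintro d u ⟨hu, huc⟩
  refine ⟨hU d u hu, ?_⟩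
  have huc' : φ c * u = u * φ c := by
    have := Subgroup.mem_centralizer_iff.mp huc (φ c) (Set.mem_singleton _)
    exact this
  refine Subgroup.mem_centralizer_iff.mpr ?_
  rintro _ rfl
  have hdc : φ d * φ c = φ c * φ d := by rw [← map_mul, ← map_mul, mul_comm]
  calc φ c * (φ d * u * (φ d)⁻¹) = (φ c * φ d) * u * (φ d)⁻¹ := by group
    _ = (φ d * φ c) * u * (φ d)⁻¹ := by rw [hdc]
    _ = φ d * (φ c * u) * (φ d)⁻¹ := by group
    _ = φ d * (u * φ c) * (φ d)⁻¹ := by rw [huc']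
    _ = φ d * u * (φ d * ((φ d)⁻¹ * φ c)) * (φ d)⁻¹ := by group
    _ = φ d * u * (φ d)⁻¹ * (φ d * φ c * (φ d)⁻¹) := by group
    _ = φ d * u * (φ d)⁻¹ * φ c := by rw [hdc]; group

theorem isInv_sup {A B : Subgroup X} (hA : IsInv φ A) (hB : IsInv φ B)
    (hN : A ≤ Subgroup.normalizer (B : Set X)) : IsInv φ (B ⊔ A) := by
  intro d x hx
  obtain ⟨b, hb, a, ha, rfl⟩ :=
    (Cfsg.Agent.Lib.Coprime.Coset.mem_sup_iff_of_le_normalizer hN x).mp hx
  have e : φ d * (b * a) * (φ d)⁻¹ = (φ d * b * (φ d)⁻¹) * (φ d * a * (φ d)⁻¹) := by group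
  rw [e]
  exact Subgroup.mul_mem_sup (hB d b hb) (hA d a ha)

/-- Outside the kernel on the factor, the fixed points lie in `U₀`. -/
theorem centralizer_le_of_not_mem (hUab : ∀ a ∈ U, ∀ b ∈ U, a * b = b * a) (hU : IsInv φ U)
    (hU₀inv : IsInv φ U₀) (hU₀ : U₀ ≤ U)
    (hmax : ∀ W : Subgroup X, IsInv φ W → U₀ ≤ W → W ≤ U → W = U₀ ∨ W = U) {c : C}
    (hc : c ∉ kerFac (U₀ := U₀) φ hU) : U ⊓ Subgroup.centralizer ({φ c} : Set X) ≤ U₀ := by
  set A := U ⊓ Subgroup.centralizer ({φ c} : Set X) with hA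
  have hN : A ≤ Subgroup.normalizer (U₀ : Set X) := by
    intro a ha
    rw [Subgroup.mem_normalizer_iff]
    intro h
    constructor
    · intro hh
      have e : a * h * a⁻¹ = h := by
        rw [hUab a ha.1 h (hU₀ hh)]; group
      rwa [e]
    · intro hh
      have h1 : a⁻¹ * (a * h * a⁻¹) * a ∈ U₀ := by
        have e : a⁻¹ * (a * h * a⁻¹) * a = a * h * a⁻¹ := by
          rw [hUab _ (U.inv_mem ha.1) _ (hU₀ hh)]; group
        rwa [e]
      have e : a⁻¹ * (a * h * a⁻¹) * a = h := by group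
      rwa [e] at h1
  have hW := hmax (U₀ ⊔ A) (isInv_sup (isInv_inf_centralizer hU c) hU₀inv hN) le_sup_left
    (sup_le hU₀ inf_le_left)
  rcases hW with hW | hW
  · rw [← hW]
    exact le_sup_right
  · exfalso
    apply hc
    intro u hu
    rw [← hW] at hu
    obtain ⟨b, hb, a, ha, rfl⟩ :=
      (Cfsg.Agent.Lib.Coprime.Coset.mem_sup_iff_of_le_normalizer hN u).mp hu
    have hac : φ c * a = a * φ c := by
      have := Subgroup.mem_centralizer_iff.mp ha.2 (φ c) (Set.mem_singleton _)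
      exact this
    have hb' : φ c * b * (φ c)⁻¹ ∈ U₀ := hU₀inv c b hb
    have e : φ c * (b * a) * (φ c)⁻¹ * (b * a)⁻¹ = (φ c * b * (φ c)⁻¹) * b⁻¹ := by
      have h1 : φ c * (b * a) * (φ c)⁻¹ = (φ c * b * (φ c)⁻¹) * a := by
        have h' : a * (φ c)⁻¹ = (φ c)⁻¹ * a := by
          calc a * (φ c)⁻¹ = (φ c)⁻¹ * (φ c * a) * (φ c)⁻¹ := by group
            _ = (φ c)⁻¹ * (a * φ c) * (φ c)⁻¹ := by rw [hac]
            _ = _ := by group
        calc φ c * (b * a) * (φ c)⁻¹ = φ c * b * (a * (φ c)⁻¹) := by group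
          _ = φ c * b * ((φ c)⁻¹ * a) := by rw [h']
          _ = _ := by group
      rw [h1, mul_inv_rev]
      have h2 : (φ c * b * (φ c)⁻¹) * a = a * (φ c * b * (φ c)⁻¹) :=
        hUab _ (hU₀ hb') _ ha.1
      rw [h2]
      have h3 : b⁻¹ * a = a * b⁻¹ := hUab _ (U.inv_mem (hU₀ hb)) _ ha.1
      calc a * (φ c * b * (φ c)⁻¹) * (a⁻¹ * b⁻¹)
          = a * (φ c * b * (φ c)⁻¹) * (b⁻¹ * a⁻¹) * 1 := by
            have h4 : a⁻¹ * b⁻¹ = b⁻¹ * a⁻¹ :=
              hUab _ (U.inv_mem ha.1) _ (U.inv_mem (hU₀ hb))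
            rw [h4, mul_one]
        _ = (a * ((φ c * b * (φ c)⁻¹) * b⁻¹) * a⁻¹) := by group
        _ = _ := by
            have h5 := hUab _ ha.1 _ (U.mul_mem (hU₀ hb') (U.inv_mem (hU₀ hb)))
            rw [h5]; group
    rw [e]
    exact U₀.mul_mem hb' (U₀.inv_mem hb)

/-- The coset lifting property. -/
theorem mem_kerFac_of_coset [Finite X] [Finite C] (hV : Nat.Coprime (Nat.card V) (Nat.card C))
    (hUV : U ≤ V) (hUab : ∀ a ∈ U, ∀ b ∈ U, a * b = b * a) (hU : IsInv φ U)
    (hU₀inv : IsInv φ U₀) (hU₀ : U₀ ≤ U)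
    (hmax : ∀ W : Subgroup X, IsInv φ W → U₀ ≤ W → W ≤ U → W = U₀ ∨ W = U)
    {u₀ : X} (hu₀ : u₀ ∈ U) (hu₀' : u₀ ∉ U₀) {e : C} (he : u₀⁻¹ * (φ e * u₀ * (φ e)⁻¹) ∈ U₀) :
    e ∈ kerFac (U₀ := U₀) φ hU := by
  by_contra hc
  have hle := centralizer_le_of_not_mem hUab hU hU₀inv hU₀ hmax hc
  set g := φ e with hg
  have hcard : (Nat.card (Subgroup.zpowers g)).Coprime (Nat.card U) := by
    rw [Nat.card_zpowers]
    have h1 : orderOf g ∣ Nat.card C := (orderOf_map_dvd φ e).trans (orderOf_dvd_natCard e)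
    exact (hV.symm.coprime_dvd_left h1).coprime_dvd_right (Subgroup.card_dvd_of_le hUV)
  have hpow : ∀ k : ℕ, u₀⁻¹ * (g ^ k * u₀ * (g ^ k)⁻¹) ∈ U₀ := by
    intro k
    induction k with
    | zero => simp
    | succ k ih =>
      have hgk : g ^ k ∈ Subgroup.normalizer (U₀ : Set X) :=
        Subgroup.pow_mem _ (mem_normalizer_of_isInv hU₀inv e) k
      have h1 := (Subgroup.mem_normalizer_iff.mp hgk _).mp he
      have e1 : u₀⁻¹ * (g ^ (k + 1) * u₀ * (g ^ (k + 1))⁻¹) =
          (u₀⁻¹ * (g ^ k * u₀ * (g ^ k)⁻¹)) * (g ^ k * (u₀⁻¹ * (g * u₀ * g⁻¹)) * (g ^ k)⁻¹) := by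
        rw [pow_succ]; group
      rw [e1]
      exact U₀.mul_mem ih h1
  obtain ⟨w, ⟨hwU, hwc⟩, hw⟩ := Cfsg.Agent.Lib.Coprime.Coset.exists_centralizer_mem_coset
    (A := Subgroup.zpowers g) (K := U) (N := U₀)
    ((Subgroup.zpowers_le).mpr (mem_normalizer_of_isInv hU e)) hcard (Or.inl inferInstance) hU₀
    ((Subgroup.zpowers_le).mpr (mem_normalizer_of_isInv hU₀inv e)) u₀ hu₀
    (by
      intro a ha
      have ha' : a ∈ Submonoid.powers g := mem_powers_iff_mem_zpowers.mpr ha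
      obtain ⟨k, rfl⟩ := Submonoid.mem_powers_iff _ _ |>.mp ha'
      exact hpow k)
  have hwc' : w ∈ Subgroup.centralizer ({g} : Set X) := by
    refine Subgroup.mem_centralizer_iff.mpr ?_
    rintro _ rfl
    exact Subgroup.mem_centralizer_iff.mp hwc g (Subgroup.mem_zpowers g)
  have hw0 := hle ⟨hwU, hwc'⟩
  apply hu₀'
  have e2 : u₀ = w * (u₀⁻¹ * w)⁻¹ := by group
  rw [e2]
  exact U₀.mul_mem hw0 (U₀.inv_mem hw)

/-- The size of the factor. -/
theorem card_quot_succ_le [Finite X] [Finite C] (hV : Nat.Coprime (Nat.card V) (Nat.card C))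
    (hUV : U ≤ V) (hUab : ∀ a ∈ U, ∀ b ∈ U, a * b = b * a) (hU : IsInv φ U)
    (hU₀inv : IsInv φ U₀) (hU₀ : U₀ < U)
    (hmax : ∀ W : Subgroup X, IsInv φ W → U₀ ≤ W → W ≤ U → W = U₀ ∨ W = U) :
    Nat.card (C ⧸ kerFac (U₀ := U₀) φ hU) + 1 ≤ U₀.relIndex U := by
  classical
  obtain ⟨u₀, hu₀, hu₀'⟩ := Set.exists_of_ssubset hU₀
  -- the injection
  let f : Option (C ⧸ kerFac (U₀ := U₀) φ hU) → ↥U ⧸ U₀.subgroupOf U := fun o =>
    match o with
    | none => QuotientGroup.mk 1
    | some x => QuotientGroup.mk ⟨φ (Quotient.out x) * u₀ * (φ (Quotient.out x))⁻¹,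
        hU _ _ hu₀⟩
  have hf : Function.Injective f := by
    have hne : ∀ x, f none ≠ f (some x) := by
      intro x h
      have h1 := QuotientGroup.eq.mp h
      have h2 : φ (Quotient.out x) * u₀ * (φ (Quotient.out x))⁻¹ ∈ U₀ := by
        have := Subgroup.mem_subgroupOf.mp h1
        simpa using this
      have h3 := hU₀inv (Quotient.out x)⁻¹ _ h2
      have e : φ (Quotient.out x)⁻¹ * (φ (Quotient.out x) * u₀ * (φ (Quotient.out x))⁻¹) *
          (φ (Quotient.out x)⁻¹)⁻¹ = u₀ := by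
        rw [map_inv]; group
      rw [e] at h3
      exact hu₀' h3
    rintro (_ | x) (_ | y) h
    · rfl
    · exact absurd h (hne y)
    · exact absurd h.symm (hne x)
    · have h1 := QuotientGroup.eq.mp h
      have h2 : (φ (Quotient.out x) * u₀ * (φ (Quotient.out x))⁻¹)⁻¹ *
          (φ (Quotient.out y) * u₀ * (φ (Quotient.out y))⁻¹) ∈ U₀ := by
        have := Subgroup.mem_subgroupOf.mp h1
        simpa using this
      have h3 := hU₀inv (Quotient.out x)⁻¹ _ h2
      set c := Quotient.out x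
      set d := Quotient.out y
      have e : φ c⁻¹ * ((φ c * u₀ * (φ c)⁻¹)⁻¹ * (φ d * u₀ * (φ d)⁻¹)) * (φ c⁻¹)⁻¹ =
          u₀⁻¹ * (φ (c⁻¹ * d) * u₀ * (φ (c⁻¹ * d))⁻¹) := by
        rw [map_mul, map_inv]; group
      rw [e] at h3
      have h4 := mem_kerFac_of_coset hV hUV hUab hU hU₀inv hU₀.le hmax hu₀ hu₀' h3
      have h5 : (QuotientGroup.mk c : C ⧸ kerFac (U₀ := U₀) φ hU) = QuotientGroup.mk d :=
        QuotientGroup.eq.mpr h4
      have h6 : x = y := by
        rw [← QuotientGroup.out_eq' x, ← QuotientGroup.out_eq' y]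
        exact h5
      rw [h6]
  have hc := Nat.card_le_card_of_injective f hf
  rw [Finite.card_option] at hc
  exact hc

/-- The weight inequality. -/
theorem wt_le (hU₀ : U₀ ≤ U) (c : C) [Finite X] : wt φ U₀ c ≤ wt φ U c :=
  Cfsg.Agent.Lib.Coprime.Factor.relIndex_le_relIndex_of_le _ hU₀

theorem relIndex_mul_wt_le [Finite X] (hUab : ∀ a ∈ U, ∀ b ∈ U, a * b = b * a)
    (hU : IsInv φ U) (hU₀inv : IsInv φ U₀) (hU₀ : U₀ ≤ U)
    (hmax : ∀ W : Subgroup X, IsInv φ W → U₀ ≤ W → W ≤ U → W = U₀ ∨ W = U) {c : C}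
    (h : c ∉ kerFac (U₀ := U₀) φ hU) :
    U₀.relIndex U * wt φ U₀ c ≤ wt φ U c := by
  have hle := centralizer_le_of_not_mem hUab hU hU₀inv hU₀ hmax h
  set H := Subgroup.centralizer ({φ c} : Set X) with hH
  have hle' : H ⊓ U ≤ U₀ := by
    rw [inf_comm]
    exact hle
  have h1 := Subgroup.relIndex_mul_relIndex (H ⊓ U) U₀ U hle' hU₀
  rw [Subgroup.inf_relIndex_right] at h1
  have h2 : (H ⊓ U).relIndex U₀ = H.relIndex U₀ := by
    rw [← Subgroup.inf_relIndex_right (H ⊓ U) U₀, ← Subgroup.inf_relIndex_right H U₀, inf_assoc,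
      inf_eq_right.mpr hU₀]
  rw [h2] at h1
  unfold wt
  rw [mul_comm, h1]

end Step

section Main

variable {U V : Subgroup X} {φ}

theorem exists_ofMul_mk {K : Subgroup C} (x : Additive (C ⧸ K)) :
    ∃ c : C, Additive.ofMul (QuotientGroup.mk c : C ⧸ K) = x := by
  obtain ⟨c, hc⟩ := QuotientGroup.mk_surjective (Additive.toMul x)
  exact ⟨c, by rw [hc]; rfl⟩

theorem good_wq (ι : Type*) [Fintype ι] [Finite X] [Finite C]
    (hV : Nat.Coprime (Nat.card V) (Nat.card C)) (hVab : ∀ a ∈ V, ∀ b ∈ V, a * b = b * a) :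
    ∀ (n : ℕ) (U : Subgroup X), Nat.card U = n → U ≤ V → IsInv φ U →
      ∀ [Fintype (Additive (C ⧸ kerOn φ U))], Good ι (wq φ U) := by
  classical
  intro n
  induction n using Nat.strong_induction_on with
  | _ n ih =>
    intro U hn hUV hU _
    by_cases hbot : U = ⊥
    · haveI : Subsingleton (C ⧸ kerOn φ U) := by
        constructor
        intro a b
        obtain ⟨a, rfl⟩ := QuotientGroup.mk_surjective a
        obtain ⟨b, rfl⟩ := QuotientGroup.mk_surjective b
        refine QuotientGroup.eq.mpr ?_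
        intro u hu
        rw [hbot, Subgroup.mem_bot] at hu
        subst hu
        simp
      haveI : Subsingleton (Additive (C ⧸ kerOn φ U)) := Additive.ofMul.symm.injective.subsingleton
      refine good_of_subsingleton fun x => ?_
      unfold wq
      exact_mod_cast wt_pos φ U _
    · -- a maximal invariant subgroup
      have hfin : {W : Subgroup X | W < U ∧ IsInv φ W}.Finite := Set.toFinite _
      have hne : {W : Subgroup X | W < U ∧ IsInv φ W}.Nonempty := by
        refine ⟨⊥, bot_lt_iff_ne_bot.mpr hbot, ?_⟩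
        intro c u hu
        rw [Subgroup.mem_bot] at hu ⊢
        subst hu
        simp
      obtain ⟨U₀, ⟨hlt, hU₀inv⟩, hmaxl⟩ := hfin.exists_maximal hne
      have hmax : ∀ W : Subgroup X, IsInv φ W → U₀ ≤ W → W ≤ U → W = U₀ ∨ W = U := by
        intro W hW h1 h2
        by_cases h : W = U
        · exact Or.inr h
        · left
          exact le_antisymm (hmaxl ⟨lt_of_le_of_ne h2 h, hW⟩ h1) h1
      have hUab : ∀ a ∈ U, ∀ b ∈ U, a * b = b * a := fun a ha b hb => hVab a (hUV ha) b (hUV hb)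
      have hcard : Nat.card U₀ < n := by
        rw [← hn]
        have := Set.ncard_lt_ncard (s := (U₀ : Set X)) (t := (U : Set X)) hlt (Set.toFinite _)
        rw [← Nat.card_coe_set_eq, ← Nat.card_coe_set_eq] at this
        exact this
      letI : Fintype (Additive (C ⧸ kerFac (U₀ := U₀) φ hU)) := Fintype.ofFinite _
      letI : Fintype (Additive (C ⧸ kerOn φ U₀)) := Fintype.ofFinite _
      have hgood : Good ι (wq φ U₀) :=
        ih _ hcard U₀ rfl (hlt.le.trans hUV) hU₀inv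
      have hm : (Fintype.card (Additive (C ⧸ kerFac (U₀ := U₀) φ hU)) : ℝ) + 1 ≤
          (U₀.relIndex U : ℝ) := by
        have := card_quot_succ_le hV hUV hUab hU hU₀inv hlt hmax
        rw [Fintype.card_eq_nat_card, Nat.card_congr Additive.toMul]
        exact_mod_cast this
      have hprod := hgood.prod (γ := Additive (C ⧸ kerFac (U₀ := U₀) φ hU)) (wq_nonneg φ U₀) hm
      -- the embedding
      let f₁ : C ⧸ kerOn φ U →* C ⧸ kerFac (U₀ := U₀) φ hU :=
        QuotientGroup.map _ _ (MonoidHom.id C) (fun c hc => kerOn_le_kerFac hU hc)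
      let f₀ : C ⧸ kerOn φ U →* C ⧸ kerOn φ U₀ :=
        QuotientGroup.map _ _ (MonoidHom.id C) (fun c hc => kerOn_mono hlt.le hc)
      let j : Additive (C ⧸ kerOn φ U) →+ Additive (C ⧸ kerFac (U₀ := U₀) φ hU) ×
          Additive (C ⧸ kerOn φ U₀) :=
        AddMonoidHom.prod (MonoidHom.toAdditive f₁) (MonoidHom.toAdditive f₀)
      have hj : Function.Injective j := by
        intro x y hxy
        obtain ⟨a, rfl⟩ := exists_ofMul_mk x
        obtain ⟨b, rfl⟩ := exists_ofMul_mk y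
        have h1 := congrArg Prod.fst hxy
        have h2 := congrArg Prod.snd hxy
        have h3 : (QuotientGroup.mk a : C ⧸ kerFac (U₀ := U₀) φ hU) = QuotientGroup.mk b := h1
        have h4 : (QuotientGroup.mk a : C ⧸ kerOn φ U₀) = QuotientGroup.mk b := h2
        have h5 := QuotientGroup.eq.mp h3
        have h6 := QuotientGroup.eq.mp h4
        have h7 := kerFac_inf_le hV hUV hU hlt.le h5 h6
        exact congrArg Additive.ofMul (QuotientGroup.eq.mpr h7)
      refine (hprod.comp j hj).mono ?_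
      intro x
      obtain ⟨c, rfl⟩ := exists_ofMul_mk x
      have h1 : (j (Additive.ofMul (QuotientGroup.mk c))).1 =
          Additive.ofMul (QuotientGroup.mk c) := rfl
      have h2 : (j (Additive.ofMul (QuotientGroup.mk c))).2 =
          Additive.ofMul (QuotientGroup.mk c) := rfl
      simp only [Function.comp, h1, h2, wq_mk]
      have h3 : (Additive.ofMul (QuotientGroup.mk c : C ⧸ kerFac (U₀ := U₀) φ hU) = 0) ↔
          c ∈ kerFac (U₀ := U₀) φ hU := by
        rw [← QuotientGroup.eq_one_iff]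
        exact Additive.ofMul.injective.eq_iff' rfl
      simp only [h3]
      split_ifs with h
      · rw [one_mul]
        exact_mod_cast wt_le hlt.le c
      · exact_mod_cast relIndex_mul_wt_le hUab hU hU₀inv hlt.le hmax h

/-- Final form. -/
theorem good_wt (ι : Type*) [Fintype ι] [Finite X] [Finite C] [Fintype (Additive C)]
    (hV : Nat.Coprime (Nat.card V) (Nat.card C)) (hVab : ∀ a ∈ V, ∀ b ∈ V, a * b = b * a)
    (hinv : IsInv φ V) (hfaith : kerOn φ V = ⊥) :
    Good ι (fun x : Additive C => (wt φ V (Additive.toMul x) : ℝ)) := by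
  classical
  letI : Fintype (Additive (C ⧸ kerOn φ V)) := Fintype.ofFinite _
  have h := good_wq (φ := φ) ι hV hVab _ V rfl le_rfl hinv
  have hj : Function.Injective (MonoidHom.toAdditive (QuotientGroup.mk' (kerOn φ V))) := by
    intro x y hxy
    have h1 := QuotientGroup.eq.mp (show (QuotientGroup.mk (Additive.toMul x) : C ⧸ kerOn φ V) =
      QuotientGroup.mk (Additive.toMul y) from hxy)
    rw [hfaith, Subgroup.mem_bot] at h1
    have h2 : Additive.toMul x = Additive.toMul y := by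
      rw [inv_mul_eq_one] at h1
      exact h1
    exact Additive.toMul.injective h2
  refine (h.comp _ hj).mono fun x => ?_
  exact le_of_eq (wq_mk φ (Additive.toMul x))

end Main

end Cfsg.Agent.Lib.Coprime.KnorrWeight
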