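import Mathlib
import Cfsg.Agent.Lib.Coprime.KnorrWeight
import Cfsg.Agent.Lib.Coprime.KGV
import Cfsg.Agent.Lib.Char.LinearChars

/-!
# Knörr's abelian stabilizer criterion
-/

set_option autoImplicit false
set_option linter.style.haveILetI false
set_option linter.unusedSectionVars false

namespace Cfsg.Agent.Lib.Coprime.KnorrAbelian

open Cfsg Cfsg.Agent.Lib.Coprime.KnorrForm Cfsg.Agent.Lib.Coprime.KnorrWeight
open scoped ComplexConjugate

/-- A dichotomy for the vector of Galois conjugates of a character value. -/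
theorem galois_dichotomy {P : Type*} [Group P] [Finite P] {χ : P → ℂ} (hχ : IsCharacter P χ) (g : P)
    [NeZero (Nat.card P)] :
    (fun u : (ZMod (Nat.card P))ˣ => χ (g ^ (u : ZMod (Nat.card P)).val)) = 0 ∨
    ((Fintype.card (ZMod (Nat.card P))ˣ : ℝ) ≤
      nsq (fun u : (ZMod (Nat.card P))ˣ => χ (g ^ (u : ZMod (Nat.card P)).val))) := by
  by_cases h : χ g = 0
  · left
    funext u
    by_contra hne
    have h1 := Cfsg.Agent.Lib.Char.GaloisC.character_pow_ne_zero hχ hne
      (ZMod.val_coe_unit_coprime u⁻¹)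
    rw [← pow_mul] at h1
    have h2 : g ^ ((u : ZMod (Nat.card P)).val * ((u⁻¹ : (ZMod (Nat.card P))ˣ) :
        ZMod (Nat.card P)).val) = g := by
      have e : ((u : ZMod (Nat.card P)).val * ((u⁻¹ : (ZMod (Nat.card P))ˣ) :
          ZMod (Nat.card P)).val : ZMod (Nat.card P)) = 1 := by
        simp
      have e2 : ((u : ZMod (Nat.card P)).val * ((u⁻¹ : (ZMod (Nat.card P))ˣ) :
          ZMod (Nat.card P)).val) ≡ 1 [MOD Nat.card P] := by
        rw [← ZMod.natCast_eq_natCast_iff]
        push_cast at e ⊢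
        exact e
      have e3 := e2
      unfold Nat.ModEq at e3
      rw [← pow_mod_natCard, e3, pow_mod_natCard, pow_one]
    rw [h2] at h1
    exact h1 h
  · right
    have h1 := Cfsg.Agent.Lib.Char.GaloisC.one_le_prod_norm hχ h
    unfold nsq
    apply Cfsg.Agent.Lib.Char.GaloisC.card_le_sum_of_one_le_prod
    · intro u
      positivity
    · rw [Finset.prod_pow]
      exact one_le_pow₀ h1

variable {X : Type*} [Group X] [Finite X]

theorem centralizer_mul_of_coprime {y g : X} (hc : Commute y g)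
    (hcop : (orderOf y).Coprime (orderOf g)) :
    Subgroup.centralizer ({y * g} : Set X) =
      Subgroup.centralizer ({y} : Set X) ⊓ Subgroup.centralizer ({g} : Set X) := by
  ext x
  simp only [Subgroup.mem_inf, Subgroup.mem_centralizer_singleton_iff]
  constructor
  · intro h
    have hx : Commute x (y * g) := h
    obtain ⟨n, hn1, hn2⟩ := Nat.chineseRemainder hcop 1 0
    obtain ⟨m, hm1, hm2⟩ := Nat.chineseRemainder hcop 0 1
    have e1 : (y * g) ^ n = y := by
      rw [hc.mul_pow, (pow_eq_pow_iff_modEq.mpr hn1 : y ^ n = y ^ 1),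
        (pow_eq_pow_iff_modEq.mpr hn2 : g ^ n = g ^ 0)]
      simp
    have e2 : (y * g) ^ m = g := by
      rw [hc.mul_pow, (pow_eq_pow_iff_modEq.mpr hm1 : y ^ m = y ^ 0),
        (pow_eq_pow_iff_modEq.mpr hm2 : g ^ m = g ^ 1)]
      simp
    have h1 : Commute x ((y * g) ^ n) := hx.pow_right n
    have h2 : Commute x ((y * g) ^ m) := hx.pow_right m
    rw [e1] at h1
    rw [e2] at h2
    exact ⟨h1, h2⟩
  · rintro ⟨h1, h2⟩
    have h3 : Commute x y := h1
    have h4 : Commute x g := h2
    exact (h3.mul_right h4).eq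

/-- The order of the centralizer of a `p`-element and a commuting `p'`-element. -/
theorem card_centralizer_inf (V : Subgroup X) [V.Normal] (hab : ∀ a ∈ V, ∀ b ∈ V, a * b = b * a)
    (G : Subgroup X) (hGV : Subgroup.IsComplement' V G) {v : X} (hv : v ∈ V)
    (hD : ∀ a ∈ G ⊓ Subgroup.centralizer ({v} : Set X), ∀ b ∈ G ⊓ Subgroup.centralizer ({v} : Set X),
      a * b = b * a) {g : X} (hg : g ∈ G ⊓ Subgroup.centralizer ({v} : Set X)) :
    Nat.card ↥(Subgroup.centralizer ({v} : Set X) ⊓ Subgroup.centralizer ({g} : Set X)) =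
      Nat.card ↥(V ⊓ Subgroup.centralizer ({g} : Set X)) *
        Nat.card ↥(G ⊓ Subgroup.centralizer ({v} : Set X)) := by
  classical
  set D := G ⊓ Subgroup.centralizer ({v} : Set X) with hDdef
  have hcv : ∀ x, x ∈ Subgroup.centralizer ({v} : Set X) ↔ x * v = v * x := fun x =>
    Subgroup.mem_centralizer_singleton_iff
  have hcg : ∀ x, x ∈ Subgroup.centralizer ({g} : Set X) ↔ x * g = g * x := fun x =>
    Subgroup.mem_centralizer_singleton_iff
  let f : ↥(V ⊓ Subgroup.centralizer ({g} : Set X)) × ↥D →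
      ↥(Subgroup.centralizer ({v} : Set X) ⊓ Subgroup.centralizer ({g} : Set X)) :=
    fun q => ⟨q.1.1 * q.2.1, by
      constructor
      · exact Subgroup.mul_mem _ ((hcv _).mpr (hab _ q.1.2.1 _ hv)) q.2.2.2
      · exact Subgroup.mul_mem _ q.1.2.2 ((hcg _).mpr (hD _ q.2.2 _ hg))⟩
  have hf : Function.Bijective f := by
    constructor
    · rintro ⟨a, b⟩ ⟨a', b'⟩ h
      have h1 : a.1 * b.1 = a'.1 * b'.1 := congrArg Subtype.val h
      have h2 := @hGV.1 (⟨a.1, a.2.1⟩, ⟨b.1, b.2.1⟩) (⟨a'.1, a'.2.1⟩, ⟨b'.1, b'.2.1⟩) h1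
      have h3 : a = a' := Subtype.ext (congrArg (fun q => (q.1 : X)) h2)
      have h4 : b = b' := Subtype.ext (congrArg (fun q => (q.2 : X)) h2)
      rw [h3, h4]
    · rintro ⟨x, hx1, hx2⟩
      obtain ⟨⟨w, d⟩, hwd⟩ := hGV.2 x
      have hwd' : w.1 * d.1 = x := hwd
      have hxv : x * v = v * x := (hcv x).mp hx1
      have hwv : w.1 * v = v * w.1 := hab _ w.2 _ hv
      have hdv : d.1 * v = v * d.1 := by
        have : w.1 * (d.1 * v) = w.1 * (v * d.1) := by
          calc w.1 * (d.1 * v) = x * v := by rw [← hwd']; group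
            _ = v * x := hxv
            _ = v * w.1 * d.1 := by rw [← hwd']; group
            _ = w.1 * v * d.1 := by rw [hwv]
            _ = _ := by group
        exact mul_left_cancel this
      have hdD : d.1 ∈ D := ⟨d.2, (hcv _).mpr hdv⟩
      have hdg : d.1 * g = g * d.1 := hD _ hdD _ hg
      have hwg : w.1 * g = g * w.1 := by
        have hxg : x * g = g * x := (hcg x).mp hx2
        have : w.1 * g * d.1 = g * w.1 * d.1 := by
          calc w.1 * g * d.1 = w.1 * (g * d.1) := by group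
            _ = w.1 * (d.1 * g) := by rw [hdg]
            _ = x * g := by rw [← hwd']; group
            _ = g * x := hxg
            _ = g * w.1 * d.1 := by rw [← hwd']; group
        exact mul_right_cancel this
      exact ⟨(⟨w.1, w.2, (hcg _).mpr hwg⟩, ⟨d.1, hdD⟩), Subtype.ext hwd'⟩
  rw [← Nat.card_prod]
  exact (Nat.card_congr (Equiv.ofBijective f hf)).symm

/-- The index and the order of the fixed points. -/
theorem relIndex_mul_card (H U : Subgroup X) : H.relIndex U * Nat.card ↥(U ⊓ H) = Nat.card U := by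
  have h1 := Subgroup.relIndex_mul_relIndex ⊥ (H ⊓ U) U bot_le inf_le_right
  rw [Subgroup.relIndex_bot_left, Subgroup.relIndex_bot_left, Subgroup.inf_relIndex_right,
    inf_comm] at h1
  rw [mul_comm]
  exact h1

/-- The Fourier coefficients of `c ↦ χ (y c)` are character values. -/
theorem exists_avg_char {C : Type*} [CommGroup C] [Finite C] [Fintype (Additive C)] (φ : C →* X)
    {v : X} (hvφ : ∀ c, Commute v (φ c)) {χ : X → ℂ} (hχ : IsCharacter X χ)
    (ψ : AddChar (Additive C) ℂ) :
    ∃ χ₄ : ↥(Subgroup.zpowers v) × C → ℂ, IsCharacter _ χ₄ ∧ ∀ k : ℕ,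
      χ₄ ((⟨v, Subgroup.mem_zpowers v⟩, 1) ^ k) = (Fintype.card (Additive C) : ℂ)⁻¹ *
        ∑ x : Additive C, conj (ψ x) * χ (v ^ k * φ (Additive.toMul x)) := by
  classical
  have hcomm : ∀ (m : ↥(Subgroup.zpowers v)) (n : C),
      Commute ((Subgroup.zpowers v).subtype m) (φ n) := by
    rintro ⟨m, hm⟩ n
    obtain ⟨k, rfl⟩ := Subgroup.mem_zpowers_iff.mp hm
    exact (hvφ n).zpow_left k
  let π : ↥(Subgroup.zpowers v) × C →* X :=
    MonoidHom.noncommCoprod (Subgroup.zpowers v).subtype φ hcomm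
  let f : C →* ℂ :=
    { toFun := fun c => conj (ψ (Additive.ofMul c))
      map_one' := by simp
      map_mul' := by
        intro a b
        rw [ofMul_mul, AddChar.map_add_eq_mul, map_mul] }
  let lin : ↥(Subgroup.zpowers v) × C →* ℂˣ := (MonoidHom.toHomUnits f).comp (MonoidHom.snd _ _)
  have hχ₁ := Cfsg.Agent.Lib.Char.Basic.isCharacter_comp_hom hχ π
  have hχ₂ := Cfsg.Agent.Lib.Char.Basic.isCharacter_of_isIrrCharacter
    (Cfsg.Agent.Lib.Char.LinearChars.isIrr_of_hom lin)
  have hχ₃ := Cfsg.Agent.Lib.Char.Basic.isCharacter_mul hχ₁ hχ₂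
  let N : Subgroup (↥(Subgroup.zpowers v) × C) := (MonoidHom.fst _ _).ker
  letI : Fintype N := Fintype.ofFinite _
  refine ⟨_, Cfsg.Agent.Lib.Char.GaloisC.isCharacter_avg hχ₃ N, fun k => ?_⟩
  -- reindex
  have hN : ∀ n : N, (n : ↥(Subgroup.zpowers v) × C).1 = 1 := fun n => n.2
  let e : N ≃ Additive C :=
    { toFun := fun n => Additive.ofMul (n : ↥(Subgroup.zpowers v) × C).2
      invFun := fun x => ⟨(1, Additive.toMul x), rfl⟩
      left_inv := by
        rintro ⟨⟨a, b⟩, hab⟩
        have ha : a = 1 := hab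
        subst ha
        rfl
      right_inv := fun x => rfl }
  have hcard : Nat.card N = Fintype.card (Additive C) := by
    rw [Nat.card_congr e, Fintype.card_eq_nat_card]
  have hpow : ∀ k : ℕ, ((⟨v, Subgroup.mem_zpowers v⟩, 1) ^ k : ↥(Subgroup.zpowers v) × C) =
      (⟨v, Subgroup.mem_zpowers v⟩ ^ k, 1) := by
    intro k
    rw [Prod.pow_mk, one_pow]
  simp only [hcard]
  congr 1
  refine Fintype.sum_equiv e _ _ fun n => ?_
  show (fun g => χ (π g)) (n.1 * _) * ((lin (n.1 * _) : ℂˣ) : ℂ) = _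
  rw [hpow k]
  obtain ⟨⟨a, b⟩, hab⟩ := n
  have ha : a = 1 := hab
  subst ha
  simp only [Prod.mk_mul_mk, one_mul, mul_one]
  show χ (π (_, b)) * ((lin (_, b) : ℂˣ) : ℂ) = conj (ψ (Additive.ofMul b)) * χ (v ^ k * φ b)
  have h1 : π (⟨v, Subgroup.mem_zpowers v⟩ ^ k, b) = v ^ k * φ b := by
    simp [π, MonoidHom.noncommCoprod_apply]
  rw [h1, mul_comm]
  rfl

/-- **Knörr**: an abelian stabilizer in a faithful coprime linear group gives `k(X) ≤ |V|`. -/
theorem class_number_le {p : ℕ} [hp : Fact p.Prime] (V : Subgroup X) [hVn : V.Normal]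
    (hVp : IsPGroup p V) (hidx : ¬ p ∣ V.index) (hab : ∀ a ∈ V, ∀ b ∈ V, a * b = b * a)
    (G : Subgroup X) (hGV : Subgroup.IsComplement' V G) {v : X} (hv : v ∈ V)
    (hD : ∀ a ∈ G ⊓ Subgroup.centralizer ({v} : Set X), ∀ b ∈ G ⊓ Subgroup.centralizer ({v} : Set X),
      a * b = b * a)
    (hfaith : ∀ c ∈ G ⊓ Subgroup.centralizer ({v} : Set X), (∀ u ∈ V, c * u * c⁻¹ = u) → c = 1) :
    Nat.card (ConjClasses X) ≤ Nat.card V := by
  classical
  letI := Fintype.ofFinite X
  letI : Fintype (IrrCharacter X) := Fintype.ofFinite _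
  set D := G ⊓ Subgroup.centralizer ({v} : Set X) with hDdef
  letI instD : CommGroup ↥D :=
    { (inferInstance : Group ↥D) with mul_comm := fun a b => Subtype.ext (hD a a.2 b b.2) }
  let φ : ↥D →* X := D.subtype
  have hφ : ∀ c : ↥D, φ c = c.1 := fun _ => rfl
  -- coprimality
  have hidxG : V.index = Nat.card G := hGV.symm.index_eq_card
  have hcopVG : (Nat.card V).Coprime (Nat.card G) := by
    obtain ⟨k, hk⟩ := IsPGroup.iff_card.mp hVp
    rw [hk]
    apply Nat.Coprime.pow_left
    rw [Nat.Prime.coprime_iff_not_dvd hp.out, ← hidxG]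
    exact hidx
  have hcopVD : (Nat.card V).Coprime (Nat.card ↥D) :=
    hcopVG.coprime_dvd_right (Subgroup.card_dvd_of_le inf_le_left)
  have hinv : IsInv φ V := fun c u hu => hVn.conj_mem u hu c
  have hker : kerOn φ V = ⊥ := by
    rw [eq_bot_iff]
    intro c hc
    rw [Subgroup.mem_bot]
    exact Subtype.ext (hfaith c.1 c.2 hc)
  letI : Fintype (Additive ↥D) := Fintype.ofFinite _
  -- the Galois index set
  haveI : NeZero (Nat.card (↥(Subgroup.zpowers v) × ↥D)) := ⟨Nat.card_pos.ne'⟩
  set n := Nat.card (↥(Subgroup.zpowers v) × ↥D) with hn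
  let ι := (ZMod n)ˣ
  have hgood := good_wt (φ := φ) ι (V := V) hcopVD hab hinv hker
  let A : (X → ℂ) → Additive ↥D → ι → ℂ := fun χ x u =>
    χ (v ^ (u : ZMod n).val * φ (Additive.toMul x))
  have hvφ : ∀ c : ↥D, Commute v (φ c) := by
    intro c
    have := Subgroup.mem_centralizer_singleton_iff.mp c.2.2
    exact this.symm
  set B : ℝ := (Fintype.card ι : ℝ) with hBdef
  have hB : 0 < B := by
    rw [hBdef]
    exact_mod_cast Fintype.card_pos
  set d : ℝ := (Fintype.card (Additive ↥D) : ℝ) with hd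
  have hd0 : 0 < d := by
    rw [hd]
    exact_mod_cast Fintype.card_pos
  -- the lower bound for each character
  have hlow : ∀ τ : IrrCharacter X, B * d ^ 2 ≤
      ∑ x, (wt φ V (Additive.toMul x) : ℝ) * nsq (A τ x) := by
    intro τ
    refine hgood B hB (A τ) (fun ψ => ?_) ?_
    · obtain ⟨χ₄, hχ₄, hval⟩ := exists_avg_char (C := ↥D) φ hvφ
        (Cfsg.Agent.Lib.Char.Basic.isCharacter_of_isIrrCharacter τ.2) ψ
      have hcoef : coef (A τ) ψ = fun u : ι =>
          χ₄ ((⟨v, Subgroup.mem_zpowers v⟩, 1) ^ (u : ZMod n).val) := by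
        funext u
        rw [hval]
        rfl
      rw [hcoef]
      exact galois_dichotomy hχ₄ _
    · intro h0
      have h1 := congrFun (congrFun h0 0) 1
      have h2 : (τ : X → ℂ) (v ^ ((1 : ι) : ZMod n).val * φ (Additive.toMul (0 : Additive ↥D))) = 0 :=
        h1
      have h3 : v ^ ((1 : ι) : ZMod n).val * φ (Additive.toMul (0 : Additive ↥D)) ∈ V := by
        have e : φ (Additive.toMul (0 : Additive ↥D)) = 1 := map_one φ
        rw [e, mul_one]
        exact V.pow_mem hv _
      exact Cfsg.Agent.Lib.Coprime.KGV.character_ne_zero hp.out V hab hVp hidx τ.2 h3 h2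
  -- the total
  have hcolumn : ∀ (u : ι) (c : ↥D), ∑ τ : IrrCharacter X, ‖(τ : X → ℂ) (v ^ (u : ZMod n).val * φ c)‖ ^ 2 =
      (Nat.card ↥(V ⊓ Subgroup.centralizer ({φ c} : Set X)) * Nat.card ↥D : ℕ) := by
    intro u c
    rw [Cfsg.Agent.Lib.Coprime.KGV.sum_norm_sq]
    have hcoprime : ((u : ZMod n).val).Coprime (orderOf v) := by
      have h1 : orderOf v ∣ n := by
        rw [hn, Nat.card_prod, Nat.card_zpowers]
        exact Dvd.intro _ rfl
      exact (ZMod.val_coe_unit_coprime u).coprime_dvd_right h1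
    have h1 : Commute (v ^ (u : ZMod n).val) (φ c) := (hvφ c).pow_left _
    have h2 : (orderOf (v ^ (u : ZMod n).val)).Coprime (orderOf (φ c)) := by
      have h3 : orderOf (v ^ (u : ZMod n).val) ∣ Nat.card V :=
        Subgroup.orderOf_dvd_natCard V (V.pow_mem hv _)
      have h4 : orderOf (φ c) ∣ Nat.card ↥D := Subgroup.orderOf_dvd_natCard D c.2
      exact (hcopVD.coprime_dvd_left h3).coprime_dvd_right h4
    rw [centralizer_mul_of_coprime h1 h2]
    have h5 : Subgroup.centralizer ({v ^ (u : ZMod n).val} : Set X) =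
        Subgroup.centralizer ({v} : Set X) := by
      ext x
      simp only [Subgroup.mem_centralizer_singleton_iff]
      constructor
      · intro hx
        obtain ⟨m, hm⟩ := exists_pow_eq_self_of_coprime hcoprime
        have h6 : Commute x (v ^ (u : ZMod n).val) := hx
        have h7 := h6.pow_right m
        rw [hm] at h7
        exact h7
      · intro hx
        have h6 : Commute x v := hx
        exact (h6.pow_right _).eq
    rw [h5]
    exact_mod_cast card_centralizer_inf V hab G hGV hv hD c.2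
  have htotal : ∑ τ : IrrCharacter X, ∑ x, (wt φ V (Additive.toMul x) : ℝ) * nsq (A τ x) =
      d * (B * ((Nat.card V : ℝ) * d)) := by
    rw [Finset.sum_comm]
    have hx : ∀ x : Additive ↥D, ∑ τ : IrrCharacter X,
        (wt φ V (Additive.toMul x) : ℝ) * nsq (A τ x) = B * ((Nat.card V : ℝ) * d) := by
      intro x
      rw [← Finset.mul_sum]
      have h1 : ∑ τ : IrrCharacter X, nsq (A τ x) =
          B * (Nat.card ↥(V ⊓ Subgroup.centralizer ({φ (Additive.toMul x)} : Set X)) *
            Nat.card ↥D : ℕ) := by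
        simp only [nsq]
        rw [Finset.sum_comm]
        have : ∀ u : ι, ∑ τ : IrrCharacter X, ‖A τ x u‖ ^ 2 =
            (Nat.card ↥(V ⊓ Subgroup.centralizer ({φ (Additive.toMul x)} : Set X)) *
              Nat.card ↥D : ℕ) := fun u => hcolumn u _
        rw [Finset.sum_congr rfl fun u _ => this u, Finset.sum_const, nsmul_eq_mul]
        rfl
      rw [h1]
      have h2 := relIndex_mul_card (Subgroup.centralizer ({φ (Additive.toMul x)} : Set X)) V
      have h3 : (wt φ V (Additive.toMul x) : ℝ) *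
          (Nat.card ↥(V ⊓ Subgroup.centralizer ({φ (Additive.toMul x)} : Set X)) : ℝ) =
          (Nat.card V : ℝ) := by exact_mod_cast h2
      have h4 : (Nat.card ↥D : ℝ) = d := by
        rw [hd, Fintype.card_eq_nat_card, Nat.card_congr Additive.toMul]
      push_cast
      rw [h4]
      calc _ = B * ((wt φ V (Additive.toMul x) : ℝ) *
          (Nat.card ↥(V ⊓ Subgroup.centralizer ({φ (Additive.toMul x)} : Set X)) : ℝ)) * d := by ring
        _ = _ := by rw [h3]; ring
    rw [Finset.sum_congr rfl fun x _ => hx x, Finset.sum_const, nsmul_eq_mul, Finset.card_univ]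
  have hsum : (Fintype.card (IrrCharacter X) : ℝ) * (B * d ^ 2) ≤ d * (B * ((Nat.card V : ℝ) * d)) := by
    rw [← htotal, ← nsmul_eq_mul, ← Finset.card_univ, ← Finset.sum_const]
    exact Finset.sum_le_sum fun τ _ => hlow τ
  have hfin : (Fintype.card (IrrCharacter X) : ℝ) ≤ (Nat.card V : ℝ) := by
    have hpos : 0 < B * d ^ 2 := by positivity
    have : (Fintype.card (IrrCharacter X) : ℝ) * (B * d ^ 2) ≤ (Nat.card V : ℝ) * (B * d ^ 2) := by
      calc _ ≤ d * (B * ((Nat.card V : ℝ) * d)) := hsum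
        _ = _ := by ring
    exact le_of_mul_le_mul_right this hpos
  have hcard : Nat.card (ConjClasses X) = Fintype.card (IrrCharacter X) := by
    rw [← Cfsg.Agent.Lib.Char.CompleteCor.card_irr_eq_card_conjClasses, Nat.card_eq_fintype_card]
  rw [hcard]
  exact_mod_cast hfin

end Cfsg.Agent.Lib.Coprime.KnorrAbelian
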