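/-
The Baer correspondence for groups of exponent `p` and class at most two (`p` odd), and its
application: Thompson's strengthening of the `P × Q`-lemma for odd primes.
-/
import Mathlib
import Cfsg.Agent.Lib.PGroup.Critical
import Cfsg.Agent.Lib.PGroup.Basic
import Cfsg.Agent.Lib.PGroup.Extraspecial
import Cfsg.Agent.S0121

set_option autoImplicit false
set_option linter.style.longLine false
set_option linter.unusedSectionVars false

namespace Cfsg.Agent.Lib.Coprime.BaerClassTwo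

open Subgroup
open scoped commutatorElement

section Abelian

variable {V : Type*} [AddCommGroup V] [Finite V] {p : ℕ} [hp : Fact p.Prime]
variable {I J : Type*} [Group I] [Group J] [Finite I] [Finite J]

/-- The abelian case of the `P.Q`-lemma, with actions given by permutations which are additive. -/
theorem abelian_case (hV : ∃ k, Nat.card V = p ^ k) (hI : IsPGroup p I)
    (hJ : (Nat.card J).Coprime p) (ρ : I →* Equiv.Perm V) (τ : J →* Equiv.Perm V)
    (hρ : ∀ i x y, ρ i (x + y) = ρ i x + ρ i y) (hτ : ∀ j x y, τ j (x + y) = τ j x + τ j y)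
    (c : I → J ≃ J) (hc : ∀ i j x, τ j (ρ i x) = ρ i (τ (c i j) x))
    (hC : ∀ x, (∀ i, ρ i x = x) → ∀ j, τ j x = x) : ∀ j x, τ j x = x := by
  classical
  haveI := Fintype.ofFinite J
  let τA : J → (V →+ V) := fun j => AddMonoidHom.mk' (τ j) (hτ j)
  let ρA : I → (V →+ V) := fun i => AddMonoidHom.mk' (ρ i) (hρ i)
  have hτA : ∀ j x, τA j x = τ j x := fun _ _ => rfl
  have hρA : ∀ i x, ρA i x = ρ i x := fun _ _ => rfl
  let N : V →+ V := ∑ j, τA j
  have hN : ∀ x, N x = ∑ j, τ j x := by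
    intro x
    simp only [N, AddMonoidHom.finsetSum_apply]
    rfl
  have hNτ : ∀ j x, N (τ j x) = N x := by
    intro j x
    rw [hN, hN]
    refine Fintype.sum_equiv (Equiv.mulRight j) _ _ ?_
    intro j'
    simp [map_mul, Equiv.Perm.mul_apply]
  have hNρ : ∀ i x, N (ρ i x) = ρ i (N x) := by
    intro i x
    have e1 : ρ i (N x) = ρA i (N x) := rfl
    rw [e1, hN, hN, map_sum]
    simp only [hρA, hc]
    exact Fintype.sum_equiv (c i) _ _ (fun j => rfl)
  have hpk : ∀ w : V, ∃ k, addOrderOf w = p ^ k := by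
    intro w
    obtain ⟨k, hk⟩ := hV
    have h1 : addOrderOf w ∣ p ^ k := hk ▸ addOrderOf_dvd_natCard w
    obtain ⟨m, -, hm⟩ := (Nat.dvd_prime_pow hp.out).mp h1
    exact ⟨m, hm⟩
  by_contra hcon
  push Not at hcon
  obtain ⟨j₀, x₀, hne⟩ := hcon
  let W : AddSubgroup V := N.ker
  have hWmem : ∀ x, x ∈ W ↔ N x = 0 := fun x => AddMonoidHom.mem_ker
  have hW1 : τ j₀ x₀ - x₀ ∈ W := by
    rw [hWmem, map_sub, hNτ, sub_self]
  have hW2 : τ j₀ x₀ - x₀ ≠ 0 := sub_ne_zero.mpr hne
  let act : MulAction I W :=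
    { smul := fun i w => ⟨ρ i w, by
        rw [hWmem, hNρ, (hWmem _).mp w.2]
        have h0 : ρ i 0 = 0 := by
          have := hρ i 0 0
          simpa using this
        exact h0⟩
      one_smul := fun w => Subtype.ext (by
        show ρ 1 (w : V) = w
        simp)
      mul_smul := fun i i' w => Subtype.ext (by
        show ρ (i * i') (w : V) = ρ i (ρ i' w)
        simp [map_mul, Equiv.Perm.mul_apply]) }
  have hmod : Nat.card W ≡ Nat.card (@MulAction.fixedPoints I W _ act) [MOD p] :=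
    @IsPGroup.card_modEq_card_fixedPoints p I _ hI hp W act _
  have hWdvd : p ∣ Nat.card W := by
    obtain ⟨k, hk⟩ := hV
    have h1 : Nat.card W ∣ p ^ k := hk ▸ AddSubgroup.card_addSubgroup_dvd_card W
    obtain ⟨m, -, hm⟩ := (Nat.dvd_prime_pow hp.out).mp h1
    rw [hm]
    cases m with
    | zero =>
      exfalso
      have h2 : Nat.card W = 1 := by simpa using hm
      have h3 : W = ⊥ := AddSubgroup.eq_bot_of_card_eq _ h2
      rw [h3] at hW1
      exact hW2 (AddSubgroup.mem_bot.mp hW1)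
    | succ m => exact dvd_pow_self p (Nat.succ_ne_zero m)
  have hfixdvd : p ∣ Nat.card (@MulAction.fixedPoints I W _ act) :=
    (hmod.dvd_iff (dvd_refl p)).mp hWdvd
  have hzero : (0 : W) ∈ @MulAction.fixedPoints I W _ act := by
    intro i
    apply Subtype.ext
    show ρ i 0 = 0
    have := hρ i 0 0
    simpa using this
  have hgt : 1 < Nat.card (@MulAction.fixedPoints I W _ act) := by
    have hpos : 0 < Nat.card (@MulAction.fixedPoints I W _ act) := by
      haveI : Nonempty (@MulAction.fixedPoints I W _ act) := ⟨⟨0, hzero⟩⟩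
      exact Nat.card_pos
    have := Nat.le_of_dvd hpos hfixdvd
    have := hp.out.two_le
    omega
  haveI := Finite.one_lt_card_iff_nontrivial.mp hgt
  obtain ⟨w, hw⟩ := exists_ne (⟨0, hzero⟩ : @MulAction.fixedPoints I W _ act)
  have hw0 : ((w : W) : V) ≠ 0 := fun h => hw (Subtype.ext (Subtype.ext h))
  have hwfix : ∀ i, ρ i ((w : W) : V) = ((w : W) : V) := by
    intro i
    have := w.2 i
    exact congrArg Subtype.val this
  have hwτ := hC _ hwfix
  have hNw : N ((w : W) : V) = Nat.card J • ((w : W) : V) := by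
    rw [hN]
    simp only [hwτ]
    rw [Finset.sum_const, Finset.card_univ, Nat.card_eq_fintype_card]
  have h0 : Nat.card J • ((w : W) : V) = 0 := by
    rw [← hNw]
    exact (hWmem _).mp (w : W).2
  obtain ⟨k, hk⟩ := hpk ((w : W) : V)
  have hdvd := addOrderOf_dvd_of_nsmul_eq_zero h0
  rw [hk] at hdvd
  have hcop : Nat.Coprime (Nat.card J) (p ^ k) := Nat.Coprime.pow_right k hJ
  have h1 : p ^ k = 1 := hcop.symm.eq_one_of_dvd hdvd
  rw [h1] at hk
  exact hw0 (AddMonoid.addOrderOf_eq_one_iff.mp hk)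

end Abelian

section Baer

variable {Ω : Type*} [Group Ω]

/-- The Baer addition. -/
def baerAdd (p : ℕ) (x y : Ω) : Ω := x * y * ⁅y, x⁆ ^ ((p + 1) / 2)

theorem baerAdd_comm {p : ℕ} [hp : Fact p.Prime] (h2 : p ≠ 2) (hexp : ∀ x : Ω, x ^ p = 1)
    (hc : ∀ x y : Ω, ⁅x, y⁆ ∈ center Ω) (x y : Ω) : baerAdd p x y = baerAdd p y x := by
  unfold baerAdd
  set h := (p + 1) / 2 with hh
  have hp2 : h + h = p + 1 := by
    have hodd : Odd p := hp.out.odd_of_ne_two h2
    obtain ⟨r, hr⟩ := hodd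
    rw [hh, hr]
    omega
  set c := ⁅y, x⁆ with hcdef
  have hcc : c ∈ center Ω := hc y x
  have e1 : ⁅x, y⁆ = c⁻¹ := (commutatorElement_inv y x).symm
  have e2 : y * x = x * y * c := by
    have hmem := mem_center_iff.mp hcc (x * y)
    rw [hmem, hcdef, commutatorElement_def]
    group
  rw [e1, e2, mul_assoc (x * y) c, inv_pow]
  congr 1
  have e3 : c ^ h * c ^ h = c := by
    rw [← pow_add, hp2, pow_succ, hexp, one_mul]
  rw [eq_mul_inv_iff_mul_eq]
  exact e3

theorem baerAdd_assoc {p : ℕ} (hc : ∀ x y : Ω, ⁅x, y⁆ ∈ center Ω) (x y z : Ω) :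
    baerAdd p (baerAdd p x y) z = baerAdd p x (baerAdd p y z) := by
  unfold baerAdd
  set h := (p + 1) / 2
  have hcen : ∀ u v : Ω, ∀ g : Ω, g * ⁅u, v⁆ ^ h = ⁅u, v⁆ ^ h * g := by
    intro u v g
    exact mem_center_iff.mp (Subgroup.pow_mem _ (hc u v) h) g
  have hcc : ∀ u v u' v' : Ω, Commute (⁅u, v⁆) (⁅u', v'⁆) := fun u v u' v' =>
    mem_center_iff.mp (hc u v) _ |>.symm
  have hcomm1 : ∀ (a u v : Ω), ⁅a, ⁅u, v⁆ ^ h⁆ = 1 := by
    intro a u v
    rw [commutatorElement_eq_one_iff_mul_comm]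
    exact hcen u v a
  have hcomm2 : ∀ (a u v : Ω), ⁅⁅u, v⁆ ^ h, a⁆ = 1 := by
    intro a u v
    rw [commutatorElement_eq_one_iff_mul_comm]
    exact (hcen u v a).symm
  have e1 : ⁅z, x * y * ⁅y, x⁆ ^ h⁆ = ⁅z, x⁆ * ⁅z, y⁆ := by
    rw [Cfsg.Agent.Lib.PGroup.Extraspecial.comm_mul_right hc, Cfsg.Agent.Lib.PGroup.Extraspecial.comm_mul_right hc,
      hcomm1, mul_one]
  have e2 : ⁅y * z * ⁅z, y⁆ ^ h, x⁆ = ⁅y, x⁆ * ⁅z, x⁆ := by
    rw [Cfsg.Agent.Lib.PGroup.Extraspecial.comm_mul_left hc, Cfsg.Agent.Lib.PGroup.Extraspecial.comm_mul_left hc,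
      hcomm2, mul_one]
  rw [e1, e2, (hcc z x z y).mul_pow, (hcc y x z x).mul_pow]
  set A := ⁅y, x⁆ ^ h
  set B := ⁅z, x⁆ ^ h
  set C := ⁅z, y⁆ ^ h
  have hA : ∀ g, g * A = A * g := fun g => hcen y x g
  have hB : ∀ g, g * B = B * g := fun g => hcen z x g
  have hC : ∀ g, g * C = C * g := fun g => hcen z y g
  calc x * y * A * z * (B * C) = x * y * (A * z) * (B * C) := by group
    _ = x * y * (z * A) * (B * C) := by rw [hA z]
    _ = x * (y * z) * (A * B * C) := by group
    _ = x * (y * z) * (C * (A * B)) := by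
      rw [hC (A * B)]
    _ = _ := by group

/-- The additive group structure attached to a group of exponent `p` and class at most two. -/
@[reducible] def baerGroup (p : ℕ) [hp : Fact p.Prime] (h2 : p ≠ 2) (hexp : ∀ x : Ω, x ^ p = 1)
    (hc : ∀ x y : Ω, ⁅x, y⁆ ∈ center Ω) : AddCommGroup Ω :=
  letI iAdd : Add Ω := ⟨baerAdd p⟩
  letI iZero : Zero Ω := ⟨1⟩
  letI iNeg : Neg Ω := ⟨fun x => x⁻¹⟩
  { add_assoc := baerAdd_assoc hc
    zero_add := fun x => by
      show baerAdd p 1 x = x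
      simp [baerAdd]
    add_zero := fun x => by
      show baerAdd p x 1 = x
      simp [baerAdd]
    nsmul := nsmulRec
    zsmul := zsmulRec
    neg_add_cancel := fun x => by
      show baerAdd p x⁻¹ x = 1
      have h0 : ⁅x, x⁻¹⁆ = 1 := by
        rw [commutatorElement_eq_one_iff_mul_comm]
        exact (Commute.refl x).inv_right
      simp [baerAdd, h0]
    add_comm := baerAdd_comm h2 hexp hc }

variable {I J : Type*} [Group I] [Group J] [Finite I] [Finite J]

/-- The case of exponent `p` and class at most two. -/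
theorem class_two_case [Finite Ω] {p : ℕ} [hp : Fact p.Prime] (h2 : p ≠ 2) (hΩ : IsPGroup p Ω)
    (hexp : ∀ x : Ω, x ^ p = 1) (hcn : ∀ x y : Ω, ⁅x, y⁆ ∈ center Ω) (hI : IsPGroup p I)
    (hJ : (Nat.card J).Coprime p) (ρ : I →* MulAut Ω) (τ : J →* MulAut Ω)
    (c : I → J ≃ J) (hc : ∀ i j x, τ j (ρ i x) = ρ i (τ (c i j) x))
    (hC : ∀ x, (∀ i, ρ i x = x) → ∀ j, τ j x = x) : ∀ j x, τ j x = x := by
  letI := baerGroup (Ω := Ω) p h2 hexp hcn
  have hadd : ∀ (φ : MulAut Ω) (x y : Ω), φ (x + y) = φ x + φ y := by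
    intro φ x y
    show φ (baerAdd p x y) = baerAdd p (φ x) (φ y)
    simp [baerAdd, map_mul, map_pow, map_commutatorElement]
  exact abelian_case (IsPGroup.iff_card.mp hΩ) hI hJ ((MulAut.toPerm Ω).comp ρ) ((MulAut.toPerm Ω).comp τ)
    (fun i x y => hadd (ρ i) x y) (fun j x y => hadd (τ j) x y) c hc hC

/-- Restriction of automorphisms to a subgroup invariant under all automorphisms. -/
def resHom {G : Type*} [Group G] (K : Subgroup G) (hK : ∀ (φ : MulAut G), ∀ x ∈ K, φ x ∈ K) :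
    MulAut G →* MulAut K where
  toFun φ :=
    { toFun := fun x => ⟨φ x, hK φ x x.2⟩
      invFun := fun x => ⟨φ⁻¹ x, hK φ⁻¹ x x.2⟩
      left_inv := fun x => Subtype.ext (by
        show φ⁻¹ (φ (x : G)) = x
        simp)
      right_inv := fun x => Subtype.ext (by
        show φ (φ⁻¹ (x : G)) = x
        simp)
      map_mul' := fun x y => Subtype.ext (by
        show φ ((x : G) * y) = φ x * φ y
        simp) }
  map_one' := by
    ext x
    rfl
  map_mul' := by
    intro φ ψ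
    ext x
    rfl

/-- The `P.Q`-lemma for abstract actions. -/
theorem pq_lemma {G : Type*} [Group G] [Finite G] {p : ℕ} [hp : Fact p.Prime] (h2 : p ≠ 2)
    (hG : IsPGroup p G) (hI : IsPGroup p I) (hJ : (Nat.card J).Coprime p)
    (ρ : I →* MulAut G) (τ : J →* MulAut G) (c : I → J ≃ J)
    (hc : ∀ i j x, τ j (ρ i x) = ρ i (τ (c i j) x))
    (hC : ∀ x, (∀ i, ρ i x = x) → ∀ j, τ j x = x) : ∀ j, τ j = 1 := by
  classical
  obtain ⟨H, hchar, h1, h2', h3⟩ := Cfsg.Agent.Lib.PGroup.Critical.exists_critical hG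
  have hmapH : ∀ (φ : MulAut G), ∀ x ∈ H, φ x ∈ H := fun φ x hx =>
    (characteristic_iff_map_le.mp hchar φ) ⟨x, hx, rfl⟩
  have hn : p ∣ p.choose 2 := Cfsg.Agent.Lib.PGroup.Critical.prime_dvd_choose_two h2
  have hmul : ∀ x ∈ H, ∀ y ∈ H, (x * y) ^ p = x ^ p * y ^ p := fun x hx y hy =>
    Cfsg.Agent.Lib.PGroup.Critical.critical_mul_pow hG h1 h2' hn hx hy
  let K : Subgroup G :=
    { carrier := {x | x ∈ H ∧ x ^ p = 1}
      one_mem' := ⟨H.one_mem, one_pow p⟩
      mul_mem' := by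
        rintro a b ⟨ha, ha'⟩ ⟨hb, hb'⟩
        exact ⟨H.mul_mem ha hb, by rw [hmul a ha b hb, ha', hb', one_mul]⟩
      inv_mem' := by
        rintro a ⟨ha, ha'⟩
        exact ⟨H.inv_mem ha, by rw [inv_pow, ha', inv_one]⟩ }
  have hK : ∀ (φ : MulAut G), ∀ x ∈ K, φ x ∈ K := by
    rintro φ x ⟨hx, hx'⟩
    exact ⟨hmapH φ x hx, by rw [← map_pow, hx', map_one]⟩
  have hcK : ∀ x y : K, ⁅x, y⁆ ∈ center K := by
    intro x y
    have hcm := h2' (commutator_mem_commutator x.2.1 (mem_top (y : G)))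
    rw [mem_center_iff]
    intro g
    apply Subtype.ext
    exact (mem_centralizer_iff.mp hcm.2 g g.2.1)
  have hKexp : ∀ x : K, x ^ p = 1 := fun x => Subtype.ext x.2.2
  have hcomm := class_two_case (Ω := K) h2 (hG.to_subgroup K) hKexp hcK hI hJ
    ((resHom K hK).comp ρ) ((resHom K hK).comp τ) c
    (fun i j x => Subtype.ext (hc i j x))
    (fun x hx j => Subtype.ext (hC x (fun i => congrArg Subtype.val (hx i)) j))
  intro j
  have hord : Nat.Coprime (orderOf (τ j)) p :=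
    Nat.Coprime.coprime_dvd_left ((orderOf_map_dvd τ j).trans (orderOf_dvd_natCard j)) hJ
  have hfixH := Cfsg.Agent.Lib.PGroup.Critical.fixes_of_fixes_kernel hG H (τ j) hord (hmapH _)
    (dvd_refl p) hmul (fun x hx hxp => by
      have := hcomm j ⟨x, hx, hxp⟩
      exact congrArg Subtype.val this)
  exact Cfsg.Agent.S0121.result hG H hchar h1 h2' h3 (τ j) hord hfixH

end Baer

end Cfsg.Agent.Lib.Coprime.BaerClassTwo
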