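/-
A `3`-element acting fixed point freely on a `2`-group all of whose elementary abelian subgroups have
order at most `4` has order `3`. The proof: critical subgroups + Chevalley-Warning.
-/
import Mathlib
import Cfsg.Agent.Lib.PGroup.Critical
import Cfsg.Agent.Lib.PGroup.Extraspecial
import Cfsg.Agent.Lib.PGroup.QuadCW
import Cfsg.Agent.Lib.PGroup.Basic
import Cfsg.Agent.S0121

set_option autoImplicit false
set_option linter.style.longLine false
set_option linter.unusedSectionVars false

namespace Cfsg.Agent.Lib.Coprime.Order9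

open Subgroup Cfsg.Agent.Lib.PGroup.Extraspecial Cfsg.Agent.Lib.PGroup.QuadCW
open scoped commutatorElement

section Core

variable {W : Type*} [Group W] [Finite W]

/-- The squaring map modulo a central subgroup has a nontrivial zero. -/
theorem exists_sq_core {L : Type*} [CommGroup L] [Finite L]
    (A : Subgroup W) (hAc : A ≤ center W)
    (hsq : ∀ x : W, x ^ 2 ∈ A) (hcm : ∀ x y : W, ⁅x, y⁆ ∈ A)
    (hL : ∀ y : L, y ^ 2 = 1) (π : A →* L) (hπ : ∀ a : A, π (a ^ 2) = 1)
    (hcard : Nat.card L ^ 2 * Nat.card A < Nat.card W) :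
    ∃ x : W, x ∉ A ∧ π ⟨x ^ 2, hsq x⟩ = 1 := by
  classical
  have hc : ∀ x y : W, ⁅x, y⁆ ∈ center W := fun x y => hAc (hcm x y)
  haveI hAn : A.Normal := ⟨fun n hn g => by
    have : g * n * g⁻¹ = n := by
      rw [mem_center_iff.mp (hAc hn) g]
      group
    rw [this]
    exact hn⟩
  have hcomm : ∀ u v : W ⧸ A, u * v = v * u := by
    intro u v
    induction u using QuotientGroup.induction_on with
    | H x =>
      induction v using QuotientGroup.induction_on with
      | H y =>
        rw [← QuotientGroup.mk_mul, ← QuotientGroup.mk_mul, QuotientGroup.eq]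
        have : (x * y)⁻¹ * (y * x) = ⁅y⁻¹, x⁻¹⁆ := by
          simp [commutatorElement_def, mul_assoc]
        rw [this]
        exact hcm _ _
  letI cY : CommGroup (W ⧸ A) := { (inferInstance : Group (W ⧸ A)) with mul_comm := hcomm }
  let s : W ⧸ A → W := Quotient.out
  have hs : ∀ y : W ⧸ A, ((s y : W) : W ⧸ A) = y := fun y => QuotientGroup.out_eq' y
  have hcen : ∀ a ∈ A, ∀ x : W, a * x = x * a := fun a ha x =>
    (mem_center_iff.mp (hAc ha) x).symm
  have hprod : ∀ u v : W ⧸ A, ∃ a ∈ A, s (u * v) = s u * s v * a := by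
    intro u v
    refine ⟨(s u * s v)⁻¹ * s (u * v), ?_, by group⟩
    rw [← QuotientGroup.eq, hs, QuotientGroup.mk_mul, hs, hs]
  let sqq : W → A := fun x => ⟨x ^ 2, hsq x⟩
  let cm : W → W → A := fun x y => ⟨⁅x, y⁆, hcm x y⟩
  let q : W ⧸ A → L := fun y => π (sqq (s y))
  let B : W ⧸ A → W ⧸ A → L := fun u v => π (cm (s v) (s u))
  have hcommA : ∀ a ∈ A, ∀ x : W, ⁅a, x⁆ = 1 := by
    intro a ha x
    rw [commutatorElement_eq_one_iff_mul_comm]
    exact hcen a ha x
  have hcommA' : ∀ a ∈ A, ∀ x : W, ⁅x, a⁆ = 1 := by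
    intro a ha x
    rw [commutatorElement_eq_one_iff_mul_comm]
    exact (hcen a ha x).symm
  have hq : ∀ u v, q (u * v) = q u * q v * B u v := by
    intro u v
    obtain ⟨a, ha, hsuv⟩ := hprod u v
    have h1 : sqq (s (u * v)) = sqq (s u) * sqq (s v) * cm (s v) (s u) * (⟨a, ha⟩ : A) ^ 2 := by
      apply Subtype.ext
      show (s (u * v)) ^ 2 = (s u) ^ 2 * (s v) ^ 2 * ⁅s v, s u⁆ * a ^ 2
      rw [hsuv]
      have h2 : (s u * s v * a) ^ 2 = (s u * s v) ^ 2 * a ^ 2 := by
        rw [pow_two, pow_two, pow_two]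
        have := hcen a ha (s u * s v)
        calc s u * s v * a * (s u * s v * a) = s u * s v * (a * (s u * s v)) * a := by group
          _ = s u * s v * ((s u * s v) * a) * a := by rw [this]
          _ = _ := by group
      rw [h2, mul_pow_class_two hc]
      simp
    show π _ = π _ * π _ * π _
    rw [h1, map_mul, map_mul, map_mul, hπ, mul_one]
  have hB₁ : ∀ u v w, B (u * v) w = B u w * B v w := by
    intro u v w
    obtain ⟨a, ha, hsuv⟩ := hprod u v
    have h1 : cm (s w) (s (u * v)) = cm (s w) (s u) * cm (s w) (s v) := by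
      apply Subtype.ext
      show ⁅s w, s (u * v)⁆ = ⁅s w, s u⁆ * ⁅s w, s v⁆
      rw [hsuv, comm_mul_right hc, comm_mul_right hc, hcommA' a ha, mul_one]
    show π _ = π _ * π _
    rw [h1, map_mul]
  have hB₂ : ∀ u v w, B u (v * w) = B u v * B u w := by
    intro u v w
    obtain ⟨a, ha, hsvw⟩ := hprod v w
    have h1 : cm (s (v * w)) (s u) = cm (s v) (s u) * cm (s w) (s u) := by
      apply Subtype.ext
      show ⁅s (v * w), s u⁆ = ⁅s v, s u⁆ * ⁅s w, s u⁆
      rw [hsvw, comm_mul_left hc, comm_mul_left hc, hcommA a ha, mul_one]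
    show π _ = π _ * π _
    rw [h1, map_mul]
  have hY : ∀ y : W ⧸ A, y ^ 2 = 1 := by
    intro y
    induction y using QuotientGroup.induction_on with
    | H x =>
      rw [← QuotientGroup.mk_pow, QuotientGroup.eq_one_iff]
      exact hsq x
  have hcY : Nat.card L ^ 2 < Nat.card (W ⧸ A) := by
    have h1 : Nat.card W = Nat.card (W ⧸ A) * Nat.card A :=
      Subgroup.card_eq_card_quotient_mul_card_subgroup A
    rw [h1] at hcard
    exact Nat.lt_of_mul_lt_mul_right hcard
  obtain ⟨y, hy, hqy⟩ := exists_ne_one_of_quadratic hY hL q B hq hB₁ hB₂ hcY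
  refine ⟨s y, ?_, hqy⟩
  intro hmem
  apply hy
  rw [← hs y, QuotientGroup.eq_one_iff]
  exact hmem

/-- If there is no nontrivial zero of the squaring map, then `W` is small. -/
theorem card_le_of_no_sq (A : Subgroup W) (hAc : A ≤ center W)
    (hsq : ∀ x : W, x ^ 2 ∈ A) (hcm : ∀ x y : W, ⁅x, y⁆ ∈ A)
    (hΩ : ∀ Y : Subgroup W, Y ≤ A → (∀ a ∈ Y, a ^ 2 = 1) → Nat.card Y ≤ 4)
    (hno : ∀ x, x ∉ A → ∀ z ∈ A, x ^ 2 ≠ z ^ 2) : Nat.card W ≤ 16 * Nat.card A := by
  classical
  by_contra hlt
  push Not at hlt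
  letI cA : CommGroup A := { (inferInstance : Group A) with
    mul_comm := fun a b => Subtype.ext (mem_center_iff.mp (hAc a.2) b.1).symm }
  let f : A →* A := powMonoidHom 2
  let S : Subgroup A := f.range
  let L : Type _ := A ⧸ S
  have hcard1 : Nat.card A = Nat.card f.ker * Nat.card f.range := by
    have h1 := Subgroup.card_eq_card_quotient_mul_card_subgroup f.ker
    have h2 : Nat.card (A ⧸ f.ker) = Nat.card f.range :=
      Nat.card_congr (QuotientGroup.quotientKerEquivRange f).toEquiv
    rw [h2] at h1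
    rw [h1]; ring
  have hcard2 : Nat.card A = Nat.card L * Nat.card S := Subgroup.card_eq_card_quotient_mul_card_subgroup S
  have hLker : Nat.card L = Nat.card f.ker := by
    have hpos : 0 < Nat.card S := Nat.card_pos
    apply Nat.eq_of_mul_eq_mul_right hpos
    rw [← hcard2]
    exact hcard1
  have hker4 : Nat.card f.ker ≤ 4 := by
    have h := hΩ (f.ker.map A.subtype) (map_subtype_le _) (by
      rintro _ ⟨x, hx, rfl⟩
      have : x ^ 2 = 1 := hx
      exact congrArg Subtype.val this)
    have e : Nat.card (f.ker.map A.subtype) = Nat.card f.ker :=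
      (Nat.card_congr (Subgroup.equivMapOfInjective _ A.subtype Subtype.coe_injective).toEquiv).symm
    rwa [e] at h
  have hL4 : Nat.card L ≤ 4 := hLker ▸ hker4
  have hcard : Nat.card L ^ 2 * Nat.card A < Nat.card W := by
    have h1 : Nat.card L ^ 2 ≤ 16 := by nlinarith
    calc Nat.card L ^ 2 * Nat.card A ≤ 16 * Nat.card A := Nat.mul_le_mul_right _ h1
      _ < Nat.card W := hlt
  obtain ⟨x, hx, hπx⟩ := exists_sq_core (L := L) A hAc hsq hcm
    (by
      intro y
      induction y using QuotientGroup.induction_on with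
      | H a =>
        rw [← QuotientGroup.mk_pow, QuotientGroup.eq_one_iff]
        exact ⟨a, rfl⟩)
    (QuotientGroup.mk' S)
    (by
      intro a
      show ((a ^ 2 : A) : L) = 1
      rw [QuotientGroup.eq_one_iff]
      exact ⟨a, rfl⟩)
    hcard
  have hmem : (⟨x ^ 2, hsq x⟩ : A) ∈ S := (QuotientGroup.eq_one_iff _).mp hπx
  obtain ⟨z, hz⟩ := hmem
  apply hno x hx z z.2
  have := congrArg Subtype.val hz
  exact this.symm

end Core

section Free

variable {T : Type*} [Group T] [Finite T]

/-- Counting: a free action of a cyclic group of order `9`. -/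
theorem nine_le_relIndex (hT : IsPGroup 2 T) (g : MulAut T) (hg9 : g ^ 9 = 1) (H F : Subgroup T)
    (hFH : F ≤ H) (hgH : ∀ x ∈ H, g x ∈ H) (hgF : ∀ x ∈ F, g x ∈ F)
    (hfix : ∀ x ∈ H, (g ^ 3) x = x → x ∈ F) (hne : F ≠ H) : 64 ≤ F.relIndex H := by
  classical
  have hgkH : ∀ k : ℕ, ∀ x ∈ H, (g ^ k) x ∈ H := by
    intro k
    induction k with
    | zero => intro x hx; simpa using hx
    | succ k ih =>
      intro x hx
      rw [pow_succ', MulAut.mul_apply]
      exact hgH _ (ih x hx)
  have hgkF : ∀ k : ℕ, ∀ x ∈ F, (g ^ k) x ∈ F := by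
    intro k
    induction k with
    | zero => intro x hx; simpa using hx
    | succ k ih =>
      intro x hx
      rw [pow_succ', MulAut.mul_apply]
      exact hgF _ (ih x hx)
  have hgkF' : ∀ k : ℕ, ∀ x, (g ^ k) x ∈ F → x ∈ F := by
    intro k x hx
    have h1 := hgkF (8 * k) _ hx
    rw [← MulAut.mul_apply, ← pow_add] at h1
    have e : 8 * k + k = 9 * k := by ring
    rw [e, pow_mul, hg9, one_pow] at h1
    simpa using h1
  obtain ⟨x₀, hx₀H, hx₀F⟩ : ∃ x ∈ H, x ∉ F := by
    by_contra hcon
    push Not at hcon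
    exact hne (le_antisymm hFH hcon)
  have hg3 : g ^ 3 ≠ 1 := by
    intro h
    apply hx₀F
    apply hfix x₀ hx₀H
    rw [h]
    rfl
  have hord : orderOf g = 9 := by
    have h9 : (9 : ℕ) = 3 ^ 2 := by norm_num
    have hfact : Fact (Nat.Prime 3) := ⟨by norm_num⟩
    have : orderOf g = 3 ^ 2 := by
      apply orderOf_eq_prime_pow
      · intro h
        apply hg3
        simpa using h
      · simpa using hg9
    simpa using this
  let Γ : Subgroup (MulAut T) := Subgroup.zpowers g
  have hΓ : ∀ h : Γ, ∃ k < 9, (h : MulAut T) = g ^ k := by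
    rintro ⟨h, hh⟩
    obtain ⟨k, hk, rfl⟩ := (mem_powers_iff_mem_zpowers.mpr hh) |> fun ⟨k, hk⟩ => (⟨k % 9, Nat.mod_lt _ (by norm_num), by
      show _ = _
      rw [← hk]
      exact pow_eq_pow_mod k hg9⟩ : ∃ k' < 9, h = g ^ k')
    exact ⟨k, hk, rfl⟩
  let D : SubMulAction Γ T :=
    { carrier := {x | x ∈ H ∧ x ∉ F}
      smul_mem' := by
        rintro h x ⟨hx1, hx2⟩
        obtain ⟨k, -, hk⟩ := hΓ h
        have e : h • x = (g ^ k) x := by
          show (h : MulAut T) x = _
          rw [hk]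
        rw [e]
        exact ⟨hgkH k x hx1, fun h' => hx2 (hgkF' k x h')⟩ }
  have hfree : ∀ b : D, MulAction.stabilizer Γ b = ⊥ := by
    intro b
    rw [eq_bot_iff]
    intro h hh
    rw [Subgroup.mem_bot]
    obtain ⟨k, hk9, hk⟩ := hΓ h
    by_contra hne1
    have hxfix : (g ^ k) (b : T) = b := by
      have h1 : h • b = b := hh
      have h2 : ((h • b : D) : T) = b := congrArg Subtype.val h1
      rw [← hk]
      exact h2
    have hk0 : k ≠ 0 := by
      intro h0
      apply hne1
      apply Subtype.ext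
      rw [hk, h0, pow_zero]
      rfl
    have hpow : ∀ m : ℕ, (g ^ (k * m)) (b : T) = b := by
      intro m
      induction m with
      | zero => simp
      | succ m ih =>
        rw [Nat.mul_succ, pow_add, MulAut.mul_apply, hxfix, ih]
    have h3 : (g ^ 3) (b : T) = b := by
      have hm : ∃ m, k * m % 9 = 3 := by
        interval_cases k
        · exact absurd rfl hk0
        · exact ⟨3, rfl⟩
        · exact ⟨6, rfl⟩
        · exact ⟨1, rfl⟩
        · exact ⟨3, rfl⟩
        · exact ⟨6, rfl⟩
        · exact ⟨2, rfl⟩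
        · exact ⟨3, rfl⟩
        · exact ⟨6, rfl⟩
      obtain ⟨m, hm⟩ := hm
      have := hpow m
      rwa [pow_eq_pow_mod (k * m) hg9, hm] at this
    exact b.2.2 (hfix _ b.2.1 h3)
  have hcardΓ : Nat.card Γ = 9 := by
    rw [Nat.card_zpowers, hord]
  have hD : Nat.card D = Nat.card (MulAction.orbitRel.Quotient Γ D) * 9 := by
    have e := MulAction.selfEquivOrbitsQuotientProd (G := Γ) (X := D) hfree
    rw [Nat.card_congr e, Nat.card_prod, hcardΓ]
  -- the cardinality of `D`
  have hDcard : Nat.card D + Nat.card F = Nat.card H := by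
    have h1 : Nat.card D = ((H : Set T) \ (F : Set T)).ncard := Nat.card_coe_set_eq _
    have h2 : Nat.card F = (F : Set T).ncard := Nat.card_coe_set_eq _
    have h3 : Nat.card H = (H : Set T).ncard := Nat.card_coe_set_eq _
    rw [h1, h2, h3]
    exact Set.ncard_sdiff_add_ncard_of_subset (fun x hx => hFH hx) (Set.toFinite _)
  -- arithmetic
  have hcF : F.relIndex H * Nat.card F = Nat.card H := by
    rw [mul_comm, ← relIndex_bot_left F, ← relIndex_bot_left H]
    exact relIndex_mul_relIndex ⊥ F H bot_le hFH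
  obtain ⟨a, ha⟩ := IsPGroup.iff_card.mp (hT.to_subgroup F)
  have hrdvd : F.relIndex H ∣ Nat.card H := Dvd.intro _ hcF
  obtain ⟨b, hb⟩ := IsPGroup.iff_card.mp (hT.to_subgroup H)
  rw [hb] at hrdvd
  obtain ⟨t, -, ht⟩ := (Nat.dvd_prime_pow Nat.prime_two).mp hrdvd
  by_contra hlt
  push Not at hlt
  have hcop : Nat.Coprime 9 (Nat.card F) := by
    rw [ha]
    exact Nat.Coprime.pow_right a (by norm_num)
  have hdvd9 : 9 ∣ (F.relIndex H - 1) * Nat.card F := by
    have h5 : (F.relIndex H - 1) * Nat.card F = Nat.card D := by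
      have hpos : 1 ≤ F.relIndex H := Nat.pos_of_ne_zero (by
        intro h0
        rw [h0, zero_mul] at hcF
        exact Nat.card_pos.ne hcF)
      obtain ⟨r, hr⟩ : ∃ r, F.relIndex H = r + 1 := ⟨F.relIndex H - 1, by omega⟩
      rw [hr] at hcF ⊢
      simp only [Nat.add_sub_cancel]
      nlinarith
    rw [h5, hD]
    exact Dvd.intro_left _ rfl
  have h9 : 9 ∣ F.relIndex H - 1 := hcop.dvd_of_dvd_mul_right hdvd9
  have hrne : F.relIndex H ≠ 1 := by
    intro h
    apply hne
    have : Nat.card F = Nat.card H := by rw [← hcF, h, one_mul]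
    exact Subgroup.eq_of_le_of_card_ge hFH this.ge
  rw [ht] at h9 hlt hrne
  have ht6 : t < 6 := by
    by_contra h
    have : 2 ^ 6 ≤ 2 ^ t := Nat.pow_le_pow_right (by norm_num) (by omega)
    omega
  interval_cases t <;> omega

end Free

section Main

variable {T : Type*} [Group T] [Finite T]

/-- In a set with four elements, four distinct elements exhaust everything. -/
theorem four_elems {α : Type*} [Finite α] (hc : Nat.card α = 4) (a b c d x : α) (hab : a ≠ b)
    (hac : a ≠ c) (had : a ≠ d) (hbc : b ≠ c) (hbd : b ≠ d) (hcd : c ≠ d) :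
    x = a ∨ x = b ∨ x = c ∨ x = d := by
  classical
  by_contra hcon
  push Not at hcon
  haveI := Fintype.ofFinite α
  have h : ({x, a, b, c, d} : Finset α).card = 5 := by
    rw [Finset.card_insert_of_notMem, Finset.card_insert_of_notMem, Finset.card_insert_of_notMem,
      Finset.card_insert_of_notMem, Finset.card_singleton]
    · simpa using hcd
    · simp [hbc, hbd]
    · simp [hab, hac, had]
    · simp [hcon.1, hcon.2.1, hcon.2.2.1, hcon.2.2.2]
  have h2 := Finset.card_le_univ ({x, a, b, c, d} : Finset α)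
  rw [h, ← Nat.card_eq_fintype_card, hc] at h2
  omega

/-- The abstract form. -/
theorem order_three (hT : IsPGroup 2 T) (σ : MulAut T) (n : ℕ) (hσ : orderOf σ = 3 ^ n) (hn : 1 ≤ n)
    (hfpf : ∀ x, σ x = x → x = 1)
    (hrk : ∀ E : Subgroup T, (∀ a ∈ E, ∀ b ∈ E, a * b = b * a) → (∀ a ∈ E, a ^ 2 = 1) → Nat.card E ≤ 4) :
    n = 1 := by
  classical
  by_contra hn1
  have hn2 : 2 ≤ n := by omega
  haveI : Fact (Nat.Prime 2) := ⟨Nat.prime_two⟩
  obtain ⟨m, rfl⟩ : ∃ m, n = m + 2 := ⟨n - 2, by omega⟩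
  let g : MulAut T := σ ^ 3 ^ m
  let e : MulAut T := g ^ 3
  have hσn : σ ^ 3 ^ (m + 2) = 1 := by rw [← hσ]; exact pow_orderOf_eq_one σ
  have hg9 : g ^ 9 = 1 := by
    show (σ ^ 3 ^ m) ^ 9 = 1
    rw [← pow_mul]
    have : 3 ^ m * 9 = 3 ^ (m + 2) := by ring
    rw [this, hσn]
  have he3 : e ^ 3 = 1 := by
    show (g ^ 3) ^ 3 = 1
    rw [← pow_mul]
    exact hg9
  have he1 : e ≠ 1 := by
    show (σ ^ 3 ^ m) ^ 3 ≠ 1
    rw [← pow_mul]
    apply pow_ne_one_of_lt_orderOf (by positivity)
    rw [hσ]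
    have : 3 ^ m * 3 = 3 ^ (m + 1) := by ring
    rw [this]
    exact Nat.pow_lt_pow_right (by norm_num) (by omega)
  have he_σ : e = (σ ^ 3) ^ 3 ^ m := by
    show (σ ^ 3 ^ m) ^ 3 = _
    rw [← pow_mul, ← pow_mul, mul_comm]
  have hT1 : Nontrivial T := by
    by_contra h
    rw [not_nontrivial_iff_subsingleton] at h
    apply he1
    ext x
    exact Subsingleton.elim _ _
  -- critical subgroup
  obtain ⟨H, hchar, h1, h2, h3⟩ := Cfsg.Agent.Lib.PGroup.Critical.exists_critical hT
  haveI := hchar
  have hmapH : ∀ (φ : MulAut T), ∀ x ∈ H, φ x ∈ H := fun φ x hx =>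
    (characteristic_iff_map_le.mp hchar φ) ⟨x, hx, rfl⟩
  let Z : Subgroup T := H ⊓ centralizer (H : Set T)
  haveI hZc : Z.Characteristic := by
    show (H ⊓ centralizer (H : Set T)).Characteristic
    infer_instance
  have hmapZ : ∀ (φ : MulAut T), ∀ x ∈ Z, φ x ∈ Z := fun φ x hx =>
    (characteristic_iff_map_le.mp hZc φ) ⟨x, hx, rfl⟩
  have hZmem : ∀ {z : T}, z ∈ Z → ∀ x ∈ H, z * x = x * z := by
    intro z hz x hx
    exact (mem_centralizer_iff.mp hz.2 x hx).symm
  have hsqZ : ∀ x ∈ H, x ^ 2 ∈ Z := by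
    intro x hx
    have hHp : IsPGroup 2 H := hT.to_subgroup H
    have hf := Cfsg.Agent.Lib.PGroup.Basic.pow_mem_frattini hHp (⟨x, hx⟩ : H)
    exact ⟨H.pow_mem hx 2, by simpa using h1 ⟨_, hf, rfl⟩⟩
  have hcmZ : ∀ x ∈ H, ∀ y ∈ H, ⁅x, y⁆ ∈ Z := by
    intro x hx y _
    exact h2 (commutator_mem_commutator hx (mem_top y))
  -- the subgroup `Ω`
  let Ω : Subgroup T :=
    { carrier := {u | u ∈ Z ∧ u ^ 2 = 1}
      one_mem' := ⟨Z.one_mem, one_pow 2⟩
      mul_mem' := by
        rintro a b ⟨ha, ha2⟩ ⟨hb, hb2⟩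
        refine ⟨Z.mul_mem ha hb, ?_⟩
        have hab : Commute a b := hZmem ha b hb.1
        rw [hab.mul_pow, ha2, hb2, one_mul]
      inv_mem' := by
        rintro a ⟨ha, ha2⟩
        exact ⟨Z.inv_mem ha, by rw [inv_pow, ha2, inv_one]⟩ }
  have hΩle : Nat.card Ω ≤ 4 := by
    apply hrk
    · intro a ha b hb
      exact hZmem ha.1 b hb.1.1
    · intro a ha
      exact ha.2
  have hmapΩ : ∀ (φ : MulAut T), ∀ x ∈ Ω, φ x ∈ Ω := by
    rintro φ x ⟨hx, hx2⟩
    exact ⟨hmapZ φ x hx, by rw [← map_pow, hx2, map_one]⟩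
  -- `H ≠ 1`, `Z ≠ 1`
  have hHne : H ≠ ⊥ := by
    intro h
    have hC : centralizer (H : Set T) = ⊤ := by
      rw [h]
      simp
    rw [hC, h] at h3
    obtain ⟨x, hx⟩ := exists_ne (1 : T)
    exact hx ((Subgroup.mem_bot).mp (h3 (mem_top x)))
  have hHnt : Nontrivial H := (nontrivial_iff_ne_bot H).mpr hHne
  have hZne : ∃ z ∈ Z, z ≠ 1 := by
    haveI := (hT.to_subgroup H).center_nontrivial
    obtain ⟨z, hz⟩ := exists_ne (1 : center H)
    refine ⟨((z : H) : T), ⟨(z : H).2, ?_⟩, ?_⟩
    · refine mem_centralizer_iff.mpr ?_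
      intro y hy
      have := mem_center_iff.mp z.2 ⟨y, hy⟩
      exact congrArg Subtype.val this
    · intro h
      exact hz (Subtype.ext (Subtype.ext h))
  have hΩne : ∃ u ∈ Ω, u ≠ 1 := by
    obtain ⟨z, hz, hz1⟩ := hZne
    obtain ⟨k, hk⟩ := hT z
    obtain ⟨k, hk⟩ : ∃ k, orderOf z = 2 ^ (k + 1) := by
      have h4 : orderOf z ∣ 2 ^ k := orderOf_dvd_of_pow_eq_one hk
      obtain ⟨j, -, hj⟩ := (Nat.dvd_prime_pow Nat.prime_two).mp h4
      cases j with
      | zero =>
        exfalso
        rw [pow_zero] at hj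
        exact hz1 (orderOf_eq_one_iff.mp hj)
      | succ j => exact ⟨j, hj⟩
    refine ⟨z ^ 2 ^ k, ⟨Z.pow_mem hz _, ?_⟩, ?_⟩
    · rw [← pow_mul, ← pow_succ, ← hk]
      exact pow_orderOf_eq_one z
    · apply pow_ne_one_of_lt_orderOf (by positivity)
      rw [hk]
      exact Nat.pow_lt_pow_right (by norm_num) (by omega)
  -- `|Ω| = 4`
  have hΩ4 : Nat.card Ω = 4 := by
    obtain ⟨a, ha⟩ := IsPGroup.iff_card.mp (hT.to_subgroup Ω)
    have ha2 : a ≤ 2 := by
      by_contra h
      have : 2 ^ 3 ≤ 2 ^ a := Nat.pow_le_pow_right (by norm_num) (by omega)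
      omega
    interval_cases a
    · exfalso
      obtain ⟨u, hu, hu1⟩ := hΩne
      have hb : Ω = ⊥ := Subgroup.eq_bot_of_card_eq _ (by simpa using ha)
      rw [hb] at hu
      exact hu1 hu
    · exfalso
      obtain ⟨u, hu, hu1⟩ := hΩne
      have h2el : ∀ v ∈ Ω, v = 1 ∨ v = u := by
        intro v hv
        have hc : Nat.card Ω = 2 := by simpa using ha
        by_contra hcon
        push Not at hcon
        have h3el : (Finset.card ({⟨1, Ω.one_mem⟩, ⟨u, hu⟩, ⟨v, hv⟩} : Finset Ω)) = 3 := by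
          rw [Finset.card_eq_three]
          refine ⟨_, _, _, ?_, ?_, ?_, rfl⟩
          · intro h; exact hu1 (congrArg Subtype.val h).symm
          · intro h; exact hcon.1 (congrArg Subtype.val h).symm
          · intro h; exact hcon.2 (congrArg Subtype.val h).symm
        haveI := Fintype.ofFinite Ω
        have h5 := Finset.card_le_univ ({⟨1, Ω.one_mem⟩, ⟨u, hu⟩, ⟨v, hv⟩} : Finset Ω)
        rw [h3el, ← Nat.card_eq_fintype_card, hc] at h5
        omega
      rcases h2el _ (hmapΩ σ u hu) with h | h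
      · apply hu1
        have := σ.injective (h.trans (map_one σ).symm)
        exact this
      · exact hu1 (hfpf u h)
    · simpa using ha
  -- no element outside `Z` has square equal to a square in `Z`
  have hno : ∀ x ∈ H, x ∉ Z → ∀ z ∈ Z, x ^ 2 ≠ z ^ 2 := by
    intro x hx hxZ z hz hxz
    set w : T := x * z⁻¹ with hw
    have hwH : w ∈ H := H.mul_mem hx (H.inv_mem hz.1)
    have hwZ : w ∉ Z := by
      intro h
      apply hxZ
      have e : x = w * z := by rw [hw]; group
      rw [e]
      exact Z.mul_mem h hz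
    have hcxz : Commute x z⁻¹ := by
      have := hZmem (Z.inv_mem hz) x hx
      exact this.symm
    have hw2 : w ^ 2 = 1 := by
      rw [hw, hcxz.mul_pow, hxz, inv_pow, mul_inv_cancel]
    have hwcomm : ∀ u ∈ Ω, u * w = w * u := fun u hu => hZmem hu.1 w hwH
    let E : Subgroup T :=
      { carrier := {y | y ∈ Ω ∨ y * w ∈ Ω}
        one_mem' := Or.inl Ω.one_mem
        mul_mem' := by
          rintro a b ha hb
          rcases ha with ha | ha <;> rcases hb with hb | hb
          · exact Or.inl (Ω.mul_mem ha hb)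
          · refine Or.inr ?_
            rw [mul_assoc]
            exact Ω.mul_mem ha hb
          · refine Or.inr ?_
            have hb' : b * w = w * b := (hwcomm b hb)
            rw [mul_assoc, hb', ← mul_assoc]
            exact Ω.mul_mem ha hb
          · refine Or.inl ?_
            have h5 := Ω.mul_mem ha hb
            have hbw : (b * w) * w = b := by
              rw [mul_assoc, ← pow_two, hw2, mul_one]
            have e : a * b = (a * w) * (b * w) := by
              have h6 : (a * w) * (b * w) = a * (w * (b * w)) := by group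
              have h7 : w * (b * w) = (b * w) * w := (hwcomm _ hb).symm
              rw [h6, h7, hbw]
            rw [e]
            exact h5
        inv_mem' := by
          rintro a ha
          rcases ha with ha | ha
          · exact Or.inl (Ω.inv_mem ha)
          · refine Or.inr ?_
            have h5 := Ω.inv_mem ha
            have hwi : w⁻¹ = w := by
              rw [inv_eq_iff_mul_eq_one, ← pow_two, hw2]
            have h6 : (a * w) * w = w * (a * w) := hwcomm _ ha
            have h7 : a * w = w * a := by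
              have h8 : a * w * w = w * a * w := by rw [h6]; group
              exact mul_right_cancel h8
            have e : a⁻¹ * w = (a * w)⁻¹ := by
              rw [mul_inv_rev, hwi]
              have h9 : Commute a w := h7
              exact (h9.inv_left).eq
            rw [e]
            exact h5 }
    have hEstr : ∀ y ∈ E, y ∈ Ω ∨ ∃ u ∈ Ω, y = u * w := by
      rintro y (hy | hy)
      · exact Or.inl hy
      · refine Or.inr ⟨y * w, hy, ?_⟩
        rw [mul_assoc, ← pow_two, hw2, mul_one]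
    have hEcomm : ∀ a ∈ E, ∀ b ∈ E, a * b = b * a := by
      intro a ha b hb
      rcases hEstr a ha with ha | ⟨u, hu, rfl⟩ <;> rcases hEstr b hb with hb | ⟨v, hv, rfl⟩
      · exact hZmem ha.1 b hb.1.1
      · exact hZmem ha.1 _ (H.mul_mem hv.1.1 hwH)
      · exact (hZmem hb.1 _ (H.mul_mem hu.1.1 hwH)).symm
      · have huv : Commute u v := hZmem hu.1 v hv.1.1
        have huw : Commute u w := hwcomm u hu
        have hwv : Commute w v := (hwcomm v hv).symm
        exact Commute.mul_left (Commute.mul_right huv huw) (Commute.mul_right hwv (Commute.refl w))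
    have hEexp : ∀ a ∈ E, a ^ 2 = 1 := by
      intro a ha
      rcases hEstr a ha with ha | ⟨u, hu, rfl⟩
      · exact ha.2
      · have huw : Commute u w := hwcomm u hu
        rw [huw.mul_pow, hu.2, hw2, one_mul]
    have hE4 := hrk E hEcomm hEexp
    have hle : Ω ≤ E := fun y hy => Or.inl hy
    have hΩE := Subgroup.eq_of_le_of_card_ge hle (hE4.trans hΩ4.ge)
    have hwE : w ∈ E := Or.inr (by
      have : w * w = 1 := by rw [← pow_two, hw2]
      rw [this]
      exact Ω.one_mem)
    rw [← hΩE] at hwE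
    exact hwZ hwE.1
  -- the index of `Z` in `H`
  have hindex : Z.relIndex H ≤ 16 := by
    have hcard := card_le_of_no_sq (W := H) (Z.subgroupOf H)
      (by
        intro a ha
        rw [mem_center_iff]
        intro b
        have h4 : (a : T) ∈ Z := ha
        exact Subtype.ext (hZmem h4 b b.2).symm)
      (fun x => by
        show ((x ^ 2 : H) : T) ∈ Z
        exact hsqZ _ x.2)
      (fun x y => by
        show ((⁅x, y⁆ : H) : T) ∈ Z
        exact hcmZ _ x.2 _ y.2)
      (by
        intro Y hY hY2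
        have h4 := hrk (Y.map H.subtype)
          (by
            rintro _ ⟨a, ha, rfl⟩ _ ⟨b, hb, rfl⟩
            have h5 : (a : T) ∈ Z := hY ha
            exact hZmem h5 _ b.2)
          (by
            rintro _ ⟨a, ha, rfl⟩
            have := hY2 a ha
            exact congrArg Subtype.val this)
        have e : Nat.card (Y.map H.subtype) = Nat.card Y :=
          (Nat.card_congr (Subgroup.equivMapOfInjective _ H.subtype Subtype.coe_injective).toEquiv).symm
        rwa [e] at h4)
      (by
        intro x hx z hz h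
        have h5 : (z : T) ∈ Z := hz
        refine hno x x.2 hx z h5 ?_
        exact congrArg Subtype.val h)
    have h5 := (Z.subgroupOf H).card_mul_index
    have hpos : 0 < Nat.card (Z.subgroupOf H) := Nat.card_pos
    have h6 : Nat.card (Z.subgroupOf H) * (Z.subgroupOf H).index ≤ Nat.card (Z.subgroupOf H) * 16 := by
      rw [h5, mul_comm _ 16]
      exact hcard
    exact Nat.le_of_mul_le_mul_left h6 hpos
  have hge : g * e = e * g := by
    show g * g ^ 3 = g ^ 3 * g
    rw [← pow_succ', ← pow_succ]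
  have hge' : ∀ x, g (e x) = e (g x) := by
    intro x
    have := congrArg (fun φ : MulAut T => φ x) hge
    simpa [MulAut.mul_apply] using this
  -- the subgroup `F`
  let F : Subgroup T :=
    { carrier := {x | x ∈ H ∧ x⁻¹ * e x ∈ Z}
      one_mem' := ⟨H.one_mem, by simp⟩
      mul_mem' := by
        rintro x y ⟨hx, hx'⟩ ⟨hy, hy'⟩
        refine ⟨H.mul_mem hx hy, ?_⟩
        have e1 : (x * y)⁻¹ * e (x * y) = (x⁻¹ * e x) * (y⁻¹ * e y) := by
          rw [map_mul, mul_inv_rev]
          have h5 := hZmem hx' y⁻¹ (H.inv_mem hy)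
          calc y⁻¹ * x⁻¹ * (e x * e y) = (y⁻¹ * (x⁻¹ * e x)) * e y := by group
            _ = ((x⁻¹ * e x) * y⁻¹) * e y := by rw [h5]
            _ = _ := by group
        rw [e1]
        exact Z.mul_mem hx' hy'
      inv_mem' := by
        rintro x ⟨hx, hx'⟩
        refine ⟨H.inv_mem hx, ?_⟩
        have e1 : x⁻¹⁻¹ * e x⁻¹ = (x⁻¹ * e x)⁻¹ := by
          have h5 := hZmem hx' x⁻¹ (H.inv_mem hx)
          have h6 := hZmem (Z.inv_mem hx') x hx
          rw [map_inv, inv_inv, mul_inv_rev, inv_inv]
          have h7 : (x⁻¹ * e x)⁻¹ = (e x)⁻¹ * x := by group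
          have h8 : x * (e x)⁻¹ = (e x)⁻¹ * x := by
            rw [h7] at h6
            have h9 : (e x)⁻¹ * x * x = x * ((e x)⁻¹ * x) := h6
            have h10 : (e x)⁻¹ * x * x = x * (e x)⁻¹ * x := by rw [h9]; group
            exact (mul_right_cancel h10).symm
          exact h8
        rw [e1]
        exact Z.inv_mem hx' }
  have hFH : F ≤ H := fun x hx => hx.1
  have hZF : Z ≤ F := fun z hz => ⟨hz.1, Z.mul_mem (Z.inv_mem hz) (hmapZ e z hz)⟩
  have hFeqH : F = H := by
    by_contra hne
    have h64 := nine_le_relIndex hT g hg9 H F hFH (hmapH g)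
      (by
        rintro x ⟨hx, hx'⟩
        refine ⟨hmapH g x hx, ?_⟩
        have e1 : (g x)⁻¹ * e (g x) = g (x⁻¹ * e x) := by
          rw [map_mul, map_inv, hge']
        rw [e1]
        exact hmapZ g _ hx')
      (fun x hx hfix => ⟨hx, by
        have h5 : e x = x := hfix
        rw [h5, inv_mul_cancel]
        exact Z.one_mem⟩)
      hne
    have hdvd : F.relIndex H ∣ Z.relIndex H := relIndex_dvd_of_le_left H hZF
    have hpos : 0 < Z.relIndex H := Nat.pos_of_ne_zero (by
      show (Z.subgroupOf H).index ≠ 0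
      exact Subgroup.index_ne_zero_of_finite)
    have := Nat.le_of_dvd hpos hdvd
    omega
  -- `e` fixes `Ω`
  have hσsq : ∀ u, σ (σ u) = u → u = 1 := by
    intro u hu
    apply hfpf
    have hp : ∀ k : ℕ, (σ ^ (2 * k)) u = u := by
      intro k
      induction k with
      | zero => simp
      | succ k ih =>
        have e1 : 2 * (k + 1) = 2 * k + 1 + 1 := by ring
        rw [e1, pow_succ, pow_succ, MulAut.mul_apply, MulAut.mul_apply, hu, ih]
    obtain ⟨k, hk⟩ : ∃ k, 2 * k = 3 ^ (m + 2) + 1 := by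
      have h5 : Odd (3 ^ (m + 2)) := Odd.pow (by decide)
      obtain ⟨r, hr⟩ := h5
      exact ⟨r + 1, by omega⟩
    have h6 := hp k
    rw [hk, pow_succ, hσn, one_mul] at h6
    exact h6
  have heΩ : ∀ u ∈ Ω, e u = u := by
    intro u hu
    by_cases hu1 : u = 1
    · rw [hu1, map_one]
    have hs1 : σ u ≠ 1 := fun h => hu1 (σ.injective (h.trans (map_one σ).symm))
    have hs2 : σ (σ u) ≠ 1 := fun h => hs1 (σ.injective (h.trans (map_one σ).symm))
    have hsu : σ u ≠ u := fun h => hu1 (hfpf u h)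
    have hssu : σ (σ u) ≠ u := fun h => hu1 (hσsq u h)
    have hsssu : σ (σ u) ≠ σ u := fun h => hsu (σ.injective h)
    have h3 : σ (σ (σ u)) = u := by
      have hu1' := hmapΩ σ _ (hmapΩ σ _ hu)
      have hu2' := hmapΩ σ _ hu1'
      rcases four_elems (α := Ω) hΩ4 ⟨1, Ω.one_mem⟩ ⟨u, hu⟩ ⟨σ u, hmapΩ σ _ hu⟩ ⟨σ (σ u), hu1'⟩
        ⟨σ (σ (σ u)), hu2'⟩
        (fun h => hu1 (congrArg Subtype.val h).symm) (fun h => hs1 (congrArg Subtype.val h).symm)
        (fun h => hs2 (congrArg Subtype.val h).symm) (fun h => hsu (congrArg Subtype.val h).symm)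
        (fun h => hssu (congrArg Subtype.val h).symm) (fun h => hsssu (congrArg Subtype.val h).symm)
        with h | h | h | h
      · exfalso
        have h4 : σ (σ (σ u)) = 1 := congrArg Subtype.val h
        exact hs2 (σ.injective (h4.trans (map_one σ).symm))
      · exact congrArg Subtype.val h
      · exfalso
        have h4 : σ (σ (σ u)) = σ u := congrArg Subtype.val h
        exact hssu (σ.injective h4)
      · exfalso
        have h4 : σ (σ (σ u)) = σ (σ u) := congrArg Subtype.val h
        exact hsu (σ.injective (σ.injective h4))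
    have h4 : (σ ^ 3) u = u := h3
    have h5 : ∀ k : ℕ, ((σ ^ 3) ^ k) u = u := by
      intro k
      induction k with
      | zero => simp
      | succ k ih =>
        rw [pow_succ, MulAut.mul_apply, h4, ih]
    rw [he_σ]
    exact h5 _
  have he3' : ∀ x, e (e (e x)) = x := by
    intro x
    have := congrArg (fun φ : MulAut T => φ x) he3
    simpa [pow_succ, MulAut.mul_apply] using this
  -- `e` fixes `Z`
  have heZ : ∀ k : ℕ, ∀ z ∈ Z, z ^ 2 ^ k = 1 → e z = z := by
    intro k
    induction k with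
    | zero =>
      intro z _ hz
      rw [pow_zero, pow_one] at hz
      rw [hz, map_one]
    | succ k ih =>
      intro z hz hzk
      have h5 : e (z ^ 2) = z ^ 2 := by
        apply ih _ (Z.pow_mem hz 2)
        rw [← pow_mul, ← pow_succ']
        exact hzk
      set w := z⁻¹ * e z with hw
      have hwZ : w ∈ Z := Z.mul_mem (Z.inv_mem hz) (hmapZ e z hz)
      have hez : e z = z * w := by rw [hw]; group
      have hzw : Commute z w := hZmem hz w hwZ.1
      have hw2 : w ^ 2 = 1 := by
        rw [map_pow, hez, hzw.mul_pow] at h5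
        exact mul_left_cancel (h5.trans (mul_one _).symm)
      have hwΩ : w ∈ Ω := ⟨hwZ, hw2⟩
      have hew := heΩ w hwΩ
      have h6 : e (e z) = z := by
        rw [hez, map_mul, hez, hew, mul_assoc, ← pow_two, hw2, mul_one]
      have h7 := he3' z
      rw [h6] at h7
      exact h7
  have heZ' : ∀ z ∈ Z, e z = z := by
    intro z hz
    obtain ⟨k, hk⟩ := hT z
    exact heZ k z hz hk
  -- `e` fixes `H`
  have heH : ∀ x ∈ H, e x = x := by
    intro x hx
    have hxF : x ∈ F := hFeqH ▸ hx
    set w := x⁻¹ * e x with hw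
    have hwZ : w ∈ Z := hxF.2
    have hex : e x = x * w := by rw [hw]; group
    have hew := heZ' w hwZ
    have h6 : e (e (e x)) = x * w ^ 3 := by
      rw [hex, map_mul, hex, hew, map_mul, map_mul, hex, hew]
      simp only [pow_succ, pow_zero, one_mul, mul_assoc]
    rw [he3'] at h6
    have hw3 : w ^ 3 = 1 := by
      exact mul_left_cancel (h6.symm.trans (mul_one x).symm)
    obtain ⟨k, hk'⟩ := hT w
    have h7 : orderOf w ∣ Nat.gcd 3 (2 ^ k) := Nat.dvd_gcd (orderOf_dvd_of_pow_eq_one hw3)
      (orderOf_dvd_of_pow_eq_one hk')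
    have h8 : Nat.gcd 3 (2 ^ k) = 1 := Nat.Coprime.pow_right k (by norm_num)
    rw [h8, Nat.dvd_one, orderOf_eq_one_iff] at h7
    rw [hex, h7, mul_one]
  have hcop : Nat.Coprime (orderOf e) 2 :=
    Nat.Coprime.coprime_dvd_left (orderOf_dvd_of_pow_eq_one he3) (by norm_num)
  exact he1 (Cfsg.Agent.S0121.result hT H hchar h1 h2 h3 e hcop heH)

end Main

end Cfsg.Agent.Lib.Coprime.Order9
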