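import Mathlib
import Cfsg.Prelude.Def_Solvable
import Cfsg.Agent.Lib.Coprime.SZ
import Cfsg.Agent.Lib.Coprime.Three
import Cfsg.Agent.Lib.Frobenius.Basic
import Cfsg.Agent.Lib.Frobenius.Partition
import Cfsg.Agent.Lib.Frobenius.Even
import Cfsg.Agent.Lib.Frobenius.Center
import Cfsg.Agent.Lib.Frobenius.SylowFpf
import Cfsg.Agent.S0042
import Cfsg.Agent.S0666

/-!
# Structure of 2-Frobenius groups

`H < K` normal in `G`, `K` Frobenius with kernel `H`, `G/H` Frobenius with kernel `K/H`.  Then `G` is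
solvable, `K/H` is odd and cyclic, `G/K` is cyclic, and the prime graph has two complete components.
-/

set_option autoImplicit false
set_option linter.style.haveILetI false
set_option linter.unusedSectionVars false

namespace Cfsg.Agent.Lib.Coprime.TwoFrob

open Cfsg Cfsg.Agent.Lib.Frobenius
open scoped Pointwise

/-- Frattini argument with Schur-Zassenhaus: a section of `G → G/N`. -/
theorem exists_section {G : Type*} [Group G] [Finite G] (N L : Subgroup G) [hNn : N.Normal]
    [hLn : L.Normal] (K₀ : Subgroup L) (hK₀ : (N.subgroupOf L).IsComplement' K₀)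
    (hcop : (Nat.card (N.subgroupOf L)).Coprime (N.subgroupOf L).index)
    (hsol : Group.IsSolvable (N.subgroupOf L))
    (hfix : ∀ n ∈ N, n ∈ Subgroup.normalizer ((K₀.map L.subtype : Subgroup G) : Set G) → n = 1) :
    ∃ s : G ⧸ N →* G, Function.Injective s ∧ ∀ x, QuotientGroup.mk' N (s x) = x := by
  classical
  set N' : Subgroup L := N.subgroupOf L with hN'
  haveI hN'n : N'.Normal := inferInstance
  have hK₀card : Nat.card K₀ = N'.index := by
    have h1 := hK₀.card_mul_card
    have h2 := N'.card_mul_index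
    exact Nat.eq_of_mul_eq_mul_left Nat.card_pos (h1.trans h2.symm)
  let K : Subgroup G := K₀.map L.subtype
  have hKL : K ≤ L := by
    rintro _ ⟨x, -, rfl⟩
    exact x.2
  have hKcard : Nat.card K = N'.index := by
    rw [← hK₀card]
    exact Subgroup.card_map_of_injective L.subtype_injective
  have hfrat : ∀ g : G, ∃ n ∈ N, ∃ t ∈ Subgroup.normalizer (K : Set G), n * t = g := by
    intro g
    let K' : Subgroup G := MulAut.conj g • K
    have hK'L : K' ≤ L := by
      intro x hx
      have h1 : g⁻¹ * x * g ∈ K := Coprime.SZ.mem_conj_smul.mp hx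
      have h2 := hLn.conj_mem _ (hKL h1) g
      convert h2 using 1
      group
    have hK'c : Nat.card (K'.subgroupOf L) = N'.index := by
      rw [Coprime.SZ.card_subgroupOf_of_le hK'L, Coprime.SZ.card_conj_smul, hKcard]
    obtain ⟨u, hu⟩ := Coprime.SZ.conj_of_solvable N' hcop (Or.inl hsol) K₀ (K'.subgroupOf L)
      hK₀card hK'c
    have hK₀eq : K₀ = K.subgroupOf L :=
      (Subgroup.comap_map_eq_self_of_injective L.subtype_injective K₀).symm
    rw [hK₀eq] at hu
    have hu' : MulAut.conj (u : G) • K = K' :=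
      Coprime.SZ.map_subtype_conj_smul_subgroupOf hKL hK'L u hu
    have ht : (u : G)⁻¹ * g ∈ Subgroup.normalizer (K : Set G) := by
      rw [Subgroup.mem_normalizer_iff]
      intro h
      have h1 : h ∈ K ↔ g * h * g⁻¹ ∈ K' := by
        rw [Coprime.SZ.mem_conj_smul]
        simp [mul_assoc]
      rw [h1, ← hu', Coprime.SZ.mem_conj_smul]
      simp [mul_assoc]
    have hu2 : u ∈ N' ⊔ K₀ := by
      rw [hK₀.sup_eq_top]
      trivial
    obtain ⟨n', hn', k', hk', hnk⟩ := Subgroup.mem_sup_of_normal_left.mp hu2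
    refine ⟨(n' : G), hn', (k' : G) * ((u : G)⁻¹ * g), ?_, ?_⟩
    · refine Subgroup.mul_mem _ ?_ ht
      apply Subgroup.le_normalizer
      exact ⟨k', hk', rfl⟩
    · have h2 : (n' : G) * k' = u := congrArg Subtype.val hnk
      rw [← mul_assoc, h2]
      group
  let T' := Subgroup.normalizer (K : Set G)
  let f : T' →* G ⧸ N := (QuotientGroup.mk' N).comp T'.subtype
  have hfbij : Function.Bijective f := by
    constructor
    · rw [injective_iff_map_eq_one]
      intro t ht
      have h1 : (t : G) ∈ N := (QuotientGroup.eq_one_iff (t : G)).mp ht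
      exact Subtype.ext (hfix t h1 t.2)
    · intro x
      obtain ⟨g, rfl⟩ := QuotientGroup.mk'_surjective N x
      obtain ⟨n, hn, t, ht, rfl⟩ := hfrat g
      refine ⟨⟨t, ht⟩, ?_⟩
      change QuotientGroup.mk' N t = QuotientGroup.mk' N (n * t)
      have h9 : QuotientGroup.mk' N n = 1 := (QuotientGroup.eq_one_iff n).mpr hn
      rw [map_mul, h9, one_mul]
  let e : T' ≃* G ⧸ N := MulEquiv.ofBijective f hfbij
  refine ⟨T'.subtype.comp e.symm.toMonoidHom, T'.subtype_injective.comp e.symm.injective, ?_⟩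
  intro x
  change f (e.symm x) = x
  exact e.apply_symm_apply x

/-- A nilpotent group has elements of order `pq` for all `p ≠ q` dividing its order. -/
theorem exists_mul_of_nilpotent {N : Type*} [Group N] [Finite N] (hN : Group.IsNilpotent N) {p q : ℕ}
    (hp : p.Prime) (hq : q.Prime) (hpq : p ≠ q) (hpd : p ∣ Nat.card N) (hqd : q ∣ Nat.card N) :
    ∃ g : N, orderOf g = p * q := by
  haveI := Fact.mk hp
  haveI := Fact.mk hq
  have hnc := Group.normalizerCondition_of_isNilpotent (G := N)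
  let P : Sylow p N := default
  let Q : Sylow q N := default
  have hPn : (P : Subgroup N).Normal := Sylow.normal_of_normalizerCondition hnc P
  have hQn : (Q : Subgroup N).Normal := Sylow.normal_of_normalizerCondition hnc Q
  obtain ⟨x, hx⟩ := exists_prime_orderOf_dvd_card' p (P.dvd_card_of_dvd_card hpd)
  obtain ⟨y, hy⟩ := exists_prime_orderOf_dvd_card' q (Q.dvd_card_of_dvd_card hqd)
  have hdis : Disjoint (P : Subgroup N) (Q : Subgroup N) := IsPGroup.disjoint_of_coprime P.2 Q.2 ((Nat.coprime_primes hp hq).mpr hpq)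
  have hcomm : Commute (x : N) (y : N) :=
    Subgroup.commute_of_normal_of_disjoint _ _ hPn hQn hdis x y x.2 y.2
  have hx' : orderOf (x : N) = p := by rw [Subgroup.orderOf_coe, hx]
  have hy' : orderOf (y : N) = q := by rw [Subgroup.orderOf_coe, hy]
  refine ⟨x * y, ?_⟩
  rw [hcomm.orderOf_mul_eq_mul_orderOf_of_coprime (by
    rw [hx', hy']; exact (Nat.coprime_primes hp hq).mpr hpq), hx', hy']

/-- A cyclic group has elements of order `pq` for all `p ≠ q` dividing its order. -/
theorem exists_mul_of_cyclic {A : Type*} [Group A] [Finite A] [IsCyclic A] {p q : ℕ}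
    (hp : p.Prime) (hq : q.Prime) (hpq : p ≠ q) (hpd : p ∣ Nat.card A) (hqd : q ∣ Nat.card A) :
    ∃ g : A, orderOf g = p * q := by
  obtain ⟨g, hg⟩ := IsCyclic.exists_ofOrder_eq_natCard (α := A)
  have hd : p * q ∣ orderOf g := by
    rw [hg]
    exact Nat.Coprime.mul_dvd_of_dvd_of_dvd ((Nat.coprime_primes hp hq).mpr hpq) hpd hqd
  exact ⟨g ^ (orderOf g / (p * q)), orderOf_pow_orderOf_div (orderOf_pos g).ne' hd⟩

/-- Frobenius group `W⟨d⟩` acting on an abelian normal subgroup: `d` has a nontrivial fixed point. -/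
theorem exists_fixed {G : Type*} [Group G] [Finite G] (V W : Subgroup G) [hVn : V.Normal]
    (hVab : IsMulCommutative V) (hV1 : V ≠ ⊥) (hW1 : W ≠ ⊥) (d : G)
    (hd : d ∈ Subgroup.normalizer (W : Set G))
    (h1 : W ⊓ Subgroup.zpowers d = ⊥)
    (h2 : ∀ e ∈ Subgroup.zpowers d, e ≠ 1 → ∀ w ∈ W, e * w = w * e → w = 1)
    (h3 : ∀ w ∈ W, w ≠ 1 → ∀ v ∈ V, w * v = v * w → v = 1)
    (h4 : (Nat.card V).Coprime (Nat.card W)) (hd1 : d ≠ 1) :
    ∃ v ∈ V, v ≠ 1 ∧ d * v = v * d := by
  classical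
  set F : Subgroup G := W ⊔ Subgroup.zpowers d with hF
  have hWF : W ≤ F := le_sup_left
  have hdF : Subgroup.zpowers d ≤ F := le_sup_right
  have hFn : F ≤ Subgroup.normalizer (W : Set G) :=
    sup_le Subgroup.le_normalizer ((Subgroup.zpowers_le).mpr hd)
  set W' : Subgroup F := W.subgroupOf F with hW'
  set D' : Subgroup F := (Subgroup.zpowers d).subgroupOf F with hD'
  haveI hW'n : W'.Normal := (Subgroup.normal_subgroupOf_iff_le_normalizer hWF).mpr hFn
  have hsup : W' ⊔ D' = ⊤ := by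
    rw [hW', hD', ← Subgroup.subgroupOf_sup hWF hdF, ← hF, Subgroup.subgroupOf_self]
  have hdisj : Disjoint W' D' := by
    rw [disjoint_iff, eq_bot_iff]
    rintro x ⟨hx1, hx2⟩
    have h5 : (x : G) ∈ W ⊓ Subgroup.zpowers d := ⟨hx1, hx2⟩
    rw [h1, Subgroup.mem_bot] at h5
    exact Subtype.ext h5
  have hc : W'.IsComplement' D' := by
    apply Subgroup.isComplement'_of_disjoint_and_mul_eq_univ hdisj
    rw [Set.eq_univ_iff_forall]
    intro x
    have hx : x ∈ W' ⊔ D' := by
      rw [hsup]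
      trivial
    obtain ⟨u, hu, v, hv, huv⟩ := Subgroup.mem_sup_of_normal_left.mp hx
    exact ⟨u, hu, v, hv, huv⟩
  have hfpf : ∀ h ∈ D', h ≠ 1 → ∀ k ∈ W', h * k = k * h → k = 1 := by
    intro h hh hh1 k hk hc
    have h5 := h2 (h : G) hh (fun h0 => hh1 (Subtype.ext h0)) (k : G) hk (congrArg Subtype.val hc)
    exact Subtype.ext h5
  obtain ⟨⟨w₀, hw₀⟩, hw₀1⟩ := Subgroup.ne_bot_iff_exists_ne_one.mp hW1
  have hw₀1' : w₀ ≠ 1 := fun h => hw₀1 (Subtype.ext h)
  have hW'1 : W' ≠ ⊥ := by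
    intro h0
    have h5 : (⟨w₀, hWF hw₀⟩ : F) ∈ W' := hw₀
    rw [h0, Subgroup.mem_bot] at h5
    exact hw₀1' (congrArg Subtype.val h5)
  have hD'1 : D' ≠ ⊥ := by
    intro h0
    have h5 : (⟨d, hdF (Subgroup.mem_zpowers d)⟩ : F) ∈ D' := Subgroup.mem_zpowers d
    rw [h0, Subgroup.mem_bot] at h5
    exact hd1 (congrArg Subtype.val h5)
  have hD'F := Basic.isFrobeniusComplement_of_complement hc hW'1 hD'1 hfpf
  have hker := Basic.frobeniusKernel_eq_of_complement hc hfpf
  have hcop : (Nat.card V).Coprime (Nat.card (Cfsg.frobeniusKernel D')) := by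
    rw [hker]
    change (Nat.card V).Coprime (Nat.card W')
    rw [hW', Coprime.SZ.card_subgroupOf_of_le hWF]
    exact h4
  have hCK : V ⊓ Subgroup.centralizer (Subtype.val '' Cfsg.frobeniusKernel D' : Set G) = ⊥ := by
    rw [hker, eq_bot_iff]
    rintro v ⟨hv1, hv2⟩
    have h5 := Subgroup.mem_centralizer_iff.mp hv2 w₀ ⟨⟨w₀, hWF hw₀⟩, hw₀, rfl⟩
    rw [Subgroup.mem_bot]
    exact h3 w₀ hw₀ hw₀1' v hv1 h5
  have hres := Cfsg.Agent.S0666.result V F hVab hV1
    (by rw [Subgroup.normalizer_eq_top_iff.mpr hVn]; exact le_top) D' hD'F hcop hCK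
  obtain ⟨⟨v, hv⟩, hv1⟩ := Subgroup.ne_bot_iff_exists_ne_one.mp hres
  refine ⟨v, hv.1, fun h => hv1 (Subtype.ext h), ?_⟩
  exact Subgroup.mem_centralizer_iff.mp hv.2 d
    ⟨⟨d, hdF (Subgroup.mem_zpowers d)⟩, Subgroup.mem_zpowers d, rfl⟩

/-- **Structure of 2-Frobenius groups.** -/
theorem main {G : Type*} [Group G] [Finite G] (H K : Subgroup G) [hHn : H.Normal] [hKn : K.Normal]
    (hlt : H < K)
    (hK : ∃ C : Subgroup ↥K, IsFrobeniusComplement C ∧ frobeniusKernel C = (H.subgroupOf K : Set ↥K))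
    (hGH : ∃ C : Subgroup (G ⧸ H), IsFrobeniusComplement C ∧
      frobeniusKernel C = (K.map (QuotientGroup.mk' H) : Set (G ⧸ H))) :
    Group.IsSolvable G ∧ Odd (Nat.card (↥K ⧸ H.subgroupOf K)) ∧
      Nat.Coprime (Nat.card (↥K ⧸ H.subgroupOf K)) (Nat.card ↥H * Nat.card (G ⧸ K)) ∧
      IsCyclic (G ⧸ K) ∧
      ∀ p q : ℕ, p.Prime → q.Prime → p ≠ q → p ∣ Nat.card G → q ∣ Nat.card G →
        ((∃ g : G, orderOf g = p * q) ↔
          (p ∣ Nat.card (↥K ⧸ H.subgroupOf K) ↔ q ∣ Nat.card (↥K ⧸ H.subgroupOf K))) := by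
  classical
  obtain ⟨C₁, hC₁, hK₁⟩ := hK
  obtain ⟨C₂, hC₂, hK₂⟩ := hGH
  have hHK : H ≤ K := hlt.le
  set H' : Subgroup K := H.subgroupOf K with hH'
  set Q : Subgroup (G ⧸ H) := K.map (QuotientGroup.mk' H) with hQ
  haveI hH'n : H'.Normal := inferInstance
  haveI hQn : Q.Normal := Subgroup.Normal.map hKn _ (QuotientGroup.mk'_surjective H)
  have hc₁ : H'.IsComplement' C₁ := Basic.kernel_isComplement' hC₁ hK₁.symm
  have hcop₁ : (Nat.card H').Coprime (Nat.card C₁) := Basic.coprime_kernel hC₁ hK₁.symm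
  have hf₁ : ∀ h ∈ C₁, h ≠ 1 → ∀ k ∈ H', h * k = k * h → k = 1 :=
    fun h hh hh1 k hk hc => Basic.kernel_fpf hC₁ hK₁.symm hh hh1 hk hc
  have hc₂ : Q.IsComplement' C₂ := Basic.kernel_isComplement' hC₂ hK₂.symm
  have hcop₂ : (Nat.card Q).Coprime (Nat.card C₂) := Basic.coprime_kernel hC₂ hK₂.symm
  have hf₂ : ∀ h ∈ C₂, h ≠ 1 → ∀ k ∈ Q, h * k = k * h → k = 1 :=
    fun h hh hh1 k hk hc => Basic.kernel_fpf hC₂ hK₂.symm hh hh1 hk hc
  have hC₁1 : C₁ ≠ ⊥ := hC₁.1
  have hC₂1 : C₂ ≠ ⊥ := hC₂.1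
  -- membership in `Q`
  have hmemQ : ∀ g : G, QuotientGroup.mk' H g ∈ Q → g ∈ K := by
    rintro g ⟨k, hk, hkg⟩
    have h1 : k⁻¹ * g ∈ H := by
      rw [← QuotientGroup.ker_mk' H, MonoidHom.mem_ker, map_mul, map_inv, ← hkg, inv_mul_cancel]
    have h2 := K.mul_mem hk (hHK h1)
    simpa using h2
  -- cards
  have hH'card : Nat.card H' = Nat.card H := Coprime.SZ.card_subgroupOf_of_le hHK
  have hcidx : Nat.card (↥K ⧸ H') = Nat.card C₁ := by
    rw [← Subgroup.index_eq_card]
    exact hc₁.symm.index_eq_card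
  have hKcard : Nat.card K = Nat.card Q * Nat.card H := by
    have := Coprime.SZ.card_map_mul_card_inf_ker (QuotientGroup.mk' H) K
    rw [QuotientGroup.ker_mk', inf_eq_right.mpr hHK] at this
    exact this.symm
  have hKcard2 : Nat.card K = Nat.card H * Nat.card C₁ := by
    rw [← hc₁.card_mul_card, hH'card]
  have hQcard : Nat.card Q = Nat.card C₁ := by
    rw [hKcard2, mul_comm] at hKcard
    exact (Nat.eq_of_mul_eq_mul_right Nat.card_pos hKcard).symm
  have hcQ : Nat.card (↥K ⧸ H') = Nat.card Q := hcidx.trans hQcard.symm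
  have hXcard : Nat.card (G ⧸ H) = Nat.card Q * Nat.card C₂ := hc₂.card_mul_card.symm
  have hGcard : Nat.card G = Nat.card H * (Nat.card Q * Nat.card C₂) := by
    rw [← hXcard, ← Subgroup.index_eq_card, Subgroup.card_mul_index]
  have hC₂card : Nat.card C₂ = Nat.card (G ⧸ K) := by
    rw [← Subgroup.index_eq_card]
    have h1 : Nat.card Q * Nat.card H * K.index = Nat.card H * (Nat.card Q * Nat.card C₂) := by
      rw [← hKcard, ← hGcard]
      exact K.card_mul_index
    have h2 : Nat.card H * Nat.card Q * K.index = Nat.card H * Nat.card Q * Nat.card C₂ := by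
      rw [mul_assoc (Nat.card H) (Nat.card Q) (Nat.card C₂), ← h1]
      ring
    exact (Nat.eq_of_mul_eq_mul_left (Nat.mul_pos Nat.card_pos Nat.card_pos) h2).symm
  have hcopHQ : (Nat.card H).Coprime (Nat.card Q) := by
    rw [← hH'card, hQcard]
    exact hcop₁
  -- nilpotency
  have hnilH' : Group.IsNilpotent H' := by
    obtain ⟨N, hN, -, hNn⟩ := Cfsg.Agent.S0042.result C₁ hC₁
    have h1 : N = H' := SetLike.coe_injective (hN.trans hK₁)
    rw [h1] at hNn
    exact hNn
  have hnilQ : Group.IsNilpotent Q := by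
    obtain ⟨N, hN, -, hNn⟩ := Cfsg.Agent.S0042.result C₂ hC₂
    have h1 : N = Q := SetLike.coe_injective (hN.trans hK₂)
    rw [h1] at hNn
    exact hNn
  have hnilH : Group.IsNilpotent H :=
    Group.nilpotent_of_surjective (Subgroup.subgroupOfEquivOfLe hHK).toMonoidHom
      (Subgroup.subgroupOfEquivOfLe hHK).surjective
  -- fixed point freeness of `K \ H` on `H`
  have hF1 : ∀ x ∈ K, x ∉ H → ∀ h ∈ H, x * h = h * x → h = 1 := by
    intro x hx hxH h hh hc
    by_contra hh1
    apply hxH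
    have h1 : (⟨x, hx⟩ : K) ∈ H' := Partition.mem_of_commute_kernel hc₁ hf₁
      (k := ⟨h, hHK hh⟩) (y := ⟨x, hx⟩) (show (⟨h, hHK hh⟩ : K) ∈ H' from hh)
      (fun h0 => hh1 (congrArg Subtype.val h0)) (Subtype.ext hc)
    exact h1
  -- the section
  have hfix : ∀ n ∈ H, n ∈ Subgroup.normalizer ((C₁.map K.subtype : Subgroup G) : Set G) → n = 1 := by
    intro n hn hnn
    obtain ⟨⟨b, hb⟩, hb1⟩ := Subgroup.ne_bot_iff_exists_ne_one.mp hC₁1
    have hb1' : b ≠ 1 := fun h => hb1 (Subtype.ext h)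
    have h1 : n * (b : G) * n⁻¹ ∈ C₁.map K.subtype :=
      (Subgroup.mem_normalizer_iff.mp hnn b).mp ⟨b, hb, rfl⟩
    obtain ⟨b', hb', hbb⟩ := h1
    have hbb' : (b' : G) = n * (b : G) * n⁻¹ := hbb
    -- `b' * b⁻¹ ∈ H' ∩ C₁`
    have h2 : b' * b⁻¹ ∈ C₁ := C₁.mul_mem hb' (C₁.inv_mem hb)
    have h3 : b' * b⁻¹ ∈ H' := by
      change ((b' * b⁻¹ : K) : G) ∈ H
      have h4 : ((b' * b⁻¹ : K) : G) = n * ((b : G) * n⁻¹ * (b : G)⁻¹) := by
        push_cast
        rw [hbb']
        group
      rw [h4]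
      exact H.mul_mem hn (hHn.conj_mem _ (H.inv_mem hn) _)
    have h5 : b' * b⁻¹ = 1 := by
      have := hc₁.disjoint.le_bot (Subgroup.mem_inf.mpr ⟨h3, h2⟩)
      simpa using this
    have h6 : b' = b := by
      rw [mul_inv_eq_one] at h5
      exact h5
    have h7 : (b : G) * n = n * (b : G) := by
      have h8 : (b : G) = n * (b : G) * n⁻¹ := by
        rw [← hbb', h6]
      calc (b : G) * n = (n * (b : G) * n⁻¹) * n := by rw [← h8]
        _ = n * (b : G) := by group
    have h9 := hf₁ b hb hb1' ⟨n, hHK hn⟩ hn (Subtype.ext h7)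
    exact congrArg Subtype.val h9
  have hcopH' : (Nat.card H').Coprime H'.index := by
    rw [hc₁.symm.index_eq_card]
    exact hcop₁
  obtain ⟨s, hsinj, hsproj⟩ := exists_section H K C₁ hc₁ hcopH' inferInstance hfix
  have hs_mem : ∀ x ∈ Q, s x ∈ K := by
    intro x hx
    apply hmemQ
    rw [hsproj]
    exact hx
  have hs_not : ∀ x ∈ Q, x ≠ 1 → s x ∉ H := by
    intro x _ hx1 hsx
    apply hx1
    rw [← hsproj x]
    exact (QuotientGroup.eq_one_iff _).mpr hsx
  have hfQ : ∀ x ∈ Q, x ≠ 1 → ∀ h ∈ H, s x * h = h * s x → h = 1 :=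
    fun x hx hx1 h hh hc => hF1 _ (hs_mem x hx) (hs_not x hx hx1) h hh hc
  -- nontriviality
  have hH1 : H ≠ ⊥ := by
    intro h0
    have h1 : Nat.card C₁ = Nat.card K := by
      rw [hKcard2, h0, Subgroup.card_bot, one_mul]
    apply hC₁.2.1
    exact Subgroup.eq_top_of_card_eq _ h1
  have hQ1 : Q ≠ ⊥ := by
    intro h0
    apply hlt.not_ge
    intro k hk
    have h1 : QuotientGroup.mk' H k ∈ Q := ⟨k, hk, rfl⟩
    rw [h0, Subgroup.mem_bot] at h1
    exact (QuotientGroup.eq_one_iff k).mp h1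
  obtain ⟨⟨c₀, hc₀⟩, hc₀1⟩ := Subgroup.ne_bot_iff_exists_ne_one.mp hC₂1
  have hc₀1' : c₀ ≠ 1 := fun h => hc₀1 (Subtype.ext h)
  -- `Q` has odd order
  have hodd : ¬ 2 ∣ Nat.card Q := by
    intro h2
    haveI : Fact (Nat.Prime 2) := ⟨Nat.prime_two⟩
    obtain ⟨t, ht⟩ := exists_prime_orderOf_dvd_card' 2 h2
    obtain ⟨t₀, ht₀Q⟩ := t
    have ht' : orderOf t₀ = 2 := by rw [← Subgroup.orderOf_mk t₀ ht₀Q, ht]
    have hinvol : ∀ x : G ⧸ H, orderOf x = 2 → x * x = 1 ∧ x ≠ 1 := by
      intro x hx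
      constructor
      · rw [← sq, ← hx, pow_orderOf_eq_one]
      · rintro rfl
        rw [orderOf_one] at hx
        omega
    set t₁ : G ⧸ H := c₀ * t₀ * c₀⁻¹ with ht₁
    have ht₁Q : t₁ ∈ Q := hQn.conj_mem _ ht₀Q _
    have ht₁' : orderOf t₁ = 2 := by
      rw [← ht']
      exact orderOf_injective (MulAut.conj c₀).toMonoidHom (MulAut.conj c₀).injective t₀
    obtain ⟨h01, h02⟩ := hinvol t₀ ht'
    obtain ⟨h11, h12⟩ := hinvol t₁ ht₁'
    have hHtop : ∀ x : G, x ∈ Subgroup.normalizer (H : Set G) := by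
      intro x
      rw [Subgroup.normalizer_eq_top_iff.mpr hHn]
      trivial
    have inv0 : ∀ h ∈ H, s t₀ * h * (s t₀)⁻¹ = h⁻¹ := fun h hh =>
      Even.inverts_of_fpf_involution (hHtop _) (by rw [← map_mul, h01, map_one])
        (fun k hk hcomm => hfQ t₀ ht₀Q h02 k hk hcomm) hh
    have inv1 : ∀ h ∈ H, s t₁ * h * (s t₁)⁻¹ = h⁻¹ := fun h hh =>
      Even.inverts_of_fpf_involution (hHtop _) (by rw [← map_mul, h11, map_one])
        (fun k hk hcomm => hfQ t₁ ht₁Q h12 k hk hcomm) hh
    have hcomm : ∀ h ∈ H, s (t₀ * t₁) * h = h * s (t₀ * t₁) := by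
      intro h hh
      have h1 := inv1 h hh
      have h2 := inv0 (h⁻¹) (H.inv_mem hh)
      rw [map_mul]
      calc s t₀ * s t₁ * h = s t₀ * (s t₁ * h * (s t₁)⁻¹) * s t₁ := by group
        _ = s t₀ * h⁻¹ * s t₁ := by rw [h1]
        _ = (s t₀ * h⁻¹ * (s t₀)⁻¹) * (s t₀ * s t₁) := by group
        _ = h * (s t₀ * s t₁) := by rw [h2, inv_inv]
    have h3 : t₀ * t₁ = 1 := by
      by_contra hne
      obtain ⟨⟨h, hh⟩, hh1⟩ := Subgroup.ne_bot_iff_exists_ne_one.mp hH1
      have hh1' : h ≠ 1 := fun h0 => hh1 (Subtype.ext h0)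
      exact hh1' (hfQ _ (Q.mul_mem ht₀Q ht₁Q) hne h hh (hcomm h hh))
    have h4 : t₁ = t₀ := by
      have h5 : t₀ * t₁ = t₀ * t₀ := by rw [h3, h01]
      exact mul_left_cancel h5
    have h5 : c₀ * t₀ = t₀ * c₀ := by
      have h6 : c₀ * t₀ * c₀⁻¹ = t₀ := h4
      calc c₀ * t₀ = (c₀ * t₀ * c₀⁻¹) * c₀ := by group
        _ = t₀ * c₀ := by rw [h6]
    exact h02 (hf₂ c₀ hc₀ hc₀1' t₀ ht₀Q h5)
  -- `Q` is cyclic
  have hsQinj : Function.Injective (s.comp Q.subtype) := hsinj.comp Q.subtype_injective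
  haveI hzQ : IsZGroup Q := by
    refine ⟨fun p hp P => ?_⟩
    haveI : Fact p.Prime := ⟨hp⟩
    let P' : Subgroup G := (P : Subgroup Q).map (s.comp Q.subtype)
    have hP' : IsPGroup p P' := P.2.map (s.comp Q.subtype)
    have hPH : P' ≤ Subgroup.normalizer (H : Set G) := by
      rw [Subgroup.normalizer_eq_top_iff.mpr hHn]
      exact le_top
    have hfpf : ∀ a ∈ P', a ≠ 1 → ∀ v ∈ H, a * v = v * a → v = 1 := by
      rintro _ ⟨x, -, rfl⟩ ha v hv hc
      refine hfQ x x.2 ?_ v hv hc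
      intro h0
      apply ha
      change s (x : G ⧸ H) = 1
      rw [h0, map_one]
    have hPiso : (P : Subgroup Q) ≃* P' :=
      (P : Subgroup Q).equivMapOfInjective _ hsQinj
    rcases SylowFpf.isCyclic_or_quaternion_of_fpf hH1 hPH hfpf hP' with h1 | ⟨h1, -⟩
    · exact isCyclic_of_injective hPiso.toMonoidHom hPiso.injective
    · obtain ⟨k, hk⟩ := IsPGroup.iff_card.mp P.2
      have hk0 : k = 0 := by
        by_contra hk0
        apply hodd
        have h2 : p ∣ Nat.card (P : Subgroup Q) := by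
          rw [hk]
          exact dvd_pow_self p hk0
        have h3 : p ∣ Nat.card Q := h2.trans (Subgroup.card_subgroup_dvd_card _)
        rw [h1] at h3
        exact h3
      rw [hk0, pow_zero] at hk
      haveI : Subsingleton (P : Subgroup Q) := (Nat.card_eq_one_iff_unique.mp hk).1
      exact isCyclic_of_subsingleton
  haveI hcycQ : IsCyclic Q := inferInstance
  -- `C₂` is cyclic
  haveI hnt : Nontrivial Q := (Subgroup.bot_or_nontrivial Q).resolve_left hQ1
  have hcycC₂ : IsCyclic C₂ := by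
    obtain ⟨r, hr, hrd⟩ := Nat.exists_prime_and_dvd (Finite.one_lt_card (α := Q)).ne'
    haveI : Fact r.Prime := ⟨hr⟩
    obtain ⟨m, hm⟩ := exists_prime_orderOf_dvd_card' r hrd
    have hm' : orderOf (m : G ⧸ H) = r := by rw [Subgroup.orderOf_coe, hm]
    have hconj : ∀ t : G ⧸ H, t * (m : G ⧸ H) * t⁻¹ ∈ Subgroup.zpowers (m : G ⧸ H) := by
      intro t
      let m₁ : Q := ⟨t * m * t⁻¹, hQn.conj_mem _ m.2 t⟩
      have h1 : orderOf m₁ = orderOf m := by
        rw [← Subgroup.orderOf_coe, ← Subgroup.orderOf_coe]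
        exact orderOf_injective (MulAut.conj t).toMonoidHom (MulAut.conj t).injective (m : G ⧸ H)
      obtain ⟨i, hi⟩ := Center.mem_zpowers_of_orderOf_eq h1
      refine ⟨i, ?_⟩
      have := congrArg Subtype.val hi
      simpa using this
    haveI hMn : (Subgroup.zpowers (m : G ⧸ H)).Normal := by
      constructor
      rintro _ ⟨j, rfl⟩ t
      obtain ⟨i, hi⟩ := hconj t
      refine ⟨i * j, ?_⟩
      change (m : G ⧸ H) ^ (i * j) = t * ((m : G ⧸ H) ^ j) * t⁻¹
      rw [← conj_zpow, zpow_mul]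
      congr 1
    let φ : C₂ →* MulAut (Subgroup.zpowers (m : G ⧸ H)) := (MulAut.conjNormal).comp C₂.subtype
    have hφ : Function.Injective φ := by
      rw [injective_iff_map_eq_one]
      intro c hc
      by_contra hc1
      have hmm : (m : G ⧸ H) ∈ Subgroup.zpowers (m : G ⧸ H) := Subgroup.mem_zpowers _
      have h1 : (φ c) ⟨m, hmm⟩ = ⟨m, hmm⟩ := by rw [hc]; rfl
      have h2 : (c : G ⧸ H) * m * (c : G ⧸ H)⁻¹ = m := by
        have := congrArg Subtype.val h1
        simpa [φ, MulAut.conjNormal_apply] using this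
      have h3 : (c : G ⧸ H) * m = m * (c : G ⧸ H) := by
        calc (c : G ⧸ H) * m = ((c : G ⧸ H) * m * (c : G ⧸ H)⁻¹) * c := by group
          _ = m * (c : G ⧸ H) := by rw [h2]
      have h4 := hf₂ c c.2 (fun h0 => hc1 (Subtype.ext h0)) m m.2 h3
      rw [h4, orderOf_one] at hm'
      exact hr.ne_one hm'.symm
    have hcard : Nat.card (Subgroup.zpowers (m : G ⧸ H)) = r := by
      rw [Nat.card_zpowers, hm']
    haveI : Fact (Nat.card (Subgroup.zpowers (m : G ⧸ H))).Prime := ⟨by rw [hcard]; exact hr⟩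
    let e := IsCyclic.mulAutMulEquiv (Subgroup.zpowers (m : G ⧸ H))
    exact isCyclic_of_injective (e.toMonoidHom.comp φ) (e.injective.comp hφ)
  -- `G/K` is cyclic
  have hcycGK : IsCyclic (G ⧸ K) := by
    let ψ : C₂ →* G ⧸ K := (QuotientGroup.mk' K).comp (s.comp C₂.subtype)
    have hψ : Function.Surjective ψ := by
      intro x
      obtain ⟨g, rfl⟩ := QuotientGroup.mk'_surjective K x
      have h1 : QuotientGroup.mk' H g ∈ Q ⊔ C₂ := by
        rw [hc₂.sup_eq_top]
        trivial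
      obtain ⟨y, hy, c, hc, hyc⟩ := Subgroup.mem_sup_of_normal_left.mp h1
      refine ⟨⟨c, hc⟩, ?_⟩
      change QuotientGroup.mk' K (s c) = QuotientGroup.mk' K g
      have h2 : QuotientGroup.mk' H ((s c)⁻¹ * g) = c⁻¹ * y * c := by
        rw [map_mul, map_inv, hsproj, ← hyc]
        group
      have h3 : (s c)⁻¹ * g ∈ K := by
        apply hmemQ
        rw [h2]
        exact hQn.conj_mem' _ hy _
      exact QuotientGroup.eq.mpr h3
    exact isCyclic_of_surjective ψ hψ
  -- solvable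
  have hsolG : Group.IsSolvable G := by
    haveI hs1 : Group.IsSolvable (G ⧸ K) :=
      Group.isSolvable_of_comm (fun a b => (IsCyclic.isMulCommutative (α := G ⧸ K)).is_comm.comm a b)
    let g₃ : G ⧸ H →* G ⧸ K := QuotientGroup.map H K (MonoidHom.id G) hHK
    haveI hs2 : Group.IsSolvable Q := inferInstance
    haveI hs3 : Group.IsSolvable (G ⧸ H) := by
      refine Group.isSolvable_of_ker_le_range Q.subtype g₃ ?_
      intro x hx
      obtain ⟨g, rfl⟩ := QuotientGroup.mk'_surjective H x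
      have h1 : QuotientGroup.mk' K g = 1 := hx
      have h2 : g ∈ K := (QuotientGroup.eq_one_iff g).mp h1
      exact ⟨⟨_, ⟨g, h2, rfl⟩⟩, rfl⟩
    haveI hs4 : Group.IsSolvable H := inferInstance
    refine Group.isSolvable_of_ker_le_range H.subtype (QuotientGroup.mk' H) ?_
    rw [QuotientGroup.ker_mk', Subgroup.range_subtype]
  refine ⟨hsolG, ?_, ?_, hcycGK, ?_⟩
  · rw [hcQ]
    exact Nat.not_even_iff_odd.mp (fun h => hodd (even_iff_two_dvd.mp h))
  · rw [hcQ, ← hC₂card]
    exact Nat.Coprime.mul_right hcopHQ.symm hcop₂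
  · intro p q hp hq hpq hpG hqG
    rw [hcQ]
    -- the fixed point lemma
    have mixed : ∀ p q : ℕ, p.Prime → q.Prime → p ≠ q → p ∣ Nat.card H → q ∣ Nat.card C₂ →
        ∃ g : G, orderOf g = p * q := by
      intro p q hp hq hpq hpH hqC
      haveI : Fact p.Prime := ⟨hp⟩
      haveI : Fact q.Prime := ⟨hq⟩
      obtain ⟨c, hc⟩ := exists_prime_orderOf_dvd_card' q hqC
      have hc' : orderOf (c : G ⧸ H) = q := by rw [Subgroup.orderOf_coe, hc]
      have hd' : orderOf (s c) = q := by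
        rw [← hc']
        exact orderOf_injective s hsinj _
      let S : Sylow p H := default
      have hSn : (S : Subgroup H).Normal :=
        Sylow.normal_of_normalizerCondition (Group.normalizerCondition_of_isNilpotent (G := H)) S
      haveI hSc : (S : Subgroup H).Characteristic := Sylow.characteristic_of_normal S hSn
      let P₀ : Subgroup G := (S : Subgroup H).map H.subtype
      haveI hP₀n : P₀.Normal := inferInstanceAs ((S : Subgroup H).map H.subtype).Normal
      have hP₀p : IsPGroup p P₀ := S.2.map H.subtype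
      have hP₀H : P₀ ≤ H := by
        rintro _ ⟨x, -, rfl⟩
        exact x.2
      have hP₀d : p ∣ Nat.card P₀ := by
        have h1 : Nat.card P₀ = Nat.card S := Subgroup.card_map_of_injective H.subtype_injective
        rw [h1]
        exact S.dvd_card_of_dvd_card hpH
      haveI hP₀nt : Nontrivial P₀ := by
        rw [← Finite.one_lt_card_iff_nontrivial]
        exact lt_of_lt_of_le hp.one_lt (Nat.le_of_dvd Nat.card_pos hP₀d)
      let V : Subgroup G := (Subgroup.center P₀).map P₀.subtype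
      haveI hVn : V.Normal := inferInstanceAs ((Subgroup.center P₀).map P₀.subtype).Normal
      have hVP : V ≤ P₀ := by
        rintro _ ⟨x, -, rfl⟩
        exact x.2
      have hVab : IsMulCommutative V := by
        refine ⟨⟨?_⟩⟩
        rintro ⟨_, x, hx, rfl⟩ ⟨_, y, hy, rfl⟩
        apply Subtype.ext
        have : x * y = y * x := (Subgroup.mem_center_iff.mp hx y).symm
        change (x : G) * (y : G) = (y : G) * (x : G)
        exact congrArg Subtype.val this
      have hV1 : V ≠ ⊥ := by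
        haveI := hP₀p.center_nontrivial
        obtain ⟨⟨z, hz⟩, hz1⟩ := exists_ne (1 : Subgroup.center P₀)
        intro h0
        have h1 : (z : G) ∈ V := ⟨z, hz, rfl⟩
        rw [h0, Subgroup.mem_bot] at h1
        exact hz1 (Subtype.ext (Subtype.ext h1))
      let W : Subgroup G := Q.map s
      have hWcard : Nat.card W = Nat.card Q := Subgroup.card_map_of_injective hsinj
      have hW1 : W ≠ ⊥ := by
        intro h0
        rw [h0, Subgroup.card_bot] at hWcard
        exact hQ1 (Subgroup.card_eq_one.mp hWcard.symm)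
      have hWmem : ∀ w ∈ W, ∃ x ∈ Q, s x = w := fun w hw => hw
      have hzmem : ∀ e ∈ Subgroup.zpowers (s c), ∃ y ∈ C₂, s y = e := by
        rintro _ ⟨i, rfl⟩
        exact ⟨(c : G ⧸ H) ^ i, C₂.zpow_mem c.2 i, by simp⟩
      have hd : s c ∈ Subgroup.normalizer (W : Set G) := by
        apply Three.mem_normalizer_of_conj_mem
        rintro _ ⟨x, hx, rfl⟩
        refine ⟨(c : G ⧸ H) * x * (c : G ⧸ H)⁻¹, hQn.conj_mem _ hx _, ?_⟩
        simp
      have h1 : W ⊓ Subgroup.zpowers (s c) = ⊥ := by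
        rw [eq_bot_iff]
        rintro e ⟨he1, he2⟩
        obtain ⟨x, hx, rfl⟩ := hWmem e he1
        obtain ⟨y, hy, hyx⟩ := hzmem _ he2
        have hxy : y = x := hsinj hyx
        subst hxy
        have := hc₂.disjoint.le_bot (Subgroup.mem_inf.mpr ⟨hx, hy⟩)
        rw [Subgroup.mem_bot] at this
        rw [this, map_one]
        exact Subgroup.one_mem _
      have h2 : ∀ e ∈ Subgroup.zpowers (s c), e ≠ 1 → ∀ w ∈ W, e * w = w * e → w = 1 := by
        intro e he he1 w hw hew
        obtain ⟨y, hy, rfl⟩ := hzmem e he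
        obtain ⟨x, hx, rfl⟩ := hWmem w hw
        have hy1 : y ≠ 1 := by
          rintro rfl
          exact he1 (map_one s)
        have h3 : y * x = x * y := hsinj (by rw [map_mul, map_mul, hew])
        rw [hf₂ y hy hy1 x hx h3, map_one]
      have h3 : ∀ w ∈ W, w ≠ 1 → ∀ v ∈ V, w * v = v * w → v = 1 := by
        intro w hw hw1 v hv hwv
        obtain ⟨x, hx, rfl⟩ := hWmem w hw
        have hx1 : x ≠ 1 := by
          rintro rfl
          exact hw1 (map_one s)
        exact hfQ x hx hx1 v (hP₀H (hVP hv)) hwv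
      have h4 : (Nat.card V).Coprime (Nat.card W) := by
        rw [hWcard]
        exact Nat.Coprime.coprime_dvd_left (Subgroup.card_dvd_of_le (hVP.trans hP₀H)) hcopHQ
      have hd1 : s c ≠ 1 := by
        intro h0
        rw [h0, orderOf_one] at hd'
        exact hq.ne_one hd'.symm
      obtain ⟨v, hvV, hv1, hvc⟩ := exists_fixed V W hVab hV1 hW1 (s c) hd h1 h2 h3 h4 hd1
      obtain ⟨k, hk⟩ := (IsPGroup.iff_orderOf.mp hP₀p) ⟨v, hVP hvV⟩
      have hvo : orderOf v = p ^ k := by
        rw [← Subgroup.orderOf_mk v (hVP hvV)]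
        exact hk
      have hk0 : k ≠ 0 := by
        rintro rfl
        rw [pow_zero, orderOf_eq_one_iff] at hvo
        exact hv1 hvo
      have hpv : p ∣ orderOf v := by
        rw [hvo]
        exact dvd_pow_self p hk0
      have hw : orderOf (v ^ (orderOf v / p)) = p :=
        orderOf_pow_orderOf_div (orderOf_pos v).ne' hpv
      have hcomm : Commute (v ^ (orderOf v / p)) (s c) :=
        Commute.pow_left (Commute.symm hvc) _
      refine ⟨v ^ (orderOf v / p) * s c, ?_⟩
      rw [hcomm.orderOf_mul_eq_mul_orderOf_of_coprime (by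
        rw [hw, hd']; exact (Nat.coprime_primes hp hq).mpr hpq), hw, hd']
    have key : ∀ p q : ℕ, p.Prime → q.Prime → p ≠ q → ∀ g : G, orderOf g = p * q →
        p ∣ Nat.card Q → q ∣ Nat.card Q := by
      intro p q hp hq hpq g hg hpQ
      by_contra hqQ
      have hpo : p ∣ orderOf g := by rw [hg]; exact dvd_mul_right p q
      have hqo : q ∣ orderOf g := by rw [hg]; exact dvd_mul_left q p
      set x := g ^ (orderOf g / p) with hx
      set y := g ^ (orderOf g / q) with hy
      have hxo : orderOf x = p := orderOf_pow_orderOf_div (orderOf_pos g).ne' hpo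
      have hyo : orderOf y = q := orderOf_pow_orderOf_div (orderOf_pos g).ne' hqo
      have hxy : x * y = y * x := (Commute.refl g).pow_pow _ _
      have hcopK : (Nat.card (Subgroup.zpowers x)).Coprime K.index := by
        rw [Nat.card_zpowers, hxo, Subgroup.index_eq_card, ← hC₂card]
        exact Nat.Coprime.coprime_dvd_left hpQ hcop₂
      have hxK : x ∈ K := Basic.le_of_coprime_index hcopK (Subgroup.mem_zpowers x)
      have hxH : x ∉ H := by
        intro hxH
        have h1 : p ∣ Nat.card H := by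
          rw [← hxo]
          exact Subgroup.orderOf_dvd_natCard H hxH
        have h2 := Nat.dvd_gcd h1 hpQ
        rw [hcopHQ.gcd_eq_one] at h2
        exact hp.one_lt.ne' (Nat.dvd_one.mp h2)
      have hxb : QuotientGroup.mk' H x ∈ Q := ⟨x, hxK, rfl⟩
      have hxb1 : QuotientGroup.mk' H x ≠ 1 := fun h0 => hxH ((QuotientGroup.eq_one_iff x).mp h0)
      have hyK : y ∈ K := by
        apply hmemQ
        apply Partition.mem_of_commute_kernel hc₂ hf₂ hxb hxb1
        rw [← map_mul, ← map_mul, hxy]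
      have hcopH : (Nat.card (Subgroup.zpowers (⟨y, hyK⟩ : K))).Coprime H'.index := by
        rw [Nat.card_zpowers, Subgroup.orderOf_mk, hyo, Subgroup.index_eq_card, hcQ]
        exact (Nat.Prime.coprime_iff_not_dvd hq).mpr hqQ
      have hyH : (⟨y, hyK⟩ : K) ∈ H' := Basic.le_of_coprime_index hcopH (Subgroup.mem_zpowers _)
      have hy1 : (⟨y, hyK⟩ : K) ≠ 1 := by
        intro h0
        have h1 : y = 1 := congrArg Subtype.val h0
        rw [h1, orderOf_one] at hyo
        exact hq.ne_one hyo.symm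
      have hxH' : (⟨x, hxK⟩ : K) ∈ H' :=
        Partition.mem_of_commute_kernel hc₁ hf₁ hyH hy1 (Subtype.ext hxy)
      exact hxH hxH'
    constructor
    · rintro ⟨g, hg⟩
      exact ⟨key p q hp hq hpq g hg, key q p hq hp hpq.symm g (by rw [hg, mul_comm])⟩
    · intro hiff
      by_cases hpQ : p ∣ Nat.card Q
      · obtain ⟨x, hx⟩ := exists_mul_of_cyclic hp hq hpq hpQ (hiff.mp hpQ)
        refine ⟨s.comp Q.subtype x, ?_⟩
        rw [← hx]
        exact orderOf_injective _ hsQinj x
      · have hqQ : ¬ q ∣ Nat.card Q := fun h => hpQ (hiff.mpr h)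
        have hsplit : ∀ r : ℕ, r.Prime → r ∣ Nat.card G → ¬ r ∣ Nat.card Q →
            r ∣ Nat.card H ∨ r ∣ Nat.card C₂ := by
          intro r hr hrG hrQ
          rw [hGcard] at hrG
          rcases (Nat.Prime.dvd_mul hr).mp hrG with h1 | h1
          · exact Or.inl h1
          · rcases (Nat.Prime.dvd_mul hr).mp h1 with h2 | h2
            · exact absurd h2 hrQ
            · exact Or.inr h2
        rcases hsplit p hp hpG hpQ with h1 | h1 <;> rcases hsplit q hq hqG hqQ with h2 | h2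
        · obtain ⟨x, hx⟩ := exists_mul_of_nilpotent hnilH hp hq hpq h1 h2
          exact ⟨x, by rw [← hx, Subgroup.orderOf_coe]⟩
        · exact mixed p q hp hq hpq h1 h2
        · obtain ⟨g, hg⟩ := mixed q p hq hp hpq.symm h2 h1
          exact ⟨g, by rw [hg, mul_comm]⟩
        · obtain ⟨x, hx⟩ := exists_mul_of_cyclic hp hq hpq h1 h2
          refine ⟨s.comp C₂.subtype x, ?_⟩
          rw [← hx]
          have hinj : Function.Injective (s.comp C₂.subtype) := hsinj.comp C₂.subtype_injective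
          exact orderOf_injective _ hinj x

end Cfsg.Agent.Lib.Coprime.TwoFrob
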