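import Mathlib

/-!
# Metacyclic presentation of Z-groups

A finite group with cyclic Sylow subgroups is `⟨x, y | x^n, y^m, x⁻¹ y x = y^r⟩` with
`gcd(r - 1, m) = gcd(n, m) = 1`. If moreover subgroups of order `pq` are cyclic, then
`r^(n / rad n) ≡ 1 (mod m)`.
-/

set_option autoImplicit false
set_option linter.style.longLine false
set_option linter.unusedSectionVars false
set_option linter.style.haveILetI false

namespace Cfsg.Agent.Lib.Coprime.ZGroupPres

open Subgroup

/-- The relators of the metacyclic presentation. -/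
abbrev rels (n m r : ℕ) : Set (FreeGroup (Fin 2)) :=
  {FreeGroup.of (0 : Fin 2) ^ n, FreeGroup.of (1 : Fin 2) ^ m,
    (FreeGroup.of (0 : Fin 2))⁻¹ * FreeGroup.of 1 * FreeGroup.of 0 * (FreeGroup.of (1 : Fin 2) ^ r)⁻¹}

variable {n m r : ℕ}

theorem X_pow : (PresentedGroup.of 0 : PresentedGroup (rels n m r)) ^ n = 1 := by
  have h := PresentedGroup.one_of_mem (rels := rels n m r) (x := FreeGroup.of (0 : Fin 2) ^ n)
    (by simp [rels])
  rw [map_pow] at h
  exact h

theorem Y_pow : (PresentedGroup.of 1 : PresentedGroup (rels n m r)) ^ m = 1 := by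
  have h := PresentedGroup.one_of_mem (rels := rels n m r) (x := FreeGroup.of (1 : Fin 2) ^ m)
    (by simp [rels])
  rw [map_pow] at h
  exact h

theorem X_conj : (PresentedGroup.of 0 : PresentedGroup (rels n m r))⁻¹ * PresentedGroup.of 1 *
    PresentedGroup.of 0 = PresentedGroup.of 1 ^ r := by
  have h := PresentedGroup.one_of_mem (rels := rels n m r)
    (x := (FreeGroup.of (0 : Fin 2))⁻¹ * FreeGroup.of 1 * FreeGroup.of 0 * (FreeGroup.of (1 : Fin 2) ^ r)⁻¹)
    (by simp [rels])
  simp only [map_mul, map_inv, map_pow] at h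
  exact mul_inv_eq_one.mp h

/-- The presented group has at most `n * m` elements. -/
theorem card_le (hn : 0 < n) (hm : 0 < m) (hr : Nat.Coprime r m) :
    Nat.card (PresentedGroup (rels n m r)) ≠ 0 ∧ Nat.card (PresentedGroup (rels n m r)) ≤ n * m := by
  classical
  set X : PresentedGroup (rels n m r) := PresentedGroup.of 0 with hX
  set Y : PresentedGroup (rels n m r) := PresentedGroup.of 1 with hY
  have hXn : X ^ n = 1 := X_pow
  have hYm : Y ^ m = 1 := Y_pow
  have hXY : X⁻¹ * Y * X = Y ^ r := X_conj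
  have hoY : orderOf Y ∣ m := orderOf_dvd_of_pow_eq_one hYm
  have hcop : Nat.Coprime r (orderOf Y) := Nat.Coprime.coprime_dvd_right hoY hr
  have hYr : Y ∈ zpowers (Y ^ r) := by
    have hg := Nat.gcd_eq_gcd_ab r (orderOf Y)
    rw [hcop] at hg
    refine ⟨Nat.gcdA r (orderOf Y), ?_⟩
    show (Y ^ r) ^ (Nat.gcdA r (orderOf Y)) = Y
    have h1 : (r : ℤ) * Nat.gcdA r (orderOf Y) = 1 - (orderOf Y : ℤ) * Nat.gcdB r (orderOf Y) := by
      push_cast at hg
      linarith
    rw [← zpow_natCast, ← zpow_mul, h1, zpow_sub, zpow_one, zpow_mul, zpow_natCast,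
      pow_orderOf_eq_one, one_zpow, inv_one, mul_one]
  set W : Subgroup (PresentedGroup (rels n m r)) := zpowers Y with hW
  have hconj : ∀ k : ℤ, X⁻¹ * Y ^ k * X = (Y ^ r) ^ k := by
    intro k
    rw [← hXY]
    have := conj_zpow (a := X⁻¹) (b := Y) (i := k)
    simpa using this.symm
  have hXn' : X⁻¹ ∈ normalizer (W : Set (PresentedGroup (rels n m r))) := by
    rw [mem_normalizer_iff]
    intro h
    constructor
    · rintro ⟨k, rfl⟩
      show X⁻¹ * (Y ^ k) * X⁻¹⁻¹ ∈ W
      rw [inv_inv, hconj]
      exact zpow_mem (pow_mem (mem_zpowers Y) r) k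
    · intro hh
      rw [inv_inv] at hh
      obtain ⟨j, hj⟩ := mem_zpowers_iff.mp hh
      obtain ⟨a, ha⟩ := mem_zpowers_iff.mp hYr
      have h2 : X⁻¹ * h * X = X⁻¹ * Y ^ (a * j) * X := by
        rw [hconj, ← hj]
        conv_lhs => rw [← ha]
        rw [zpow_mul]
      have h3 : h = Y ^ (a * j) := by
        have := mul_right_cancel h2
        exact mul_left_cancel this
      rw [h3]
      exact zpow_mem (mem_zpowers Y) _
  have hnorm : ∀ g : PresentedGroup (rels n m r), g ∈ normalizer (W : Set (PresentedGroup (rels n m r))) := by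
    apply PresentedGroup.generated_by
    intro j
    fin_cases j
    · have := inv_mem hXn'
      simpa using this
    · exact le_normalizer (mem_zpowers Y)
  haveI hWn : W.Normal := normalizer_eq_top_iff.mp (eq_top_iff.mpr fun g _ => hnorm g)
  set q := QuotientGroup.mk' W with hq
  have hZ : zpowers (q X) = ⊤ := by
    rw [eq_top_iff]
    rintro g -
    obtain ⟨p, rfl⟩ := QuotientGroup.mk'_surjective W g
    have : p ∈ (zpowers (q X)).comap q := by
      apply PresentedGroup.generated_by
      intro j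
      fin_cases j
      · exact mem_zpowers (q X)
      · show q Y ∈ zpowers (q X)
        have : q Y = 1 := (QuotientGroup.eq_one_iff Y).mpr (mem_zpowers Y)
        rw [this]
        exact one_mem _
    exact this
  have hcardq : W.index = orderOf (q X) := by
    have h1 : Nat.card (zpowers (q X)) = orderOf (q X) := Nat.card_zpowers (q X)
    rw [hZ, Subgroup.card_top] at h1
    exact h1
  have hoX : orderOf (q X) ∣ n := orderOf_dvd_of_pow_eq_one (by rw [← map_pow, hXn, map_one])
  have hcardW : Nat.card W = orderOf Y := Nat.card_zpowers Y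
  have hmul : Nat.card W * W.index = Nat.card (PresentedGroup (rels n m r)) := Subgroup.card_mul_index W
  rw [← hmul, hcardW, hcardq]
  have h1 : 0 < orderOf Y := Nat.pos_of_dvd_of_pos hoY hm
  have h2 : 0 < orderOf (q X) := Nat.pos_of_dvd_of_pos hoX hn
  refine ⟨(Nat.mul_pos h1 h2).ne', ?_⟩
  calc orderOf Y * orderOf (q X) ≤ m * n := Nat.mul_le_mul (Nat.le_of_dvd hm hoY) (Nat.le_of_dvd hn hoX)
    _ = n * m := Nat.mul_comm m n

/-- A finite group generated by `x, y` with these relations and order at least `n * m` is the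
presented group. -/
theorem nonempty_equiv {N : Type*} [Group N] [Finite N] (x y : N) (hn : 0 < n) (hm : 0 < m)
    (hr : Nat.Coprime r m) (hx : x ^ n = 1) (hy : y ^ m = 1) (hxy : x⁻¹ * y * x = y ^ r)
    (hgen : closure ({x, y} : Set N) = ⊤) (hcard : n * m ≤ Nat.card N) :
    Nonempty (N ≃* PresentedGroup (rels n m r)) := by
  classical
  let f : Fin 2 → N := ![x, y]
  have hrel : ∀ w ∈ rels n m r, FreeGroup.lift f w = 1 := by
    intro w hw
    rcases hw with rfl | rfl | rfl
    · simpa [f] using hx
    · simpa [f] using hy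
    · simp only [map_mul, map_inv, map_pow, FreeGroup.lift_apply_of]
      show (f 0)⁻¹ * f 1 * f 0 * (f 1 ^ r)⁻¹ = 1
      have h0 : f 0 = x := rfl
      have h1 : f 1 = y := rfl
      rw [h0, h1, hxy]
      exact mul_inv_cancel _
  let φ : PresentedGroup (rels n m r) →* N := PresentedGroup.toGroup hrel
  have hsurj : Function.Surjective φ := by
    rw [← MonoidHom.range_eq_top, eq_top_iff, ← hgen, closure_le]
    rintro g (rfl | rfl)
    · exact ⟨PresentedGroup.of 0, PresentedGroup.toGroup.of hrel⟩
    · exact ⟨PresentedGroup.of 1, PresentedGroup.toGroup.of hrel⟩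
  obtain ⟨h0, hle⟩ := card_le (n := n) (m := m) (r := r) hn hm hr
  haveI : Finite (PresentedGroup (rels n m r)) := Nat.finite_of_card_ne_zero h0
  have hbij : Function.Bijective φ := by
    refine (Function.Surjective.bijective_of_nat_card_le hsurj (hle.trans hcard))
  exact ⟨(MulEquiv.ofBijective φ hbij).symm⟩

/-- Passing to a quotient: if two generators commute modulo `E` then `N' ≤ E`. -/
theorem commutator_le_of_gen {N : Type*} [Group N] (E : Subgroup N) [E.Normal] {x y : N}
    (hgen : closure ({x, y} : Set N) = ⊤) (h : QuotientGroup.mk' E x * QuotientGroup.mk' E y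
      = QuotientGroup.mk' E y * QuotientGroup.mk' E x) : commutator N ≤ E := by
  classical
  set q := QuotientGroup.mk' E with hq
  have hcomm : ∀ a ∈ ({q x, q y} : Set (N ⧸ E)), ∀ b ∈ ({q x, q y} : Set (N ⧸ E)), a * b = b * a := by
    rintro a (rfl | rfl) b (rfl | rfl)
    · rfl
    · exact h
    · exact h.symm
    · rfl
  have hC := isMulCommutative_closure hcomm
  have hmem : ∀ g : N, q g ∈ closure ({q x, q y} : Set (N ⧸ E)) := by
    intro g
    have hg : g ∈ closure ({x, y} : Set N) := by rw [hgen]; trivial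
    have : g ∈ (closure ({q x, q y} : Set (N ⧸ E))).comap q := by
      refine (closure_le _).mpr ?_ hg
      rintro a (rfl | rfl)
      · exact subset_closure (Set.mem_insert _ _)
      · exact subset_closure (Set.mem_insert_of_mem _ rfl)
    exact this
  rw [commutator_def, Subgroup.commutator_le]
  intro a _ b _
  rw [← QuotientGroup.eq_one_iff]
  have h1 := hC.is_comm.comm ⟨q a, hmem a⟩ ⟨q b, hmem b⟩
  have h2 : q a * q b = q b * q a := congrArg Subtype.val h1
  show q (a * b * a⁻¹ * b⁻¹) = 1
  rw [map_mul, map_mul, map_mul, map_inv, map_inv, h2]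
  group

/-- An arithmetic lemma. If `m ∣ R^p - 1`, `p` is prime to `m` and every prime divisor of `m`
divides `R - 1`, then `m ∣ R - 1`. -/
theorem modEq_of_pow {R p : ℕ} (hp : p.Prime) (hcop : Nat.Coprime p m)
    (h1 : R ^ p ≡ 1 [MOD m]) (h2 : ∀ q : ℕ, q.Prime → q ∣ m → R ≡ 1 [MOD q]) : R ≡ 1 [MOD m] := by
  classical
  have hR : 1 ≤ R ∨ m = 1 := by
    rcases Nat.eq_zero_or_pos R with rfl | h
    · right
      rw [zero_pow hp.ne_zero] at h1
      have : (0 : ℕ) ≡ 1 [MOD m] := h1
      have h3 : m ∣ 1 := (Nat.modEq_zero_iff_dvd.mp this.symm)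
      exact Nat.dvd_one.mp h3
    · exact Or.inl h
  rcases hR with hR | hm1
  swap
  · subst hm1
    exact Nat.modEq_one
  set S : ℕ := ∑ i ∈ Finset.range p, R ^ i with hS
  have hcopS : Nat.Coprime S m := by
    apply Nat.coprime_of_dvd
    intro q hq hqS hqm
    haveI := Fact.mk hq
    have h3 : ((R : ℕ) : ZMod q) = 1 := by
      have := (ZMod.natCast_eq_natCast_iff _ _ _).mpr (h2 q hq hqm)
      simpa using this
    have h4 : ((S : ℕ) : ZMod q) = p := by
      rw [hS]
      push_cast
      rw [h3]
      simp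
    have h5 : ((S : ℕ) : ZMod q) = 0 := (ZMod.natCast_eq_zero_iff _ _).mpr hqS
    have h6 : q ∣ p := by
      rw [← ZMod.natCast_eq_zero_iff, ← h4, h5]
    have h7 : q ∣ Nat.gcd p m := Nat.dvd_gcd h6 hqm
    rw [hcop] at h7
    exact hq.one_lt.ne' (Nat.dvd_one.mp h7)
  have h8 : ((R : ℤ) - 1) * (S : ℤ) = (R : ℤ) ^ p - 1 := by
    rw [hS]
    push_cast
    exact mul_geom_sum (R : ℤ) p
  have h9 : (m : ℤ) ∣ ((R : ℤ) - 1) * (S : ℤ) := by
    rw [h8]
    have := (Nat.modEq_iff_dvd.mp h1.symm)
    simpa using this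
  have h10 : IsCoprime (m : ℤ) (S : ℤ) := Nat.isCoprime_iff_coprime.mpr hcopS.symm
  have h11 : (m : ℤ) ∣ (R : ℤ) - 1 := h10.dvd_of_dvd_mul_right h9
  refine Nat.ModEq.symm (Nat.modEq_iff_dvd.mpr ?_)
  simpa using h11

/-- Arithmetic of the radical. -/
theorem dvd_div_rad {n o : ℕ} (hn : 0 < n) (ho : o ∣ n)
    (h : ∀ p ∈ n.primeFactors, o ∣ n / p) : o ∣ n / ∏ p ∈ n.primeFactors, p := by
  classical
  obtain ⟨u, hu⟩ := ho
  have ho0 : 0 < o := Nat.pos_of_ne_zero (by rintro rfl; simp at hu; omega)
  have hp : ∀ p ∈ n.primeFactors, p ∣ u := by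
    intro p hpn
    have hpp := Nat.prime_of_mem_primeFactors hpn
    have hpd := Nat.dvd_of_mem_primeFactors hpn
    obtain ⟨v, hv⟩ := h p hpn
    have h1 : n = o * v * p := by
      rw [← hv, Nat.div_mul_cancel hpd]
    have h2 : o * u = o * (v * p) := by
      rw [← hu, h1, mul_assoc]
    have h3 : u = v * p := Nat.eq_of_mul_eq_mul_left ho0 h2
    exact ⟨v, by rw [h3, mul_comm]⟩
  have hr : (∏ p ∈ n.primeFactors, p) ∣ u :=
    Finset.prod_primes_dvd u (fun p hpn => (Nat.prime_of_mem_primeFactors hpn).prime) hp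
  obtain ⟨w, hw⟩ := hr
  have hrpos : 0 < ∏ p ∈ n.primeFactors, p :=
    Finset.prod_pos fun p hpn => (Nat.prime_of_mem_primeFactors hpn).pos
  have h4 : n = (∏ p ∈ n.primeFactors, p) * (o * w) := by
    conv_lhs => rw [hu, hw]
    ring
  have h5 : n / ∏ p ∈ n.primeFactors, p = o * w := Nat.div_eq_of_eq_mul_right hrpos h4
  rw [h5]
  exact dvd_mul_right o w

/-- Conjugation formula. -/
theorem conj_pow_iter {N : Type*} [Group N] {x y : N} {r : ℕ} (h : x⁻¹ * y * x = y ^ r) (j : ℕ) :
    (x ^ j)⁻¹ * y * x ^ j = y ^ (r ^ j) := by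
  induction j with
  | zero => simp
  | succ j ih =>
    have h1 : (x ^ (j + 1))⁻¹ * y * x ^ (j + 1) = x⁻¹ * ((x ^ j)⁻¹ * y * x ^ j) * x := by
      rw [pow_succ]
      group
    rw [h1, ih]
    have h2 : x⁻¹ * y ^ (r ^ j) * x = (x⁻¹ * y * x) ^ (r ^ j) := by
      have := conj_pow (a := x⁻¹) (b := y) (i := r ^ j)
      simpa using this.symm
    rw [h2, h, ← pow_mul, pow_succ, mul_comm]

/-- **Structure of Z-groups.** Every finite group with cyclic Sylow subgroups in which elements of
distinct prime orders, one normalizing the other, commute has the metacyclic presentation. -/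
theorem exists_presentation {N : Type*} [Group N] [Finite N] [IsZGroup N]
    (hpq : ∀ {x y : N}, (orderOf x).Prime → (orderOf y).Prime → orderOf x ≠ orderOf y →
      y * x * y⁻¹ ∈ zpowers x → x * y = y * x) :
    ∃ n m r : ℕ, 0 < n ∧ 0 < m ∧ Nat.Coprime (r - 1) m ∧ Nat.Coprime n m ∧ 1 ≤ r ∧
      r ^ (n / ∏ p ∈ n.primeFactors, p) % m = 1 % m ∧
      Nonempty (N ≃* PresentedGroup (rels n m r)) := by
  classical
  have hcyc : IsCyclic (commutator N) := IsZGroup.isCyclic_commutator N
  have hcop : (Nat.card (commutator N)).Coprime (commutator N).index := IsZGroup.coprime_commutator_index N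
  obtain ⟨H, hH⟩ := exists_right_complement'_of_coprime hcop
  have hHc : IsCyclic H := by
    let f : H →* Abelianization N := Abelianization.of.comp H.subtype
    have hf : Function.Injective f := by
      rw [injective_iff_map_eq_one]
      intro a ha
      have h1 : (a : N) ∈ commutator N := by
        have : (QuotientGroup.mk (a : N) : N ⧸ commutator N) = 1 := ha
        exact (QuotientGroup.eq_one_iff _).mp this
      have h2 : (a : N) ∈ commutator N ⊓ H := ⟨h1, a.2⟩
      rw [hH.disjoint.eq_bot] at h2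
      exact Subtype.ext h2
    exact isCyclic_of_injective f hf
  obtain ⟨x₀, hx₀⟩ := IsCyclic.exists_generator (α := H)
  obtain ⟨y₀, hy₀⟩ := IsCyclic.exists_generator (α := commutator N)
  set x : N := (x₀ : N) with hxdef
  set y : N := (y₀ : N) with hydef
  have hHz : H = zpowers x := by
    apply le_antisymm
    · intro a ha
      obtain ⟨k, hk⟩ := mem_zpowers_iff.mp (hx₀ ⟨a, ha⟩)
      refine mem_zpowers_iff.mpr ⟨k, ?_⟩
      have := congrArg Subtype.val hk
      simpa using this
    · rw [zpowers_le]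
      exact x₀.2
  have hDz : commutator N = zpowers y := by
    apply le_antisymm
    · intro a ha
      obtain ⟨k, hk⟩ := mem_zpowers_iff.mp (hy₀ ⟨a, ha⟩)
      refine mem_zpowers_iff.mpr ⟨k, ?_⟩
      have := congrArg Subtype.val hk
      simpa using this
    · rw [zpowers_le]
      exact y₀.2
  have hn_eq : orderOf x = Nat.card H := by
    rw [hHz, Nat.card_zpowers]
  have hm_eq : orderOf y = Nat.card (commutator N) := by
    rw [hDz, Nat.card_zpowers]
  set n := Nat.card H with hndef
  set m := Nat.card (commutator N) with hmdef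
  have hn : 0 < n := Nat.card_pos
  have hm : 0 < m := Nat.card_pos
  have hcopnm : Nat.Coprime n m := by
    have h1 : (commutator N).index = n := hH.symm.index_eq_card
    rw [h1] at hcop
    exact hcop.symm
  have hxn : x ^ n = 1 := by rw [← hn_eq]; exact pow_orderOf_eq_one x
  have hym : y ^ m = 1 := by rw [← hm_eq]; exact pow_orderOf_eq_one y
  -- generation
  have hgen : closure ({x, y} : Set N) = ⊤ := by
    rw [eq_top_iff, ← hH.sup_eq_top, sup_le_iff, hDz, hHz, zpowers_le, zpowers_le]
    exact ⟨subset_closure (Set.mem_insert_of_mem _ rfl), subset_closure (Set.mem_insert _ _)⟩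
  -- the conjugation exponent
  have hnormal : ∀ g : N, g * y * g⁻¹ ∈ zpowers y := by
    intro g
    rw [← hDz]
    have hnn : (commutator N).Normal := inferInstance
    exact hnn.conj_mem y y₀.2 g
  obtain ⟨k, hk⟩ : ∃ k : ℕ, x⁻¹ * y * x = y ^ k := by
    have h1 := hnormal x⁻¹
    rw [inv_inv] at h1
    obtain ⟨c, hc⟩ := (mem_powers_iff_mem_zpowers).mpr h1
    exact ⟨c, hc.symm⟩
  set r := k + m with hrdef
  have hr1 : 1 ≤ r := by omega
  have hxy : x⁻¹ * y * x = y ^ r := by
    rw [hk, hrdef, pow_add, hym, mul_one]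
  have hiter := conj_pow_iter hxy
  -- `r^n ≡ 1`
  have hrn : r ^ n ≡ 1 [MOD m] := by
    have h1 := hiter n
    rw [hxn] at h1
    simp only [inv_one, one_mul, mul_one] at h1
    have h2 : y ^ (r ^ n) = y ^ 1 := by rw [← h1, pow_one]
    have h3 := (pow_inj_mod (x := y)).mp h2
    rw [hm_eq] at h3
    exact h3
  have hcoprm : Nat.Coprime r m := by
    have h1 : Nat.gcd (r ^ n) m = Nat.gcd 1 m := hrn.gcd_eq
    have h2 : Nat.Coprime (r ^ n) m := by
      rw [Nat.Coprime, h1]
      exact Nat.gcd_one_left m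
    exact Nat.Coprime.coprime_dvd_left (dvd_pow_self r hn.ne') h2
  -- `gcd(r - 1, m) = 1`
  have hcop1 : Nat.Coprime (r - 1) m := by
    set d := Nat.gcd (r - 1) m with hd
    have hdm : d ∣ m := Nat.gcd_dvd_right _ _
    have hdr : d ∣ r - 1 := Nat.gcd_dvd_left _ _
    let E : Subgroup N := zpowers (y ^ d)
    haveI hE : E.Normal := by
      refine ⟨fun z hz g => ?_⟩
      obtain ⟨u, rfl⟩ := mem_zpowers_iff.mp hz
      rw [← conj_zpow]
      apply zpow_mem
      rw [← conj_pow]
      obtain ⟨t, ht⟩ := mem_zpowers_iff.mp (hnormal g)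
      rw [← ht, ← zpow_natCast, ← zpow_mul, mul_comm, zpow_mul, zpow_natCast]
      exact zpow_mem (mem_zpowers _) _
    have hcomm : QuotientGroup.mk' E x * QuotientGroup.mk' E y = QuotientGroup.mk' E y * QuotientGroup.mk' E x := by
      have h1 : y ^ (r - 1) ∈ E := by
        obtain ⟨c, hc⟩ := hdr
        rw [hc, pow_mul]
        exact pow_mem (mem_zpowers _) _
      have h2 : QuotientGroup.mk' E (y ^ (r - 1)) = 1 := (QuotientGroup.eq_one_iff _).mpr h1
      have h3 : y ^ r = y * y ^ (r - 1) := by
        rw [← pow_succ', Nat.sub_add_cancel hr1]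
      have h4 : x * (x⁻¹ * y * x) = y * x := by group
      rw [hxy, h3] at h4
      have h5 := congrArg (QuotientGroup.mk' E) h4
      simp only [map_mul] at h5
      rw [h2, mul_one] at h5
      exact h5
    have hle : commutator N ≤ E := commutator_le_of_gen E hgen hcomm
    have hyE : y ∈ E := hle y₀.2
    obtain ⟨u, hu⟩ := mem_zpowers_iff.mp hyE
    have h6 : y ^ ((d : ℤ) * u - 1) = 1 := by
      rw [zpow_sub, zpow_one, zpow_mul, zpow_natCast, hu, mul_inv_cancel]
    have h7 : (m : ℤ) ∣ (d : ℤ) * u - 1 := by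
      rw [← hm_eq]
      exact orderOf_dvd_iff_zpow_eq_one.mpr h6
    have h8 : (d : ℤ) ∣ (d : ℤ) * u - 1 := (Int.natCast_dvd_natCast.mpr hdm).trans h7
    have h9 : (d : ℤ) ∣ 1 := by
      have := (Int.dvd_sub (dvd_mul_right (d : ℤ) u) h8)
      simpa using this
    have h10 : d = 1 := by
      have := Int.eq_one_of_dvd_one (by positivity) h9
      exact_mod_cast this
    exact h10
  -- the radical congruence
  have hrad : r ^ (n / ∏ p ∈ n.primeFactors, p) % m = 1 % m := by
    set a : ZMod m := (r : ZMod m) with ha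
    have han : a ^ n = 1 := by
      have := (ZMod.natCast_eq_natCast_iff _ _ _).mpr hrn
      simpa [ha] using this
    have hprime : ∀ p ∈ n.primeFactors, a ^ (n / p) = 1 := by
      intro p hp
      have hpp := Nat.prime_of_mem_primeFactors hp
      have hpd := Nat.dvd_of_mem_primeFactors hp
      haveI := Fact.mk hpp
      set R := r ^ (n / p) with hR
      set t := x ^ (n / p) with ht
      have hot : orderOf t = p := by
        rw [ht, ← hn_eq]
        exact orderOf_pow_orderOf_div (by rw [hn_eq]; exact hn.ne') (by rw [hn_eq]; exact hpd)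
      have htR : t⁻¹ * y * t = y ^ R := hiter (n / p)
      have hcopm : Nat.Coprime p m := Nat.Coprime.coprime_dvd_left hpd hcopnm
      have h1 : R ≡ 1 [MOD m] := by
        apply modEq_of_pow hpp hcopm
        · rw [hR, ← pow_mul, Nat.div_mul_cancel hpd]
          exact hrn
        · intro q hq hqm
          haveI := Fact.mk hq
          set w := y ^ (m / q) with hw
          have how : orderOf w = q := by
            rw [hw, ← hm_eq]
            exact orderOf_pow_orderOf_div (by rw [hm_eq]; exact hm.ne') (by rw [hm_eq]; exact hqm)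
          have hne : orderOf w ≠ orderOf t := by
            rw [how, hot]
            rintro rfl
            have h2 : q ∣ Nat.gcd q m := Nat.dvd_gcd dvd_rfl hqm
            rw [hcopm] at h2
            exact hq.one_lt.ne' (Nat.dvd_one.mp h2)
          have hnorm : t * w * t⁻¹ ∈ zpowers w := by
            rw [hw, ← conj_pow]
            obtain ⟨c, hc⟩ := mem_zpowers_iff.mp (hnormal t)
            have hcc : (y ^ c) ^ (m / q) = (y ^ (m / q)) ^ c := by
              rw [← zpow_natCast (y ^ c), ← zpow_mul, mul_comm, zpow_mul, zpow_natCast]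
            rw [← hc, hcc]
            exact zpow_mem (mem_zpowers _) _
          have hc : w * t = t * w := hpq (by rw [how]; exact hq) (by rw [hot]; exact hpp) hne hnorm
          have h3 : t⁻¹ * w * t = w := by
            rw [mul_assoc, hc]
            group
          have h4 : t⁻¹ * w * t = w ^ R := by
            have h5 : t⁻¹ * y ^ (m / q) * t = (t⁻¹ * y * t) ^ (m / q) := by
              have := conj_pow (a := t⁻¹) (b := y) (i := m / q)
              simpa using this.symm
            rw [hw, h5, htR, ← pow_mul, ← pow_mul, mul_comm]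
          have h6 : w ^ R = w ^ 1 := by rw [← h4, h3, pow_one]
          have h7 := (pow_inj_mod (x := w)).mp h6
          rw [how] at h7
          exact h7
      have := (ZMod.natCast_eq_natCast_iff _ _ _).mpr h1
      have h2 : ((r ^ (n / p) : ℕ) : ZMod m) = 1 := by simpa [hR] using this
      simpa [ha] using h2
    have ho : orderOf a ∣ n / ∏ p ∈ n.primeFactors, p := by
      apply dvd_div_rad hn (orderOf_dvd_of_pow_eq_one han)
      intro p hp
      exact orderOf_dvd_of_pow_eq_one (hprime p hp)
    have hfin : a ^ (n / ∏ p ∈ n.primeFactors, p) = 1 := orderOf_dvd_iff_pow_eq_one.mp ho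
    have h2 : ((r ^ (n / ∏ p ∈ n.primeFactors, p) : ℕ) : ZMod m) = ((1 : ℕ) : ZMod m) := by
      simpa [ha] using hfin
    exact (ZMod.natCast_eq_natCast_iff' _ _ _).mp h2
  refine ⟨n, m, r, hn, hm, hcop1, hcopnm, hr1, hrad, ?_⟩
  apply nonempty_equiv x y hn hm hcoprm hxn hym hxy hgen
  have h1 : Nat.card (commutator N) * Nat.card H = Nat.card N := hH.card_mul_card
  rw [← h1]
  exact (Nat.mul_comm _ _).le

/-- `A₅` is not solvable. -/
theorem not_solvable_a5 : ¬ IsSolvable (alternatingGroup (Fin 5)) := by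
  intro h
  have hs : IsSimpleGroup (alternatingGroup (Fin 5)) := alternatingGroup.isSimpleGroup_five
  have h1 : ¬ ∀ a b : alternatingGroup (Fin 5), a * b = b * a := by decide
  exact h1 (IsSimpleGroup.comm_iff_isSolvable.2 h)

end Cfsg.Agent.Lib.Coprime.ZGroupPres
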